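/-
Alternating sections of the groups of type `E₆`: covers of `A₁₂` on a module of dimension 27.
-/
import Cfsg.Agent.Chev.AltSec11
import Cfsg.Agent.Known.AltCovComm

set_option autoImplicit false

open Equiv Equiv.Perm Module Subgroup Cfsg
open scoped commutatorElement

namespace CL.AltEx

open CL.Known CL.AltGL CL.Grp

universe u

theorem card_le_sq' {H k V : Type*} [Group H] [Finite H] [Field k] [AddCommGroup V] [Module k V] [FiniteDimensional k V]
    [Nontrivial V] {ρ : Representation k H V} (hs : ∀ z ∈ center H, ∃ c : k, ρ z = c • 1) {R : Subgroup H}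
    (h1 : ⁅R, R⁆ ≤ center H) (h2 : ∀ y ∈ R, (∀ x ∈ R, ρ (x * y) = ρ (y * x)) → y ∈ center H) :
    Nat.card (R.map (QuotientGroup.mk' (center H))) ≤ finrank k V ^ 2 := by
  choose! c hc using hs
  choose y hy e using fun j : R.map (QuotientGroup.mk' (center H)) => mem_map.1 j.2
  haveI := Fintype.ofFinite (R.map (QuotientGroup.mk' (center H)))
  rw [Nat.card_eq_fintype_card, sq, ← Module.finrank_linearMap k k V V, ← finrank_top]
  refine card_le_of_weights (fun x : R => LinearMap.mulLeft k (ρ x) * LinearMap.mulRight k (ρ (x : H)⁻¹)) ⊤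
    (fun j x => c ⁅(x : H), y j⁆) (fun i j hij => ?_) fun j => ⟨ρ (y j), trivial, fun h => ?_, fun x => ?_⟩
  · refine Subtype.ext (((e i).symm.trans (QuotientGroup.eq.2 (h2 _ (mul_mem (inv_mem (hy i)) (hy j))
      fun x hx => ?_))).trans (e j))
    have h3 : ρ ⁅x⁻¹, y i⁆ = ρ ⁅x⁻¹, y j⁆ := by
      rw [hc _ (h1 (commutator_mem_commutator (inv_mem hx) (hy i))),
        show c ⁅x⁻¹, y i⁆ = c ⁅x⁻¹, y j⁆ from congrFun hij ⟨x⁻¹, inv_mem hx⟩,
        ← hc _ (h1 (commutator_mem_commutator (inv_mem hx) (hy j)))]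
    rw [show x * ((y i)⁻¹ * y j) = (y i)⁻¹ * x * ⁅x⁻¹, y i⁆ * y j by rw [commutatorElement_def]; group, map_mul, map_mul,
      h3, ← map_mul, ← map_mul, commutatorElement_def]
    congr 1
    group
  · obtain ⟨v, hv⟩ := exists_ne (0 : V)
    exact hv (rep_injective ρ (y j) (by simp [h]))
  · rw [End.mul_apply, LinearMap.mulRight_apply, LinearMap.mulLeft_apply, ← smul_one_mul,
      ← hc _ (h1 (commutator_mem_commutator x.2 (hy j))), ← map_mul, ← map_mul, ← map_mul, commutatorElement_def]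
    congr 1
    group

/-- Regular elementary abelian groups. -/
def xr (n : ℕ) (f : Fin 12 → Fin n → ℕ) (a : Multiplicative (Fin n → ZMod 2)) (i : Fin 12) : Fin 12 :=
  Fin.ofNat 12 (i.val ^^^ ∑ j, f i j * (a.toAdd j).val)

/-- Regular elementary abelian groups. -/
def xA (n : ℕ) (f : Fin 12 → Fin n → ℕ) (h : ∀ a i, xr n f a (xr n f a i) = i := by decide +kernel)
    (h' : ∀ a, sign (Function.Involutive.toPerm _ (h a)) = 1 := by decide +kernel)
    (h'' : ∀ a b i, xr n f (a * b) i = xr n f a (xr n f b i) := by decide +kernel) :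
    Multiplicative (Fin n → ZMod 2) →* alternatingGroup (Fin 12) :=
  MonoidHom.mk' (fun a => ⟨Function.Involutive.toPerm _ (h a), h' a⟩) fun a b => Subtype.ext (Equiv.ext (h'' a b))

/-- A group of order eight, regular on eight points. -/
def θ8 := xA 3 fun i => if i.val < 8 then ![1, 2, 4] else 0

/-- Two four-groups. -/
def θ16 := xA 4 fun i => if i.val < 4 then ![1, 2, 0, 0] else if i.val < 8 then ![0, 0, 1, 2] else 0

/-- The type of an element. -/
def ty16 (a : Multiplicative (Fin 4 → ZMod 2)) : ℕ := (θ16 a).1.support.card / 4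

theorem perm_E6 : (∀ a, θ8 a = 1 → a = 1) ∧ (∀ a, a ≠ 1 → (θ8 (.ofAdd ![1, 0, 0])).1.support.card = (θ8 a).1.support.card) ∧
    (∀ a, swap 8 9 * (θ8 a).1 = (θ8 a).1 * swap 8 9) ∧ (∀ a, swap 8 9 * (θ16 a).1 = (θ16 a).1 * swap 8 9) ∧
    (θ8 (.ofAdd ![1, 0, 0])).1 = c3 0 2 1 * c3 0 2 3 * (swap 4 5 * swap 6 7) ∧
    (∀ a, ty16 a < 3 ∧ (ty16 a = 0 → a = 1) ∧ (ty16 a = 1 → (θ16 (.ofAdd ![1, 0, 0, 0])).1.support.card =
      (θ16 a).1.support.card) ∧ (ty16 a = 2 → (θ8 (.ofAdd ![1, 0, 0])).1.support.card = (θ16 a).1.support.card)) ∧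
    (∀ j < 3, (Finset.univ.filter fun a => ty16 a = j).card = [1, 6, 9].getD j 0) ∧
    θ8 (.ofAdd ![1, 0, 0]) ≠ 1 ∧ θ16 (.ofAdd ![1, 0, 0, 0]) ≠ 1 := by
  refine ⟨?_, ?_, ?_, ?_, ?_, ?_, ?_, ?_, ?_⟩ <;> decide +kernel

theorem conj8 {σ : alternatingGroup (Fin 12)} (hσ : σ ^ 2 = 1)
    (h : (θ8 (.ofAdd ![1, 0, 0])).1.support.card = σ.1.support.card) : IsConj (θ8 (.ofAdd ![1, 0, 0])) σ :=
  isConj_alt (by rw [← map_pow, pow_eq_one_pi, map_one]) hσ h (sign_swap (by decide)) (perm_E6.2.2.1 _)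

theorem cover_eight {Γ : Type*} [Group Γ] [Finite Γ] {τ : Γ →* alternatingGroup (Fin 12)} (hτ : IsStemExtension τ)
    (hp : commutator Γ = ⊤) (h2 : Nat.card τ.ker = 2) : ∃ (D : Subgroup Γ) (z u : D), Nat.card D = 16 ∧
      (∀ d : D, d ^ 2 = 1) ∧ z ≠ 1 ∧ τ z = 1 ∧ τ u ≠ 1 ∧ ∀ d : D, d ≠ 1 → d ≠ z → IsConj (u : Γ) d := by
  have h := altExt_of_hom hτ.1 hτ.2.1
  have h3 := (ker_subtype_comp τ).symm ▸ h2
  obtain ⟨z, hz, hz1, hzz, hw⟩ := AltCC.exists_z h3
  obtain ⟨X, hX⟩ := h.exists_lift (c3_mem_alt (a := (0 : Fin 12)) (b := 2) (x := 1) (by decide) (by decide))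
  obtain ⟨Y, hY⟩ := h.exists_lift (c3_mem_alt (a := (0 : Fin 12)) (b := 2) (x := 3) (by decide) (by decide))
  obtain ⟨B, hB⟩ := h.exists_lift (g := swap (4 : Fin 12) 5 * swap 6 7) (by simp)
  have h4 : ∀ W j, ((alternatingGroup _).subtype.comp τ) W = c3 0 2 j → j = 1 ∨ j = 3 → Commute W B := fun W j e hj => by
    have hc : Commute (((alternatingGroup _).subtype.comp τ) W) (((alternatingGroup _).subtype.comp τ) B) := by
      rw [e, hB, commute_iff_eq]; rcases hj with rfl | rfl <;> decide +kernel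
    have h5 := h.comm_cube (e ▸ isThreeCycle_c3 (by decide) (by omega) (by omega)) hc
    rw [← commutatorElement_eq_one_iff_commute]
    refine (hw _ (AltExt.comm_mem_ker hc)).resolve_right fun e => hz1 ?_
    rwa [e, pow_three', hzz, one_mul] at h5
  have h5 : τ (X * Y * B) = θ8 (.ofAdd ![1, 0, 0]) := Subtype.ext (by
    rw [perm_E6.2.2.2.2.1, ← hX, ← hY, ← hB, map_mul, map_mul]; rfl)
  have h6 : (X * Y * B) ^ 2 = 1 := by
    rw [((h4 X 1 hX (.inl rfl)).mul_left (h4 Y 3 hY (.inr rfl))).mul_pow, sq, sq,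
      AltCC.sq_dbl h hp h3 hz hz1 hzz hw (a := 0) (b := 2) (i := 1) (j := 3) (by decide) (by decide) (by decide) (by decide)
        (by decide) (by decide) (by rw [map_mul, hX, hY]; decide +kernel),
      AltCC.sq_dbl h hp h3 hz hz1 hzz hw (by decide) (by decide) (by decide) (by decide) (by decide) (by decide) hB, hzz]
  obtain ⟨C, hC⟩ := AltCC.nonsplit h hp h3 hz hz1 hzz hw (A := X * Y * B) ⟨0, 1, 2, 3, by
    rw [MonoidHom.comp_apply, h5]; decide +kernel⟩
  generalize X * Y * B = u at h5 h6 hC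
  have hz' : τ z = 1 := Subtype.ext hz
  have h7 : ∀ d ∈ θ8.range.comap τ, d ≠ 1 → d ≠ z → IsConj u d := fun d ⟨a, ha⟩ h0 h0' => by
    obtain ⟨g, hg⟩ := isConj_iff.1 (conj8 (by rw [← map_pow, pow_eq_one_pi, map_one]) (perm_E6.2.1 a fun e =>
      (hw d (congrArg Subtype.val (show τ d = 1 by rw [← ha, e, map_one]))).elim h0 h0'))
    obtain ⟨g, rfl⟩ := hτ.1 g
    have h8 : τ (g⁻¹ * d * g * u⁻¹) = 1 := by simp [← ha, ← hg, h5, mul_assoc]
    refine IsConj.trans ?_ (isConj_iff.2 ⟨g, show g * (g⁻¹ * d * g) * g⁻¹ = d by group⟩)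
    rcases hw _ (congrArg Subtype.val h8) with e | e
    · rw [mul_inv_eq_one.1 e]
    · exact isConj_iff.2 ⟨C, by rw [mul_inv_eq_iff_eq_mul.1 e, hC, mul_inv_cancel_right]⟩
  refine ⟨θ8.range.comap τ, ⟨z, 1, by rw [hz', map_one]⟩, ⟨u, _, h5.symm⟩, ?_, fun d => Subtype.ext ?_,
    fun e => hz1 (congrArg Subtype.val e), hz', h5.trans_ne perm_E6.2.2.2.2.2.2.2.1,
    fun d h0 h0' => h7 d d.2 (fun e => h0 (Subtype.ext e)) fun e => h0' (Subtype.ext e)⟩
  · rw [← (τ.ker.subgroupOf _).card_mul_index, Nat.card_congr (subgroupOfEquivOfLe (τ.ker_le_comap _)).toEquiv, h2,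
      ← relIndex, relIndex_ker, map_comap_eq_self_of_surjective hτ.1, ← Nat.card_congr (MonoidHom.ofInjective
        ((injective_iff_map_eq_one θ8).2 perm_E6.1)).toEquiv, Nat.card_eq_fintype_card]
    rfl
  · change (d : Γ) ^ 2 = 1
    by_cases h0 : (d : Γ) = 1
    · rw [h0, one_pow]
    by_cases h0' : (d : Γ) = z
    · rw [h0', sq, hzz]
    obtain ⟨g, hg⟩ := isConj_iff.1 (h7 d d.2 h0 h0')
    rw [← hg, conj_pow, h6, mul_one, mul_inv_cancel]

section Main
variable {k V : Type} [Field k] [IsAlgClosed k] [AddCommGroup V] [Module k V] [FiniteDimensional k V]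
  (hk : ((2 : ℕ) : k) ≠ 0) (hV : finrank k V = 27) {H : Type u} [Group H] [Finite H] {σ : Representation k H V}
  (hσ : ∀ h, σ h = 1 → h = 1) {π : H →* alternatingGroup (Fin 12)} (hπ : Min π)
  (hinv : ∀ z : H, z ^ 2 = 1 → z ≠ 1 → finrank k (End.eigenspace (σ z) 1) = 15 ∨ finrank k (End.eigenspace (σ z) 1) = 11)
include hk hV hσ hπ hinv

theorem core_two_le : pCore 2 H ≤ center H := by
  by_contra h
  obtain ⟨R, hn, -, h1, h2, h3, h4, h5⟩ := hπ.exists_big (by simp) 2 h
  have hk' : (-1 : k) ≠ 1 := fun e => hk (by push_cast; linear_combination -e)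
  by_cases hc : ∀ a ∈ R, ∀ b ∈ R, Commute a b
  · let N : Subgroup H :=
      { carrier := {y | y ∈ R ∧ y ^ 2 = 1}
        one_mem' := ⟨one_mem _, one_pow _⟩
        mul_mem' := fun {a b} ha hb => ⟨mul_mem ha.1 hb.1, by rw [(hc a ha.1 b hb.1).mul_pow, ha.2, hb.2, one_mul]⟩
        inv_mem' := fun {a} ha => ⟨inv_mem ha.1, by rw [inv_pow, ha.2, inv_one]⟩ }
    have hN : N.Normal := ⟨fun a ha g => ⟨hn.conj_mem a ha.1 g, by rw [conj_pow, ha.2, mul_one, mul_inv_cancel]⟩⟩
    rcases (show N ≤ R from fun _ h => h.1).lt_or_eq with e | e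
    · refine h1 fun x hx => hπ.mem_center (by simp) fun g => h2 N hN e ⟨mul_mem (hn.conj_mem x hx g) (inv_mem hx), ?_⟩
      rw [commutatorElement_def, (hc _ (hn.conj_mem x hx g) _ (inv_mem hx)).mul_pow, conj_pow,
        mem_center_iff.1 (h4 x hx) g, inv_pow, mul_inv_cancel_right, mul_inv_cancel]
    have h6 := card_dvd_of_two (σ.comp R.subtype) hk (fun g => Subtype.ext (e.ge g.2).2) fun g hg =>
      hinv g (e.ge g.2).2 fun h => hg (Subtype.ext h)
    have h7 := Int.le_of_dvd (by rw [hV]; decide) h6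
    have h8 := h5.trans (Nat.le_of_dvd Nat.card_pos (card_map_dvd _ _))
    rw [hV] at h7
    simp at h7 h8
    omega
  push Not at hc
  obtain ⟨a, ha, b, hb, hab⟩ := hc
  have hz := h3 (commutator_mem_commutator ha hb)
  have h6 : ⁅a, b⁆ ^ 2 = 1 := by rw [← comm_pow_left hz, comm_eq_one_of_center (h4 a ha)]
  obtain ⟨w, hw⟩ : ∃ w, σ ⁅a, b⁆ w ≠ w := by
    by_contra! e
    exact hab (commutatorElement_eq_one_iff_commute.1 (hσ _ (LinearMap.ext e)))
  obtain ⟨v, h7, h0, hv⟩ := exists_common_eigenvector (fun z : center H => σ z) (U := End.eigenspace (σ ⁅a, b⁆) (-1))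
    (fun x y => (show Commute (x : H) y from mem_center_iff.1 y.2 x).map σ) ((Submodule.ne_bot_iff _).2
      ⟨σ ⁅a, b⁆ w - w, End.mem_eigenspace_iff.2 (by
        rw [map_sub, ← End.mul_apply, ← map_mul, ← sq, h6, map_one, End.one_apply, neg_one_smul, neg_sub]), sub_ne_zero.2 hw⟩)
    fun x v hv => mem_eigen_of_commute (mem_center_iff.1 hz x) hv
  choose c hc using hv
  let W := ⨅ z : center H, End.eigenspace (σ z) (c z)
  have hW : ∀ g, W ≤ W.comap (σ g) := fun g w hw => (Submodule.mem_iInf _).2 fun z =>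
    mem_eigen_of_commute (mem_center_iff.1 z.2 g) ((Submodule.mem_iInf _).1 hw z)
  have hv : v ∈ W := (Submodule.mem_iInf _).2 fun z => End.mem_eigenspace_iff.2 (hc z)
  haveI : Nontrivial W := ⟨⟨v, hv⟩, 0, fun e => h0 (congrArg Subtype.val e)⟩
  let ρ := σ.subrepresentation W hW
  let φ := QuotientGroup.mk' (MonoidHom.ker ρ)
  have hφ : ∀ x y, φ x = φ y ↔ ρ x = ρ y := fun x y => QuotientGroup.eq.trans ⟨fun h => by
    rw [← mul_one (ρ x), ← h, ← map_mul, mul_inv_cancel_left], fun h => by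
      rw [MonoidHom.mem_ker, map_mul, ← h, ← map_mul, inv_mul_cancel, map_one]⟩
  haveI := hn.map φ (QuotientGroup.mk'_surjective _)
  have h8 := card_le_sq' (ρ := ρ) (fun z hz => ⟨c ⟨z, hz⟩, LinearMap.ext fun w => Subtype.ext
    (End.mem_eigenspace_iff.1 ((Submodule.mem_iInf _).1 w.2 ⟨z, hz⟩))⟩) h3 fun y hy h =>
    h2 (R ⊓ (centralizer (R.map φ)).comap φ) inferInstance (lt_of_le_of_ne inf_le_left fun e => ?_) ⟨hy, by
      rintro _ ⟨x, hx, rfl⟩
      rw [← map_mul, ← map_mul, hφ, h x hx]⟩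
  · have h9 := (h5.trans h8).trans (Nat.pow_le_pow_left W.finrank_le 2)
    rw [hV] at h9
    simp at h9
  have h9 := (e.ge hb).2 _ (mem_map_of_mem φ ha)
  rw [← commutatorElement_eq_one_iff_mul_comm, ← map_commutatorElement, ← map_one φ, hφ, map_one] at h9
  have h10 : σ ⁅a, b⁆ v = v := congrArg Subtype.val (LinearMap.congr_fun h9 ⟨v, hv⟩)
  exact h0 ((smul_eq_zero.1 (show (-1 - 1 : k) • v = 0 by
    rw [sub_smul, ← End.mem_eigenspace_iff.1 h7, h10, one_smul, sub_self])).resolve_left (sub_ne_zero.2 hk'))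

theorem not_twelve (p : ℕ) [Fact p.Prime] [CharP k p] (hp : ¬ p ∣ 12)
    (hU : ∀ z ∈ center H, z ^ 2 = 1 → finrank k (End.eigenspace (σ z) 1) = 11 →
      ∃ U : Submodule k V, U ≠ ⊥ ∧ U < End.eigenspace (σ z) 1 ∧ ∀ h, U ≤ U.comap (σ h)) : False := by
  classical
  have hO := core_two_le hk hV hσ hπ hinv
  have h' := hπ.core_le (by simp) 2 (dvd_trans (by
    rw [nat_card_alternatingGroup (α := Fin 12), Nat.card_eq_fintype_card, Fintype.card_fin]; decide)
      (card_dvd_of_surjective π hπ.surj))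
  have hS := hπ.stem (by simp) 2 hO h'
  have h0 : finrank k (End.eigenspace (σ 1) 1) = 27 := by
    rw [map_one, show End.eigenspace (1 : End k V) 1 = ⊤ from eq_top_iff.2 fun v _ => End.mem_eigenspace_iff.2 (by simp),
      finrank_top, hV]
  rcases (Nat.dvd_prime Nat.prime_two).1 (card_ker_dvd_two hS (Or.inr (by simp))) with h1 | h1
  · have hK : ¬ 2 ∣ Nat.card π.ker := fun h => not_dvd_card_pPrimeCore 2 H (h.trans (card_dvd_of_le fun x hx =>
      (QuotientGroup.eq_one_iff x).1 ((Subgroup.eq_bot_iff_forall _).1 (card_eq_one.1 h1) (x : H ⧸ pPrimeCore 2 H) hx)))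
    obtain ⟨s, hs⟩ := exists_section hK hπ.surj isPGroup_pi θ8
    obtain ⟨t, ht⟩ := exists_section hK hπ.surj isPGroup_pi θ16
    have a1 : ∀ a, s a ^ 2 = 1 := fun a => by rw [← map_pow, pow_eq_one_pi, map_one]
    have a2 : ∀ a, t a ^ 2 = 1 := fun a => by rw [← map_pow, pow_eq_one_pi, map_one]
    have a3 := hinv _ (a1 (.ofAdd ![1, 0, 0])) fun e => perm_E6.2.2.2.2.2.2.2.1 (by rw [← hs, e, map_one])
    have a4 := hinv _ (a2 (.ofAdd ![1, 0, 0, 0])) fun e => perm_E6.2.2.2.2.2.2.2.2 (by rw [← ht, e, map_one])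
    obtain ⟨d, a5⟩ := sum_fix (σ.comp s) mul_comm Nat.prime_two hk pow_eq_one_pi
    obtain ⟨d', a6⟩ := sum_fix (σ.comp t) mul_comm Nat.prime_two hk pow_eq_one_pi
    change 2 * ∑ g, finrank k (End.eigenspace (σ (s g)) 1) = _ at a5
    change 2 * ∑ g, finrank k (End.eigenspace (σ (t g)) 1) = _ at a6
    rw [← Finset.add_sum_erase _ _ (Finset.mem_univ 1), Finset.sum_const_nat fun a ha => finrank_eigen_conj σ
      (isConj_of_map hK hπ.surj (n := 1) (a1 _) (a1 a) (by
        rw [hs, hs]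
        exact conj8 (by rw [← map_pow, pow_eq_one_pi, map_one]) (perm_E6.2.1 a (Finset.ne_of_mem_erase ha)))) 1,
      Finset.card_erase_of_mem (Finset.mem_univ _), Finset.card_univ, map_one s, h0, hV,
      show Fintype.card (Multiplicative (Fin 3 → ZMod 2)) = 8 from rfl] at a5
    rw [sum_wt ty16 3 (fun a => (perm_E6.2.2.2.2.2.1 a).1) (f := fun g => finrank k (End.eigenspace (σ (t g)) 1))
      (F := fun j => [27, finrank k (End.eigenspace (σ (t (.ofAdd ![1, 0, 0, 0]))) 1),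
        finrank k (End.eigenspace (σ (s (.ofAdd ![1, 0, 0]))) 1)].getD j 0) fun a => ?_, hV,
      show Fintype.card (Multiplicative (Fin 4 → ZMod 2)) = 16 from rfl] at a6
    · simp only [Finset.sum_range_succ, Finset.sum_range_zero, perm_E6.2.2.2.2.2.2.1 0 (by decide),
        perm_E6.2.2.2.2.2.2.1 1 (by decide), perm_E6.2.2.2.2.2.2.1 2 (by decide), List.getD_cons_zero,
        List.getD_cons_succ] at a6
      omega
    obtain ⟨b1, b2, b3, b4⟩ := perm_E6.2.2.2.2.2.1 a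
    have b5 : θ16 a ^ 2 = 1 := by rw [← map_pow, pow_eq_one_pi, map_one]
    obtain e | e | e : ty16 a = 0 ∨ ty16 a = 1 ∨ ty16 a = 2 := by omega
    · rw [e, b2 e, map_one t, h0]; rfl
    · rw [e]
      exact finrank_eigen_conj σ (isConj_of_map hK hπ.surj (n := 1) (a2 _) (a2 a) (by
        rw [ht, ht]
        exact isConj_alt (by rw [← map_pow, pow_eq_one_pi, map_one]) b5 (b3 e) (sign_swap (by decide))
          (perm_E6.2.2.2.1 _))) 1
    · rw [e]
      exact finrank_eigen_conj σ (isConj_of_map hK hπ.surj (n := 1) (a1 _) (a2 a) (by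
        rw [hs, ht]; exact conj8 b5 (b4 e))) 1
  obtain ⟨D, z, u, b1, b2, b3, b4, b5, b6⟩ := cover_eight hS ((hπ.quot _ h').perfect (by simp)) h1
  have hK : ¬ 2 ∣ Nat.card (QuotientGroup.mk' (pPrimeCore 2 H)).ker := by
    rw [QuotientGroup.ker_mk']; exact not_dvd_card_pPrimeCore 2 H
  obtain ⟨s, hs⟩ := exists_section hK (QuotientGroup.mk'_surjective _) (fun d => ⟨1, b2 d⟩) D.subtype
  have a1 : ∀ a, s a ^ 2 = 1 := fun a => by rw [← map_pow, b2, map_one]
  have a2 : ∀ a, a ≠ 1 → s a ≠ 1 := fun a ha e => ha (Subtype.ext ((hs a).symm.trans (by rw [e, map_one]; rfl)))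
  have a3 : ∀ a, a ≠ 1 → a ≠ z → finrank k (End.eigenspace (σ (s a)) 1) = finrank k (End.eigenspace (σ (s u)) 1) :=
    fun a h1 h2 => finrank_eigen_conj σ (isConj_of_map hK (QuotientGroup.mk'_surjective _) (n := 1) (a1 _) (a1 a)
      (by rw [hs, hs]; exact b6 a h1 h2)) 1
  have a4 : s z ∈ center H := hO (le_pCore_of_le_fittingSubgroup (P := zpowers (s z)) (IsPGroup.of_card (n := 1) (by
    rw [Nat.card_zpowers, orderOf_eq_prime (a1 z) (a2 z b3), pow_one])) (zpowers_le.2 (hπ.ker_le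
      ((congrArg (QuotientGroup.lift _ π h') (hs z)).trans b4))) (mem_zpowers _))
  have a5 : u ≠ 1 := fun e => b5 (by rw [e]; exact map_one _)
  have a6 := hinv _ (a1 u) (a2 u a5)
  haveI := Fintype.ofFinite D
  have hc : ∀ a b : D, a * b = b * a := fun a b => by
    have i : ∀ x : D, x⁻¹ = x := fun x => inv_eq_of_mul_eq_one_right (by rw [← sq, b2])
    rw [← i (a * b), mul_inv_rev, i, i]
  obtain ⟨d, a7⟩ := sum_fix (σ.comp s) hc Nat.prime_two hk b2
  change 2 * ∑ g, finrank k (End.eigenspace (σ (s g)) 1) = _ at a7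
  rw [← Finset.add_sum_erase _ _ (Finset.mem_univ 1), ← Finset.add_sum_erase _ _
    (Finset.mem_erase.2 ⟨b3, Finset.mem_univ z⟩), Finset.sum_const_nat fun a ha => a3 a
      (Finset.ne_of_mem_erase (Finset.mem_of_mem_erase ha)) (Finset.ne_of_mem_erase ha),
    Finset.card_erase_of_mem (Finset.mem_erase.2 ⟨b3, Finset.mem_univ z⟩), Finset.card_erase_of_mem (Finset.mem_univ _),
    Finset.card_univ, ← Nat.card_eq_fintype_card, b1, map_one s, h0, hV] at a7
  have a8 : finrank k (End.eigenspace (σ (s z)) 1) = 11 := (hinv _ (a1 z) (a2 z b3)).resolve_left (by omega)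
  obtain ⟨U, c1, c2, c3⟩ := hU _ a4 (a1 z) a8
  set W := End.eigenspace (σ (s z)) 1
  have hW : ∀ g, W ≤ W.comap (σ g) := fun g w hw => mem_eigen_of_commute (mem_center_iff.1 a4 g) hw
  have key : ∀ (X : Type) [AddCommGroup X] [Module k X] [FiniteDimensional k X] (ρ : Representation k H X),
      finrank k X ≤ 10 → ∀ g, ρ g = 1 := fun X _ _ _ ρ hX g =>
    ((hπ.normal (by simp) (MonoidHom.ker ρ)).resolve_right fun e =>
      hp (bound _ p k X H ρ 12 π rfl hπ.surj (fun h hh => e hh) (by decide) (by omega)).2).ge (mem_top g)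
  have d1 := Submodule.finrank_lt_finrank_of_lt c2
  have d2 := Submodule.one_le_finrank_iff.2 c1
  have d3 := (U.submoduleOf W).finrank_quotient_add_finrank
  rw [(Submodule.submoduleOfEquivOfLe c2.le).finrank_eq] at d3
  have f1 : ∀ h, ∀ v ∈ U, σ h v = v := fun h v hv =>
    congrArg Subtype.val (LinearMap.congr_fun (key _ (σ.subrepresentation U c3) (by omega) h) ⟨v, hv⟩)
  have f2 : ∀ h, ∀ v ∈ W, σ h v - v ∈ U := fun h v hv => (Submodule.Quotient.eq (U.submoduleOf W)).1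
    (LinearMap.congr_fun (key _ ((σ.subrepresentation W hW).quotient (U.submoduleOf W) fun g x hx => c3 g hx)
      (by omega) h) (Submodule.Quotient.mk ⟨v, hv⟩))
  have f0 : ∀ a v, σ (s a) (σ (s a) v) = v := fun a v => by
    rw [← End.mul_apply, ← map_mul, ← sq, a1, map_one, End.one_apply]
  have hk' : (2 : k) ≠ 0 := by exact_mod_cast hk
  have f3 : ∀ a, ∀ v ∈ W, σ (s a) v = v := fun a v hv => smul_right_injective V hk' (by
    have := f1 (s a) _ (f2 (s a) v hv)
    rw [map_sub, f0] at this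
    linear_combination (norm := module) -this)
  have f4 : End.eigenspace (σ (s u)) 1 ⊔ End.eigenspace (σ (s (u * z))) 1 = ⊤ := eq_top_iff.2 fun v _ => by
    rw [show v = (2 : k)⁻¹ • (v + σ (s u) v) + (2 : k)⁻¹ • (v - σ (s u) v) by
      rw [← smul_add, add_add_sub_cancel, ← two_smul k, inv_smul_smul₀ hk']]
    refine Submodule.add_mem_sup (Submodule.smul_mem _ _ (End.mem_eigenspace_iff.2 ?_))
      (Submodule.smul_mem _ _ (End.mem_eigenspace_iff.2 ?_))
    · rw [map_add, f0, one_smul, add_comm]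
    have e1 : σ (s u) (v - σ (s u) v) = -(v - σ (s u) v) := by rw [map_sub, f0, neg_sub]
    generalize v - σ (s u) v = w at e1
    have e2 := f3 u (w + σ (s z) w) (End.mem_eigenspace_iff.2 (by rw [map_add, f0, one_smul, add_comm]))
    rw [map_add, ← End.mul_apply _ (σ (s z)), ← map_mul, mem_center_iff.1 a4, map_mul, End.mul_apply, e1, map_neg] at e2
    rw [map_mul, mem_center_iff.1 a4, map_mul, End.mul_apply, e1, map_neg, one_smul]
    exact smul_right_injective V hk' (by linear_combination (norm := module) e2)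
  have f5 := Submodule.finrank_sup_add_finrank_inf_eq (End.eigenspace (σ (s u)) 1) (End.eigenspace (σ (s (u * z))) 1)
  have f6 := Submodule.finrank_mono (show W ≤ End.eigenspace (σ (s u)) 1 ⊓ End.eigenspace (σ (s (u * z))) 1 from
    fun v hv => ⟨End.mem_eigenspace_iff.2 (by rw [f3 _ v hv, one_smul]), End.mem_eigenspace_iff.2 (by
      rw [f3 _ v hv, one_smul])⟩)
  rw [f4, finrank_top, hV, a3 (u * z) (fun e => b5 (by
    rw [eq_inv_of_mul_eq_one_left e, Subgroup.coe_inv, map_inv, b4, inv_one])) fun e => a5 (mul_eq_right.1 e)] at f5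
  omega

end Main

end CL.AltEx
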