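import Cfsg.Agent.Chev.Cub4
import Cfsg.Agent.Chev.TwOutReal
import Cfsg.Agent.Chev.AlgStab

/-!
# The isometry group of the cubic form in 27 variables is the universal group of type `E₆`
-/

set_option autoImplicit false

namespace CL.Chev.Cub

open Cfsg Cfsg.Lie Cert Matrix CL.Cox

variable {F : Type*} [Field F]

def dp (j k : ℕ) : ℕ := dig dpT 4 (Nat.add (Nat.mul 6 j) k)

set_option synthInstance.maxSize 1024 in
theorem chkT : (∀ i < 6, auxE6.sim i < 72 ∧ sr (auxE6.sim i) 0 = 0 ∧ dp 0 i = 0 ∧ (sr (71 - auxE6.sim i) 0 = 0 ↔ i ≠ 0)) ∧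
    ∀ j < 27, j = 0 ∨ (dig piT 4 j < 6 ∧ dig pjT 5 j < 27 ∧ ar (71 - auxE6.sim (dig piT 4 j)) (dig pjT 5 j) = j ∧
      sr (71 - auxE6.sim (dig piT 4 j)) (dig pjT 5 j) ≠ 0 ∧
      ∑ k ∈ Finset.range 6, dp (dig pjT 5 j) k < ∑ k ∈ Finset.range 6, dp j k ∧
      ∀ k < 6, dp j k = dp (dig pjT 5 j) k + if k = dig piT 4 j then 1 else 0) := by decide +kernel

theorem er_bv {r j : ℕ} (hr : r < 72) (hj : j < 27) : er F r *ᵥ bv F (ofIx j) = (sr r j : F) • bv F (ofIx (ar r j)) := by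
  rw [er, pm_bv (ar_lt hr), ix_ofIx hj]

variable {M : Matrix I27 I27 F} {c : Fin 6 → Fˣ} {π : Equiv.Perm (Fin 6)}

theorem top_eigen (h : ∀ i : Fin 6, M * er F (auxE6.sim i) = (c i : F) • er F (auxE6.sim (π i)) * M) :
    M *ᵥ bv F (ofIx 0) = M (ofIx 0) (ofIx 0) • bv F (ofIx 0) := by
  ext j
  rcases chkT.2 _ (ix_lt j) with a | ⟨a1, a2, a3, a4, -⟩
  · rw [← ofIx_ix j, a]; simp [bv]
  obtain ⟨i, hi⟩ := π.surjective ⟨_, a1⟩
  have e := congrFun (congrArg (· *ᵥ bv F (ofIx 0)) (h i)) (ofIx (dig pjT 5 (ix j)))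
  simp only [← mulVec_mulVec, er_bv (chkT.1 i i.2).1 (show 0 < 27 by decide), (chkT.1 i i.2).2.1, Int.cast_zero, zero_smul,
    mulVec_zero, smul_mulVec, hi, Pi.smul_apply, er_mulVec (chkT.1 _ a1).1, ix_ofIx a2, a3, ofIx_ix, Pi.zero_apply,
    smul_eq_mul, zero_eq_mul, Units.ne_zero, false_or] at e
  replace e := (mul_eq_zero.1 e).resolve_left (sr_ne (by omega) a2 a4)
  have : j ≠ ofIx 0 := by
    rintro rfl
    exact ((((chkA _ (by omega)).2.2 _ a2).2 a4).1 (by revert a3; decide +kernel))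
  rw [e]
  simp [bv, this]

theorem all_eigen (h : ∀ i : Fin 6, M * er F (auxE6.sim i) = (c i : F) • er F (auxE6.sim i) * M)
    (h' : ∀ i : Fin 6, M * er F (71 - auxE6.sim i) = ((c i)⁻¹ : F) • er F (71 - auxE6.sim i) * M) {j : ℕ} (hj : j < 27) :
    M *ᵥ bv F (ofIx j) = (M (ofIx 0) (ofIx 0) * ∏ k : Fin 6, (c k : F)⁻¹ ^ dp j k) • bv F (ofIx j) := by
  induction hn : ∑ k ∈ Finset.range 6, dp j k using Nat.strong_induction_on generalizing j with | _ m ih =>
  rcases chkT.2 j hj with rfl | ⟨a1, a2, a3, a4, a5, a6⟩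
  · simpa [fun k : Fin 6 => (chkT.1 k k.2).2.2.1] using top_eigen (π := 1) h
  have e := congrArg (· *ᵥ bv F (ofIx (dig pjT 5 j))) (h' ⟨_, a1⟩)
  simp only [← mulVec_mulVec, ih _ (hn ▸ a5) a2 rfl, smul_mulVec, mulVec_smul,
    er_bv (show 71 - auxE6.sim (dig piT 4 j) < 72 by omega) a2, a3, smul_smul] at e
  refine smul_right_injective _ (sr_ne (by omega) a2 a4) (e.trans ?_)
  simp only [smul_smul, fun k : Fin 6 => a6 k k.2, pow_add, Finset.prod_mul_distrib, pow_ite, pow_one, pow_zero,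
    show ∀ k : Fin 6, (k : ℕ) = dig piT 4 j ↔ k = ⟨_, a1⟩ from fun k => by rw [Fin.ext_iff], Finset.prod_ite_eq',
    Finset.mem_univ, if_true]
  congr 1
  ring

theorem scalar_of_comm (h : ∀ i : Fin 6, M * er F (auxE6.sim i) = er F (auxE6.sim i) * M)
    (h' : ∀ i : Fin 6, M * er F (71 - auxE6.sim i) = er F (71 - auxE6.sim i) * M) : M = M (ofIx 0) (ofIx 0) • 1 :=
  ext_bv fun j => by
    simpa [smul_mulVec] using all_eigen (M := M) (c := 1) (by simpa using h) (by simpa using h') (ix_lt j)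

theorem exists_torus (hF : ∃ s : F, s ≠ 0 ∧ s ≠ 1) (hM : ∀ v, cubicT (M *ᵥ v) = cubicT v)
    (h : ∀ i : Fin 6, M * er F (auxE6.sim i) = (c i : F) • er F (auxE6.sim i) * M)
    (h' : ∀ i : Fin 6, M * er F (71 - auxE6.sim i) = ((c i)⁻¹ : F) • er F (71 - auxE6.sim i) * M) :
    ∃ d, matPow Fˣ cE6 d = c := by
  have e := tv_inv hF hM (bv F (ofIx 0)) (bv F (ofIx 4)) (bv F (ofIx 8))
  rw [all_eigen h h' (by decide), all_eigen h h' (by decide), all_eigen h h' (by decide), tv_smul, tv_smul₂, tv_smul₃, tv_bv,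
    show sg (ix (ofIx 0)) (ix (ofIx 4)) = 1 by decide +kernel, show cr (ix (ofIx 0)) (ix (ofIx 4)) = 8 by decide +kernel] at e
  have d : ∀ k : Fin 6, dp 0 k + dp 4 k + dp 8 k = ![4, 3, 5, 6, 4, 2] k := by decide +kernel
  replace e : M (ofIx 0) (ofIx 0) ^ 3 * ∏ k : Fin 6, (c k : F)⁻¹ ^ ![4, 3, 5, 6, 4, 2] k = 1 := by
    simp only [← d, pow_add, Finset.prod_mul_distrib]
    simp only [bv, Pi.single_eq_same, Int.cast_one] at e
    linear_combination e
  let l : Fˣ := Units.mk0 (M (ofIx 0) (ofIx 0)) fun h0 => by simp [h0] at e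
  have e' : ∏ i, (Fin.cons l c : Fin 7 → Fˣ) i ^ (![3, -4, -3, -5, -6, -4, -2] : Fin 7 → ℤ) i = 1 := Units.ext (by
    refine Eq.trans ?_ e
    simp [Fin.prod_univ_succ, l]
    exact Or.inl (by ring))
  refine ⟨matPow Fˣ !![1, 0, -1, 0, 4, 2; 0, 1, 3, 2, -4, -2; 0, 2, 3, 3, -2, -1; 0, 2, 5, 4, -4, -2; 0, 3, 6, 6, -4, -2;
    0, 2, 4, 4, -2, -1; 0, 1, 2, 2, -1, 0] (Fin.cons l c : Fin 7 → Fˣ), funext fun j => ?_⟩
  have k : ∀ (i : Fin 7) (j : Fin 6), ((!![1, 0, -1, 0, 4, 2; 0, 1, 3, 2, -4, -2; 0, 2, 3, 3, -2, -1; 0, 2, 5, 4, -4, -2;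
      0, 3, 6, 6, -4, -2; 0, 2, 4, 4, -2, -1; 0, 1, 2, 2, -1, 0] : Matrix (Fin 7) (Fin 6) ℤ) * cE6) i j =
      (if i = j.succ then 1 else 0) + ![3, -4, -3, -5, -6, -4, -2] i * ![1, 0, -1, -1, 2, 0] j := by decide +kernel
  rw [← matPow_mul]
  simp only [matPow_apply, k, _root_.zpow_add, _root_.zpow_mul, Finset.prod_mul_distrib, Finset.prod_zpow, e']
  simp

variable (hF : ∃ s : F, s ≠ 0 ∧ s ≠ 1)
include hF

theorem scalar_of_rho {g : E6univ F} (h : rho hF g = 1) : ∃ z : F, vl g = z • 1 := by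
  have k : ∀ r : Fin chevE6.nroots, vl g * er F r = er F r * vl g := fun r => by
    have := congrArg (· * vl g) (B_rho hF g (Pi.single (.inr r) 1))
    rw [h, Units.val_one, one_mulVec] at this
    simpa [B_single, bas, Matrix.mul_assoc, vl_inv_mul] using this.symm
  exact ⟨_, scalar_of_comm (fun i => k ⟨_, (chkT.1 i i.2).1⟩) fun i => k ⟨_, show 71 - auxE6.sim i < 72 by omega⟩⟩

theorem rho_eq_one_iff (g : E6univ F) : rho hF g = 1 ↔ g ∈ Subgroup.center (E6univ F) := by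
  refine ⟨fun h => Subgroup.mem_center_iff.2 fun a => Subtype.ext (Units.ext ?_), fun h => Units.ext
    (ext_iff_mulVec.2 fun c => B_injective ?_)⟩
  · obtain ⟨z, hz⟩ := scalar_of_rho hF h
    change vl a * vl g = vl g * vl a
    rw [hz, mul_smul_comm, smul_mul_assoc, mul_one, one_mul]
  · have k : ∀ r : Fin chevE6.nroots, vl g * er F r = er F r * vl g := fun r => by
      have := congrArg vl (Subgroup.mem_center_iff.1 h (yG r 1))
      change (1 + _) * vl g = vl g * (1 + _) at this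
      simpa [mul_add, add_mul] using this.symm
    have := scalar_of_comm (fun i => k ⟨_, (chkT.1 i i.2).1⟩) fun i => k ⟨_, show 71 - auxE6.sim i < 72 by omega⟩
    rw [B_rho, show vl g * B c = B c * vl g by rw [this]; simp, Matrix.mul_assoc, vl_mul_inv]
    simp

theorem comm_of_rho {g : E6univ F} {r s : Fin chevE6.nroots} {d : F}
    (h : rho hF g * (realE6.S F).x r 1 * (rho hF g)⁻¹ = (realE6.S F).x s d) : vl g * er F r = d • er F s * vl g := by
  rw [← rho_yG hF, ← rho_yG hF, ← map_inv, ← map_mul, ← map_mul, ← mul_inv_eq_one, ← map_inv, ← map_mul] at h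
  obtain ⟨z, hz⟩ := scalar_of_rho hF h
  replace hz := congrArg (· * vl (yG s d)) hz
  rw [← vl_mul, inv_mul_cancel_right] at hz
  change vl g * (1 + _) * vl g⁻¹ = _ * (1 + _) at hz
  rw [mul_add, add_mul, mul_one, vl_mul_inv, one_smul, smul_mul_assoc, one_mul, ← eq_sub_iff_add_eq'] at hz
  have h2 : (vl g * er F r * vl g⁻¹) * (vl g * er F r * vl g⁻¹) = 0 := by
    rw [← Matrix.mul_assoc, ← Matrix.mul_assoc, Matrix.mul_assoc _ (vl g⁻¹), vl_inv_mul, Matrix.mul_one,
      Matrix.mul_assoc (vl g), er_sq r.2, Matrix.mul_zero, Matrix.zero_mul]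
  obtain rfl : z = 1 := by
    have := congrFun₂ h2 (ofIx 0) (ofIx 0)
    simp only [hz, mul_sub, sub_mul, mul_add, add_mul, smul_add, smul_mul_assoc, mul_smul_comm, mul_one, one_mul, er_sq s.2,
      Matrix.sub_apply, Matrix.add_apply, Matrix.smul_apply, er_apply s.2, (chkB _ (ix_lt _)).1, one_apply_eq] at this
    exact sub_eq_zero.1 (mul_self_eq_zero.1 (by simp at this; linear_combination this))
  rw [← mul_one (vl g * _), ← vl_inv_mul g, ← Matrix.mul_assoc, hz]
  simp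

theorem rho_mem [Finite F] (g : E6univ F) : rho hF g ∈ (realE6.S F).grp := by
  have h := realE6.full_res F
  let θ := (realE6.S F).grp.normalizerMonoidHom ⟨rho hF g, mem_normalizer_of_conj (fun _ => rho_conj_mem hF g)
    fun n hn => by simpa using rho_conj_mem hF g⁻¹ hn⟩
  obtain ⟨x, hx⟩ := h.exists_conj_mul_mem_A0 θ
  obtain ⟨π, c, φ, ⟨a1, a2⟩, a3, -⟩ := h.exists_acts hx
  obtain ⟨e, he⟩ := grp_le hF x.2
  have b1 : ∀ i, rho hF (e * g) * (realE6.S F).x (realE6.R.simple i) 1 * (rho hF (e * g))⁻¹ =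
      (realE6.S F).x (realE6.R.simple (π i)) (c i) := fun i => by
    have := congrArg Subtype.val (a1 i 1)
    rw [map_one, mul_one] at this
    rw [map_mul, he, _root_.mul_inv_rev, ← show _ = (realE6.S F).x _ _ from this]
    change _ = (x : GL chevE6.Idx F) * (rho hF g * _ * (rho hF g)⁻¹) * (x : GL chevE6.Idx F)⁻¹
    simp only [mul_assoc]
    rfl
  have b2 : ∀ i, rho hF (e * g) * (realE6.S F).x (realE6.R.neg (realE6.R.simple i)) 1 * (rho hF (e * g))⁻¹ =
      (realE6.S F).x (realE6.R.neg (realE6.R.simple (π i))) (c i)⁻¹ := fun i => by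
    have := congrArg Subtype.val (a2 i 1)
    rw [map_one, mul_one, Units.val_inv_eq_inv_val] at this
    rw [map_mul, he, _root_.mul_inv_rev, ← show _ = (realE6.S F).x _ _ from this]
    change _ = (x : GL chevE6.Idx F) * (rho hF g * _ * (rho hF g)⁻¹) * (x : GL chevE6.Idx F)⁻¹
    simp only [mul_assoc]
    rfl
  have c1 := fun i => comm_of_rho hF (b1 i)
  have c2 := fun i => comm_of_rho hF (b2 i)
  simp only [tabE6.simple, tabE6.neg] at c1 c2
  obtain rfl : π = 1 := by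
    obtain ⟨t, ht, hπ⟩ := tabE6.sym_cases realE6 symE6 a3
    simp only [List.mem_cons, List.not_mem_nil, or_false] at ht
    rcases ht with rfl | rfl
    · exact perm_eq_one_of_dig hπ (by decide +kernel)
    · have := congrArg (· *ᵥ bv F (ofIx 0)) (c2 ⟨5, by decide⟩)
      have d := top_eigen (π := π) c1
      rw [hπ] at this
      change (_ * er F 35) *ᵥ _ = (_ • er F 15 * _) *ᵥ _ at this
      simp only [← mulVec_mulVec, d, er_bv (show 35 < 72 by decide) (show 0 < 27 by decide), smul_mulVec, mulVec_smul,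
        er_bv (show 15 < 72 by decide) (show 0 < 27 by decide), show sr 35 0 = 0 by decide +kernel, Int.cast_zero, zero_smul,
        mulVec_zero] at this
      simp only [eq_comm (a := (0 : I27 → F)), smul_eq_zero, inv_eq_zero, Units.ne_zero, false_or,
        sr_ne (F := F) (show 15 < 72 by decide) (show 0 < 27 by decide) (by decide +kernel)] at this
      rw [this.resolve_right (by simp [bv]), zero_smul] at d
      have := congrArg (vl (e * g)⁻¹ *ᵥ ·) d
      simp only [mulVec_mulVec, vl_inv_mul, one_mulVec, mulVec_zero] at this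
      simp [bv] at this
  obtain ⟨d, hd⟩ : ∃ d : Fin chevE6.rank → Fˣ, matPow Fˣ cE6 d = c := exists_torus hF (e * g).2 c1 c2
  have hM := realE6.hMul F
  obtain ⟨k, hk⟩ := grp_le hF ((realE6.S F).H_le_grp (hM.torus_mem_H d))
  have d1 : ∀ i, realE6.R.chi Fˣ (realE6.R.simple i) d = c i := fun i =>
    (realE6.R.chi_simple i d).trans (congrFun ((congrArg (matPow Fˣ · d) (realE6.cartanM_eq.trans datCartan_E6)).trans hd) i)
  have d2 : ∀ y z, rho hF (e * g) * y * (rho hF (e * g))⁻¹ = hM.torus d * z * (hM.torus d)⁻¹ →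
      rho hF (k⁻¹ * (e * g)) * y * (rho hF (k⁻¹ * (e * g)))⁻¹ = z := fun y z e' => by
    rw [map_mul, map_inv, hk, _root_.mul_inv_rev, inv_inv, mul_assoc _ _ y, mul_assoc, ← mul_assoc (_ * y), e']
    simp [mul_assoc]
  have : rho hF (k⁻¹ * (e * g)) = 1 := by
    refine (rho_eq_one_iff hF _).2 (Subgroup.mem_center_iff.2 fun a => Subtype.ext (Units.ext ?_))
    change vl a * vl _ = vl _ * vl a
    rw [scalar_of_comm (M := vl (k⁻¹ * (e * g))) (fun (i : Fin chevE6.rank) => ?_) fun (i : Fin chevE6.rank) => ?_,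
      mul_smul_comm, smul_mul_assoc, mul_one, one_mul]
    · simpa only [one_smul, tabE6.simple] using comm_of_rho hF (g := k⁻¹ * (e * g)) (r := realE6.R.simple i)
        (s := realE6.R.simple i) (d := 1) (d2 _ _ (by rw [b1, hM.conj_torus, d1, mul_one]; rfl))
    · simpa only [one_smul, tabE6.simple, tabE6.neg] using! comm_of_rho hF (g := k⁻¹ * (e * g))
        (r := realE6.R.neg (realE6.R.simple i)) (s := realE6.R.neg (realE6.R.simple i)) (d := 1) (d2 _ _ (by
          rw [b2, hM.conj_torus, RS.chi_neg_root, d1, mul_one, Units.val_inv_eq_inv_val]; rfl))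
  rw [map_mul, map_mul, map_inv, hk, he, inv_mul_eq_one, ← inv_mul_eq_iff_eq_mul] at this
  exact this ▸ mul_mem (inv_mem x.2) ((realE6.S F).H_le_grp (hM.torus_mem_H d))

theorem exists_equiv [Finite F] : Nonempty (E6 F ≃* chevE6.group F) :=
  ⟨(QuotientGroup.quotientMulEquivOfEq (Subgroup.ext fun g => (rho_eq_one_iff hF g).symm)).trans
    ((QuotientGroup.quotientKerEquivRange (rho hF)).trans (MulEquiv.subgroupCongr (by
      rw [realE6.group_eq]
      exact le_antisymm (by rintro _ ⟨g, rfl⟩; exact rho_mem hF g) (grp_le hF))))⟩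

end CL.Chev.Cub
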