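/-
Alternating sections of the groups of type `E₆`.
-/
import Cfsg.Agent.Chev.AltSec12
import Cfsg.Agent.Chev.Cub5

set_option autoImplicit false

namespace CL.AltEx

open Cfsg Cfsg.Lie CL.Chev CL.Chev.Cub StSys Matrix Subgroup Cert Finset Module

/-- Three times the weights of the module of dimension 27. -/
def w27 (j i : ℕ) : ℤ := sdig 0xacedbcacedb9aceab9acbab9a9bab979bab9acba89a9ba8979ba89a98a89798a89768a89a98789798789768789765789765759a98786798786768786765786765486765756765456762456732456432456 (6 * j + i)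

/-- The highest root. -/
def th6 (i : ℕ) : ℕ := [1, 2, 2, 3, 2, 1].getD i 0

theorem cl27 {Φ : Type} {R : RS (Fin 6) Φ} (hC : R.cartanM = CL.Cox.cE6) :
    Cl R fun (j : Fin 27) (i : Fin 6) => w27 j i := by
  have h : ∀ i j, R.cartan i j = CL.Cox.cE6 i j := fun i j => congrFun (congrFun hC i) j
  refine ⟨fun j j' e => (by decide +kernel : ∀ j j' : Fin 27, (∀ i : Fin 6, w27 j i = w27 j' i) → j = j') j j' (congrFun e),
    fun i j => ?_⟩
  obtain ⟨j', e⟩ := (by decide +kernel : ∀ (i : Fin 6) (j : Fin 27), ∃ j' : Fin 27, ∀ k : Fin 6,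
    w27 j' k = w27 j k - if k = i then ∑ l : Fin 6, CL.Cox.cE6 i l * w27 j l else 0) i j
  exact ⟨j', funext fun k => (e k).trans (by simp [h, Pi.single_apply])⟩

theorem rat11 : ratOK 6 27 w27 th6 11 2 (fun a _ => a.all (fun z => beqZ (z % (11 : ℕ)) 0) || false) = true := by
  decide +kernel

theorem root_th6 (i : Fin 6) : realE6.R.root ⟨71, by decide⟩ i = th6 i :=
  (tabE6.root _ _ i).trans ((by decide +kernel : ∀ i : Fin 6, auxE6.rt 71 i = th6 i) i)

theorem inv_E6 : CL.Cox.cE6 * (!![4, 3, 5, 6, 4, 2; 3, 6, 6, 9, 6, 3; 5, 6, 10, 12, 8, 4; 6, 9, 12, 18, 12, 6;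
    4, 6, 8, 12, 10, 5; 2, 3, 4, 6, 5, 4] : Matrix (Fin 6) (Fin 6) ℤ) = ((3 : ℕ) : ℤ) • 1 :=
  matrix_ext_of_all (n := 6) (by decide +kernel)

theorem ex_thirteen : ∃ x g : alternatingGroup (Fin 13), orderOf x = 11 ∧ g * x * g⁻¹ = x ^ 2 :=
  have := Fact.mk Nat.prime_eleven
  ⟨AltSec.pm ![1, 2, 3, 4, 5, 6, 7, 8, 9, 10, 0, 11, 12] ![10, 0, 1, 2, 3, 4, 5, 6, 7, 8, 9, 11, 12],
    AltSec.pm ![0, 2, 4, 6, 8, 10, 1, 3, 5, 7, 9, 12, 11] ![0, 6, 1, 7, 2, 8, 3, 9, 4, 10, 5, 12, 11],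
    orderOf_eq_prime (by decide +kernel) (by decide +kernel), by decide +kernel⟩

theorem aux_E6' {Φ : Type} [Finite Φ] {Ω : Type*} [Field Ω] {G : Type*} [Group G] [IsAlgClosed Ω] [Uncountable Ω]
    {R : RS (Fin 6) Φ} {S : StSys R Ω G} {A : S.AlgSys} {φ : Ω ≃+* Ω} {q : ℕ} (C : Ctx A φ q 3)
    (hC : R.cartanM = CL.Cox.cE6) {t : Φ} (ht : ∀ i : Fin 6, R.root t i = th6 i) {H : Type*} [Group H] [Finite H]
    {χ : H →* G} (hχ : Function.Injective χ) (hf : ∀ g, A.act φ (χ g) = χ g) (hc : Nat.Coprime 11 (q * 3))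
    {π : H →* alternatingGroup (Fin 13)} (hπ : Function.Surjective π) : False := by
  obtain ⟨x, g, h1, h2⟩ := ex_thirteen
  obtain ⟨c, h, h3, h4⟩ := AltSec.lift_one hπ Nat.prime_eleven h1 h2
  obtain ⟨ζ, hζ⟩ := exists_orderOf_units (C.cast_ne hc.coprime_mul_right_right)
  obtain ⟨-, -, -, -, -, -, h5⟩ := C.rat (cl27 hC) (by decide) ht rat11 Nat.prime_eleven hc hζ (s := χ c)
    ⟨1, one_pos, by rw [pow_one]; exact hf _⟩ (by rw [← map_pow, ← h3, pow_orderOf_eq_one, map_one])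
    (fun e => by rw [hχ (e.trans (map_one χ).symm), orderOf_one] at h3; omega)
    (map_pow χ _ _ ▸ χ.map_isConj (isConj_iff.2 ⟨h, h4⟩))
  exact absurd h5 (by decide)

/-- The parity of a weight. -/
def par (b : Fin 7 → Fin 2) (j : ℕ) : ℕ := (b 0 + ∑ k : Fin 6, b k.succ * dp j k) % 2

theorem par_spec : ∀ b, (par b 0 + par b 4 + par b 8) % 2 = 0 → (∀ j < 27, par b j = 0) ∨
    #{j : I27 | par b (ix j) = 0} = 15 ∨ (#{j : I27 | par b (ix j) = 0} = 11 ∧
      (∃ l < 27, par b l = 0 ∧ ∀ m < 27, par b m = 0 ∨ sg m l = 0 ∨ par b (cr m l) = 0) ∧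
      ∃ m < 27, ∃ l < 27, par b m = 1 ∧ par b l = 1 ∧ sg m l * sg m l = 1 ∧ par b (cr m l) = 0) := by
  decide +kernel

section Inv
variable {F : Type*} [Field F]

/-- The module of dimension 27. -/
def σ27 (F : Type*) [Field F] : Representation F (E6univ F) (I27 → F) :=
  (Matrix.toLinAlgEquiv' : Matrix I27 I27 F ≃ₐ[F] _).toMonoidHom.comp ((Units.coeHom _).comp (E6univ F).subtype)

theorem σ27_apply (g : E6univ F) (v : I27 → F) : σ27 F g v = vl g *ᵥ v := rfl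

/-- A subspace attached to an involution. -/
def Uz (z : E6univ F) : Submodule F (I27 → F) where
  carrier := {v | σ27 F z v = v ∧ ∀ a b, σ27 F z a = -a → σ27 F z b = -b → tv a b v = 0}
  zero_mem' := ⟨map_zero _, fun a b _ _ => by simpa using tv_smul₃ 0 a b 0⟩
  add_mem' := fun h h' => ⟨by rw [map_add, h.1, h'.1], fun a b ha hb => by
    rw [tv_add₃, h.2 a b ha hb, h'.2 a b ha hb, add_zero]⟩
  smul_mem' := fun c _ h => ⟨by rw [map_smul, h.1], fun a b ha hb => by rw [tv_smul₃, h.2 a b ha hb, mul_zero]⟩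

variable (hF : ∃ s : F, s ≠ 0 ∧ s ≠ 1)
include hF

theorem mem_Uz {z : E6univ F} {v : I27 → F} (h : v ∈ Uz z) (x : E6univ F) : σ27 F x v ∈ Uz (x * z * x⁻¹) := by
  have h1 : ∀ a, σ27 F (x * z * x⁻¹) a = -a → σ27 F z (σ27 F x⁻¹ a) = -σ27 F x⁻¹ a := fun a ha => by
    simpa using congrArg (σ27 F x⁻¹) ha
  refine ⟨by simp [h.1], fun a b ha hb => ?_⟩
  rw [← h.2 _ _ (h1 a ha) (h1 b hb)]
  exact (by simp [← σ27_apply] : _ = tv (vl x *ᵥ σ27 F x⁻¹ a) (vl x *ᵥ σ27 F x⁻¹ b) (vl x *ᵥ v)).trans (tv_inv hF x.2 _ _ _)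

theorem inv27 (h2 : (2 : F) ≠ 0) {z : E6univ F} (hz : z ^ 2 = 1) (h1 : z ≠ 1) {c : Fin 6 → Fˣ} (hc : c ^ 2 = 1)
    (h : ∀ i : Fin 6, vl z * er F (auxE6.sim i) = (c i : F) • er F (auxE6.sim i) * vl z)
    (h' : ∀ i : Fin 6, vl z * er F (71 - auxE6.sim i) = ((c i)⁻¹ : F) • er F (71 - auxE6.sim i) * vl z) :
    finrank F (End.eigenspace (σ27 F z) 1) = 15 ∨ finrank F (End.eigenspace (σ27 F z) 1) = 11 ∧
      (∃ v ∈ Uz z, v ≠ 0) ∧ ∃ v, σ27 F z v = v ∧ v ∉ Uz z := by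
  classical
  have h3 : ∀ a : F, a ^ 2 = 1 → ∃ b : Fin 2, a = (-1) ^ b.val := fun a ha =>
    (sq_eq_one_iff.1 ha).elim (fun e => ⟨0, by simp [e]⟩) fun e => ⟨1, by simp [e]⟩
  have h0 : ∀ j, bv F j ≠ 0 := fun j e => by simpa [bv] using congrFun e j
  obtain ⟨m, hm⟩ := h3 (vl z (ofIx 0) (ofIx 0)) (by
    simpa [fun k : Fin 6 => (chkT.1 k k.2).2.2.1] using
      AltGL.pow_eq_one_of_eigen (ρ := σ27 F) (all_eigen h h' (j := 0) (by decide)) (h0 _) hz)
  choose b hb using fun i => h3 (c i : F)⁻¹ (by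
    rw [inv_pow, ← Units.val_pow_eq_pow_val, show c i ^ 2 = 1 from congrFun hc i, Units.val_one, inv_one])
  have h4 : ∀ j < 27, σ27 F z (bv F (ofIx j)) = (-1 : F) ^ par (Fin.cons m b) j • bv F (ofIx j) := fun j hj => by
    rw [σ27_apply, all_eigen h h' hj, hm, par, ← neg_one_pow_eq_pow_mod_two (R := F)]
    simp only [hb, pow_add, ← pow_mul, prod_pow_eq_pow_sum, Fin.cons_zero, Fin.cons_succ]
  generalize (Fin.cons m b : Fin 7 → Fin 2) = b at h4
  have h5 : (-1 : F) ≠ 1 := fun e => h2 (by linear_combination -e)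
  have h6 : ∀ j, (-1 : F) ^ par b j = 1 ↔ par b j = 0 := fun j => by
    obtain e | e : par b j = 0 ∨ par b j = 1 := Nat.mod_two_eq_zero_or_one _ <;> simp [e, h5]
  have h7 : finrank F (End.eigenspace (σ27 F z) 1) = #{j : I27 | par b (ix j) = 0} := by
    rw [finrank_eigenspace_of_basis (Pi.basisFun F I27) (μ := fun j => (-1) ^ par b (ix j)) fun j => by
      simpa [bv] using h4 _ (ix_lt j)]
    simp only [h6]
  have h8 := tv_inv hF z.2 (bv F (ofIx 0)) (bv F (ofIx 4)) (bv F (ofIx 8))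
  change tv (σ27 F z _) (σ27 F z _) (σ27 F z _) = _ at h8
  rw [h4 0 (by decide), h4 4 (by decide), h4 8 (by decide), tv_smul, tv_smul₂, tv_smul₃, tv_bv,
    show sg (ix (ofIx 0)) (ix (ofIx 4)) = 1 by decide +kernel, show cr (ix (ofIx 0)) (ix (ofIx 4)) = 8 by decide +kernel,
    ← mul_assoc, ← mul_assoc, ← pow_add, ← pow_add] at h8
  rw [h7]
  rcases par_spec b (Nat.even_iff.1 ((neg_one_pow_eq_one_iff_even h5).1 (by simpa [bv] using h8))) with
    e | e | ⟨e, ⟨l, a1, a2, a3⟩, m, b1, n, b2, b3, b4, b5, b6⟩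
  · exact absurd (Subtype.ext (Units.ext (ext_bv fun j => by
      simpa [e _ (ix_lt j), σ27_apply] using h4 _ (ix_lt j)))) h1
  · exact Or.inl e
  have h9 : ∀ a, σ27 F z a = -a → ∀ j < 27, par b j = 0 → a (ofIx j) = 0 := fun a ha j hj e => by
    have h10 : vl z = diagonal fun j => (-1) ^ par b (ix j) := ext_bv fun j => by
      simpa [bv, σ27_apply, ← Pi.single_smul'] using h4 _ (ix_lt j)
    have := congrFun ha (ofIx j)
    rw [σ27_apply, h10, mulVec_diagonal, ix_ofIx hj, e, pow_zero, one_mul, Pi.neg_apply] at this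
    exact (mul_eq_zero.1 (show 2 * a (ofIx j) = 0 by linear_combination this)).resolve_left h2
  refine Or.inr ⟨e, ⟨_, ⟨by rw [h4 l a1, a2, pow_zero, one_smul], fun u v hu hv => ?_⟩, h0 _⟩, bv F (ofIx (cr m n)),
    by rw [h4 _ (cr_lt b1 b2), b6, pow_zero, one_smul], fun h => ?_⟩
  · rw [tv_expand]
    refine sum_eq_zero fun j _ => ?_
    rw [ix_ofIx a1]
    rcases a3 _ (ix_lt j) with e | e | e
    · rw [show v j = 0 from ofIx_ix j ▸ h9 v hv _ (ix_lt j) e, zero_mul]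
    · simp [e]
    · rw [h9 u hu _ (cr_lt (ix_lt j) a1) e, mul_zero, mul_zero]
  · have := h.2 _ _ (by rw [h4 m b1, b3, pow_one, neg_one_smul]) (by rw [h4 n b2, b4, pow_one, neg_one_smul])
    rw [tv_bv, ix_ofIx b1, ix_ofIx b2] at this
    exact cast_ne b5 (by simpa [bv] using this)

theorem finite_ker_rho : Finite (rho hF).ker := by
  have h : ∀ g : (rho hF).ker, ∃ z : F, vl g.1 = z • 1 ∧ z ^ 3 = 1 := fun g => by
    obtain ⟨z, hz⟩ := scalar_of_rho hF g.2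
    have e := tv_inv hF g.1.2 (bv F (ofIx 0)) (bv F (ofIx 4)) (bv F (ofIx 8))
    change tv (vl _ *ᵥ _) (vl _ *ᵥ _) (vl _ *ᵥ _) = _ at e
    simp only [hz, smul_mulVec, one_mulVec, tv_smul, tv_smul₂, tv_smul₃, tv_bv,
      show sg (ix (ofIx 0)) (ix (ofIx 4)) = 1 by decide +kernel,
      show cr (ix (ofIx 0)) (ix (ofIx 4)) = 8 by decide +kernel] at e
    exact ⟨z, hz, by simpa [bv, pow_three] using e⟩
  choose z h1 h2 using h
  classical
  exact Finite.of_injective (fun g => (⟨z g, (Polynomial.mem_nthRootsFinset (by decide) _).2 (h2 g)⟩ :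
    Polynomial.nthRootsFinset 3 (1 : F))) fun a b e =>
      Subtype.ext (Subtype.ext (Units.ext ((h1 a).trans (by rw [show z a = z b from congrArg Subtype.val e, ← h1]))))

theorem inv27' (h2 : (2 : F) ≠ 0) {z : E6univ F} (hz : z ^ 2 = 1) (h1 : z ≠ 1) (hM : (realE6.Sg F).HMul)
    {x : chevE6.group F} {c : Fin chevE6.rank → Fˣ} (hc : c ^ 2 = 1) (e : rho hF z = (x * hM.torus c * x⁻¹).1) :
    finrank F (End.eigenspace (σ27 F z) 1) = 15 ∨ finrank F (End.eigenspace (σ27 F z) 1) = 11 ∧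
      (∃ v ∈ Uz z, v ≠ 0) ∧ ∃ v, σ27 F z v = v ∧ v ∉ Uz z := by
  obtain ⟨g, hg⟩ := grp_le hF ((realE6.group_eq F).le x.2)
  have h7 : ∀ r, vl (g⁻¹ * z * g) * er F r.val = (realE6.R.chi Fˣ r c).val • er F r.val * vl (g⁻¹ * z * g) :=
    fun r => comm_of_rho hF (by
      rw [map_mul, map_mul, map_inv, hg, e]
      refine Eq.trans ?_ ((congrArg Subtype.val (hM.conj_torus c r 1)).trans (by rw [mul_one]; rfl))
      simp only [Subgroup.coe_mul, Subgroup.coe_inv, mul_assoc, inv_mul_cancel_left, inv_mul_cancel, mul_one]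
      rfl)
  have h8 : g * (g⁻¹ * z * g) * g⁻¹ = z := by group
  refine (inv27 hF h2 (z := g⁻¹ * z * g) (c := fun i => realE6.R.chi Fˣ (realE6.R.simple i) c)
    (by rw [inv_conj_pow, hz]; simp) (fun h => h1 (by rw [← h8, h]; simp))
    (funext fun i => by rw [Pi.pow_apply, ← map_pow, hc, map_one, Pi.one_apply])
    (fun i => tabE6.simple realE6 i ▸ h7 _) fun (i : Fin chevE6.rank) => ?_).imp (fun h => ?_) fun ⟨a1, ⟨v, a2, a3⟩, w, a4, a5⟩ =>
      ⟨?_, ⟨_, h8 ▸ mem_Uz hF a2 g, fun e => a3 (AltGL.rep_injective _ g (e.trans (map_zero _).symm))⟩, σ27 F g w,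
        by simpa using congrArg (σ27 F g) a4, fun h => a5 (by simpa using mem_Uz hF h g⁻¹)⟩
  · have := h7 (realE6.R.neg (realE6.R.simple i))
    rwa [RS.chi_neg_root, Units.val_inv_eq_inv_val, tabE6.neg, tabE6.simple] at this
  · exact (finrank_eigen_conj _ (isConj_iff.2 ⟨g, h8⟩) 1).trans h
  · exact (finrank_eigen_conj _ (isConj_iff.2 ⟨g, h8⟩) 1).trans a1

end Inv

theorem aux_E6 {k : Type} [Field k] [IsAlgClosed k] (p : ℕ) [Fact p.Prime] [CharP k p] (h2 : ((2 : ℕ) : k) ≠ 0)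
    (hp : ¬ p ∣ 12) (hT : (realE6.Sg k).HMul) {L : Type*} [Group L] [Finite L] {χ : L →* chevE6.group k}
    (hχ : Function.Injective χ) (h : ∀ z : L, z ^ 2 = 1 → ∃ x c, c ^ 2 = 1 ∧ χ z = x * hT.torus c * x⁻¹)
    {π : L →* alternatingGroup (Fin 12)} (hπ : Function.Surjective π) : False := by
  have h2' : (2 : k) ≠ 0 := by exact_mod_cast h2
  have hF : ∃ s : k, s ≠ 0 ∧ s ≠ 1 := ⟨-1, by simp, fun e => h2' (by linear_combination -e)⟩
  let χ' := (chevE6.group k).subtype.comp χ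
  have hχ' : Function.Injective χ' := (Subgroup.subtype_injective _).comp hχ
  let N := χ'.range.comap (rho hF)
  obtain ⟨θ, h3⟩ : ∃ θ : N →* L, ∀ g : N, χ' (θ g) = rho hF g := ⟨(MonoidHom.ofInjective hχ').symm.toMonoidHom.comp
    (((rho hF).comp N.subtype).codRestrict _ fun g => g.2), fun g => MonoidHom.apply_ofInjective_symm hχ' ⟨_, g.2⟩⟩
  have h4 : Function.Surjective θ := fun a =>
    let ⟨g, hg⟩ := grp_le hF ((realE6.group_eq k).le (χ a).2); ⟨⟨g, a, hg.symm⟩, hχ' ((h3 _).trans hg)⟩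
  have := finite_ker_rho hF
  have : Finite N := (θ.finite_iff_finite_ker_range).2 ⟨Finite.of_injective (fun g => (⟨g.1.1, by
    rw [MonoidHom.mem_ker, ← h3, g.2, map_one]⟩ : (rho hF).ker)) fun a b e =>
      Subtype.ext (Subtype.ext (congrArg (fun g : (rho hF).ker => g.1) e)), inferInstance⟩
  obtain ⟨M, hM⟩ := exists_isMin (π := π.comp θ) (hπ.comp h4)
  have key := fun (z : M) (h5 : z ^ 2 = 1) (h6 : z ≠ 1) =>
    let ⟨_, _, a1, a2⟩ := h (θ z) (by rw [← map_pow, ← Subgroup.coe_pow, h5, Subgroup.coe_one, map_one])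
    inv27' hF h2' (z := z.1.1) (congrArg (fun g : M => g.1.1) h5) (fun e => h6 (Subtype.ext (Subtype.ext e))) hT a1
      ((h3 _).symm.trans (congrArg Subtype.val a2))
  refine not_twelve (σ := (σ27 k).comp (N.subtype.comp M.subtype)) h2 (by simp) (fun h e => ?_) hM
    (fun z h5 h6 => (key z h5 h6).imp_right And.left) p hp fun z hz h5 h6 => ?_
  · exact Subtype.ext (Subtype.ext (Subtype.ext (Units.ext (Matrix.toLinAlgEquiv'.injective (e.trans (map_one _).symm)))))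
  obtain ⟨-, ⟨v, a1, a2⟩, w, a3, a4⟩ := (key z h5 (by
    rintro rfl
    rw [map_one, show End.eigenspace (1 : End k (I27 → k)) 1 = ⊤ from eq_top_iff.2 fun v _ =>
      End.mem_eigenspace_iff.2 (by simp), finrank_top] at h6
    simp at h6)).resolve_left fun h => by have := h.symm.trans h6; omega
  refine ⟨Uz z.1.1, (Submodule.ne_bot_iff _).2 ⟨v, a1, a2⟩, lt_of_le_of_ne (fun v hv => End.mem_eigenspace_iff.2
    (hv.1.trans (one_smul _ _).symm)) fun e => a4 (e.ge (End.mem_eigenspace_iff.2 (a3.trans (one_smul _ _).symm))),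
    fun g v hv => ?_⟩
  have := mem_Uz hF hv g.1.1
  rwa [show g.1.1 * z.1.1 = z.1.1 * g.1.1 from congrArg (fun g : M => g.1.1) (mem_center_iff.1 hz g), mul_inv_cancel_right] at this

variable {F : Type*} [Field F] [Fintype F] (p : ℕ) [Fact p.Prime] [CharP F p]

theorem not_alt_E6' (hp : p ≠ 11) (L : Subgroup (chevE6.group F)) (π : L →* alternatingGroup (Fin 13))
    (hπ : Function.Surjective π) : False :=
  let ⟨_, _, ψ, C, hψ, hf⟩ := exists_ctx realE6 (datCartan_E6 ▸ inv_E6) F p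
  aux_E6' (R := realE6.R) C (realE6.cartanM_eq.trans datCartan_E6) root_th6 (χ := ψ.comp L.subtype)
    (hψ.comp L.subtype_injective) (fun _ => hf _)
    ((CL.AltSec.coprime_card p Nat.prime_eleven hp).mul_right (by decide)) hπ

theorem not_alt_E6 (hp : p ≠ 2) (hp' : p ≠ 3) (L : Subgroup (chevE6.group F)) (π : L →* alternatingGroup (Fin 12))
    (hπ : Function.Surjective π) : False := by
  obtain ⟨A, φ, ψ, C, hψ, hf⟩ := exists_ctx realE6 (datCartan_E6 ▸ inv_E6) F p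
  have hc := (CL.AltSec.coprime_card (F := F) p Nat.prime_two hp).mul_right (by decide : Nat.Coprime 2 3)
  obtain ⟨ζ, hζ⟩ := exists_orderOf_units (C.cast_ne hc.coprime_mul_right_right)
  refine aux_E6 p (C.cast_ne hc.coprime_mul_right_right) (fun h => ?_) A.hMul (χ := ψ.comp L.subtype)
    (hψ.comp L.subtype_injective) (fun z hz => ?_) hπ
  · have h1 : p ∣ 2 ^ 2 * 3 := h
    have hp0 : p.Prime := Fact.out
    exact (hp0.dvd_mul.1 h1).elim (fun h => hp ((Nat.prime_dvd_prime_iff_eq hp0 Nat.prime_two).1 (hp0.dvd_of_dvd_pow h)))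
      fun h => hp' ((Nat.prime_dvd_prime_iff_eq hp0 Nat.prime_three).1 h)
  obtain ⟨x, -, y, -, e⟩ := C.normal Nat.prime_two hc hζ (s := ψ z) ⟨1, one_pos, by rw [pow_one]; exact hf _⟩
    (by rw [← map_pow, ← Subgroup.coe_pow, hz, Subgroup.coe_one, map_one])
  exact ⟨x, _, exp_pow hζ y, e⟩

theorem alt_E6 {r : ℕ} (H : Subgroup (chevE6.group F)) (K : Subgroup H) [K.Normal]
    (h : Nonempty (H ⧸ K ≃* alternatingGroup (Fin r))) : r ≤ 11 + (if p = 2 ∨ p = 3 ∨ p = 5 then 1 else 0) := by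
  by_contra hr
  split_ifs at hr with hp
  · obtain ⟨L, π, hπ⟩ := CL.AltSec.exists_surj (m := 13) (r := r) (by omega) H K h
    exact not_alt_E6' p (by omega) L π hπ
  · obtain ⟨L, π, hπ⟩ := CL.AltSec.exists_surj (m := 12) (r := r) (by omega) H K h
    exact not_alt_E6 p (by omega) (by omega) L π hπ

end CL.AltEx
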