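import Cfsg.Agent.Chev.TwOverReal
import Cfsg.Agent.Chev.RealOver
import Cfsg.Agent.Chev.StWeak
import Cfsg.Agent.Chev.WordN

/-!
# Two generators for the Chevalley groups
-/

set_option autoImplicit false

namespace CL.Chev

open Cfsg Cfsg.Lie Cert CL.Cox

theorem mem_of_prod_mem {G : Type*} [Group G] {K : Subgroup G} {l : List G} (h : l.prod ∈ K) {j : ℕ} (hj : j < l.length)
    (h1 : ∀ b ∈ l.eraseIdx j, b ∈ K) : l[j] ∈ K := by
  rw [List.eraseIdx_eq_take_drop_succ] at h1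
  rwa [← List.take_append_drop j l, List.drop_eq_getElem_cons hj, List.prod_append, List.prod_cons,
    mul_mem_cancel_left (list_prod_mem fun b hb => h1 b (List.mem_append_left _ hb)),
    mul_mem_cancel_right (list_prod_mem fun b hb => h1 b (List.mem_append_right _ hb))] at h

theorem exists_two_gen_of {G : Type*} [Group G] {T : Subgroup G} {h u y : G} (hh : h ∈ T) (hu : u ∈ T) (hy : y ∈ T)
    (hc : Commute h u) {n m : ℕ} (hn : h ^ n = 1) (hm : u ^ m = 1) (e : n.Coprime m)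
    (H : ∀ K ≤ T, h ∈ K → u ∈ K → y ∈ K → T ≤ K) : ∃ a b : T, Subgroup.closure {a, b} = ⊤ := by
  refine ⟨⟨h * u, mul_mem hh hu⟩, ⟨y, hy⟩, eq_top_iff.2 fun g _ => ?_⟩
  set K := Subgroup.closure ({⟨h * u, mul_mem hh hu⟩, ⟨y, hy⟩} : Set T)
  have h1 : h * u ∈ K.map T.subtype := ⟨_, Subgroup.subset_closure (.inl rfl), rfl⟩
  have h2 : u ∈ K.map T.subtype := Subgroup.zpowers_le.2 (by simpa [hc.mul_pow, hn] using pow_mem h1 n)
    (mem_zpowers_pow_iff.2 (e.coprime_dvd_right (orderOf_dvd_of_pow_eq_one hm)))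
  simpa using H _ (Subgroup.map_subtype_le K) ((mul_mem_cancel_right h2).1 h1) h2
    ⟨_, Subgroup.subset_closure (.inr rfl), rfl⟩ g.2

theorem mem_of_gen_mul {F : Type*} [Field F] [Finite F] {A : AddSubgroup F} {ζ : Fˣ} (hζ : ∀ x, x ∈ Subgroup.zpowers ζ)
    (m : ℕ) (h : ∀ t ∈ A, ζ ^ m * t ∈ A) {t : F} (ht : t ∈ A) {c : F} (hc : c ≠ 0) : c ^ m * t ∈ A := by
  obtain ⟨k, e⟩ := mem_powers_iff_mem_zpowers.2 (hζ (Units.mk0 c hc))
  rw [show c = ζ ^ k from (congrArg Units.val e).symm]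
  clear e
  induction k with
  | zero => simpa
  | succ k ih => simpa [pow_succ' _ k, mul_pow, mul_assoc] using h _ ih

theorem mem_of_gen_sq {F : Type*} [Field F] [Finite F] {A : AddSubgroup F} {ζ : Fˣ} (hζ : ∀ x, x ∈ Subgroup.zpowers ζ)
    (h : ∀ t ∈ A, ζ ^ 2 * t ∈ A) (h1 : 1 ∈ A) (v : F) : v ∈ A :=
  mem_of_sq_mul one_ne_zero (fun c => (eq_or_ne c 0).elim (by simp [·]) (mem_of_gen_mul hζ 2 h h1)) v

theorem coprime_card_units {F : Type*} [Field F] [Finite F] (p : ℕ) [hp : Fact p.Prime] [CharP F p] :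
    (Nat.card Fˣ).Coprime p := by
  have := Fintype.ofFinite F
  obtain ⟨n, -, e⟩ := FiniteField.card F p
  rw [Nat.card_units, Nat.card_eq_fintype_card, e]
  exact ((Nat.coprime_self_sub_left (Nat.one_le_pow _ _ hp.out.pos)).2 (Nat.coprime_one_left _)).coprime_dvd_right
    (dvd_pow_self p n.ne_zero)

namespace StSys

variable {ι Φ : Type} [Fintype ι] [DecidableEq ι] {R : RS ι Φ} {F : Type*} [Field F] {G : Type*} [Group G]
  {S : StSys R F G} {K : Subgroup G}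

theorem x_int_mem {r : Φ} (h : S.x r 1 ∈ K) (c : ℤ) : S.x r c ∈ K :=
  show (c : F) ∈ S.coef K r from zsmul_one (R := F) c ▸ zsmul_mem (show 1 ∈ S.coef K r from h) c

theorem x_sign_mem_iff {r : Φ} {c : ℤ} (hc : c = 1 ∨ c = -1) (t : F) : S.x r (c * t) ∈ K ↔ S.x r t ∈ K := by
  rcases hc with rfl | rfl <;> simp [S.x_neg]

theorem n_one_mem' {r : Φ} (h : S.x r 1 ∈ K) (h' : S.x (R.neg r) 1 ∈ K) : S.n r 1 ∈ K :=
  mul_mem (mul_mem h (by simpa [S.x_neg] using h')) h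

theorem x_refl_mem {r s : Φ} (h : S.n r 1 ∈ K) {t : F} (hs : S.x s t ∈ K) : S.x (R.refl r s) t ∈ K := by
  simpa [S.conj_n, x_sign_mem_iff (S.η_sign r s)] using mul_mem (mul_mem h hs) (inv_mem h)

theorem exists_conj_wprod (l : List ι) (r : Φ) : ∃ c : ℤ, (c = 1 ∨ c = -1) ∧
    ∀ t, wprod S.nS l * S.x r t * (wprod S.nS l)⁻¹ = S.x (wprod R.sperm l r) (c * t) := by
  induction l with
  | nil => exact ⟨1, .inl rfl, by simp⟩
  | cons i l ih =>
    obtain ⟨c, hc, e⟩ := ih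
    refine ⟨S.η (R.simple i) (wprod R.sperm l r) * c, by rcases S.η_sign (R.simple i) (wprod R.sperm l r) with e | e <;>
      rw [e] <;> omega, fun t => ?_⟩
    have := S.conj_n (R.simple i) (wprod R.sperm l r) one_ne_zero (c * t)
    rw [← e, R.refl_simple] at this
    simpa [nS, mul_assoc] using this

theorem x_mem_of_simple (h : ∀ i, S.n (R.simple i) 1 ∈ K) {t : F} (h' : ∀ i, S.x (R.simple i) t ∈ K) (r : Φ) :
    S.x r t ∈ K := by
  obtain ⟨w, hw, i, rfl⟩ := R.exists_W_simple r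
  obtain ⟨l, rfl⟩ := R.exists_wprod_of_mem_W hw
  obtain ⟨c, hc, e⟩ := S.exists_conj_wprod l (R.simple i)
  have h1 : wprod S.nS l ∈ K := wprod_mem fun i _ => h i
  exact (x_sign_mem_iff hc t).1 (e t ▸ mul_mem (mul_mem h1 (h' i)) (inv_mem h1))

theorem HMul.h_pow (hM : S.HMul) (r : Φ) {t : F} (ht : t ≠ 0) (k : ℕ) : S.h r t ^ k = S.h r (t ^ k) := by
  induction k with
  | zero => simp [S.h_one]
  | succ k ih => rw [pow_succ, pow_succ, hM r _ _ (pow_ne_zero k ht) ht, ih]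

theorem x_pow_char (p : ℕ) [CharP F p] (r : Φ) (t : F) : S.x r t ^ p = 1 := by simp [S.x_pow]

variable (S) in
/-- The elements `x_a(1)` and `y` generate the same group as all the `x_r(1)`. -/
def Gen2 (a : Φ) (y : G) : Prop := ∀ K : Subgroup G, S.x a 1 ∈ K ∧ y ∈ K ↔ ∀ r, S.x r 1 ∈ K

end StSys

namespace Cert.Aux

variable (A : Aux) (m : ℕ) (f : ℕ → ℕ) (s : ℕ)

def g2One (L : List ℕ) (X : List (ℕ × ℤ × ℕ × ℕ)) (j k : ℕ) : Bool :=
  (X.eraseIdx j).all (fun c => f c.1 ∈ L) && (X[j]?.any fun c => f c.1 = k ∧ (c.2.1.natAbs = 1 ∨ c.2.1.natAbs = m))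
def g2Y (r : ℕ) : List (ℕ × ℤ × ℕ × ℕ) := (r, 1, 0, 0) :: if s < A.n then A.aTerms s r else []
def g2Step (L : List ℕ) : ℕ × ℕ × ℕ × ℕ × ℕ → Bool
  | (e, a, b, j, k) => a < A.n && b < A.n && k < A.n && a ≠ b && a ≠ A.ng b &&
    if e = 0 then a ∈ L && b ∈ L && A.ng a ∈ L && allLt A.l fun i => beqZ (A.rt k i) (A.rt b i - A.pr a b * A.rt a i)
    else if e = 1 then a ∈ L && b ∈ L && g2One m id L (A.aTerms b a) j k
    else (s < A.n → b = s) && if e = 2 then a ∈ L && g2One m f L (A.g2Y s a) j k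
    else a = k && (A.g2Y s a).all fun c => f c.1 ∈ L
def g2Chk : List ℕ → List (ℕ × ℕ × ℕ × ℕ × ℕ) → List ℕ → Bool
  | L, [], L' => L'.all (· ∈ L)
  | L, x :: st, L' => A.g2Step m f s L x && g2Chk (x.2.2.2.2 :: L) st L'

end Cert.Aux

namespace Tab

variable {D : ChevalleyDatum} {A : Aux} (T : Tab D A) (E : Real D) {F : Type*} [Field F] (p : ℕ) [Fact p.Prime] [CharP F p]
  {K : Subgroup (GL D.Idx F)} {m : ℕ} (hm : (m : F) ≠ 0)
include T

theorem lt_of_aTerms (E : Real D) {r s : ℕ} (hr : r < A.n) (hs : s < A.n) : ∀ c ∈ A.aTerms r s, c.1 < D.nroots :=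
  T.commTerms hr hs ▸ E.commTerms_lt ⟨r, T.lt_nroots hr⟩ ⟨s, T.lt_nroots hs⟩

omit T in
/-- `n` permutes the root elements up to sign. -/
def _root_.CL.Chev.Real.Sgn (n : GL D.Idx F) (f : ℕ → ℕ) : Prop := ∀ r : Fin D.nroots, ∃ (c : ℤ) (k : Fin D.nroots),
  (c = 1 ∨ c = -1) ∧ f r = k ∧ ∀ t : F, n * E.xN r t * n⁻¹ = (E.S F).x k (c * t)

theorem sgn_wprod (l : List (Fin D.rank)) :
    E.Sgn (wprod (E.S F).nS l) fun r => l.foldr (fun (i : Fin D.rank) r => A.w i r) r := fun r => by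
  obtain ⟨c, hc, e⟩ := (E.S F).exists_conj_wprod l r
  exact ⟨c, _, hc, (T.wprod_sperm_val E l r).symm, fun t => E.xN_coe r t ▸ e t⟩

theorem sgn_n (a : Fin D.nroots) {f : ℕ → ℕ}
    (h : ∀ r < A.n, f r < A.n ∧ ∀ i < A.l, A.rt (f r) i = A.rt r i - A.pr a r * A.rt a i) : E.Sgn ((E.S F).n a 1) f :=
  fun r => ⟨_, ⟨_, T.lt_nroots (h r (T.lt_n r)).1⟩, (E.S F).η_sign a r, rfl, fun t => by
    rw [E.xN_coe, (E.S F).conj_n a r one_ne_zero, (T.refl_eq_iff E _ _ ⟨_, T.lt_nroots (h r (T.lt_n r)).1⟩).2 (h r (T.lt_n r)).2]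
    simp⟩

omit T in
theorem _root_.CL.Chev.Real.Sgn.mul {n n' : GL D.Idx F} {f f' : ℕ → ℕ} (h : E.Sgn n f) (h' : E.Sgn n' f') :
    E.Sgn (n * n') (f ∘ f') := fun r => by
  obtain ⟨c, k, hc, e, e'⟩ := h' r
  obtain ⟨c', k', hc', e1, e1'⟩ := h k
  exact ⟨c' * c, k', by rcases hc with rfl | rfl <;> omega, by simp [e, e1], fun t => by
    rw [Int.cast_mul, mul_assoc _ _ t, ← e1', E.xN_coe k, ← e']; group⟩

variable {n : GL D.Idx F} {f : ℕ → ℕ} (hn : E.Sgn n f)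
include hn

omit T in
theorem _root_.CL.Chev.Real.Sgn.conj_mem {r : ℕ} (hr : r < D.nroots) (h : E.xN (f r) 1 ∈ K) (c : ℤ) :
    MulAut.conj n (E.xN r (c : F)) ∈ K := by
  obtain ⟨c', k, hc, e, e'⟩ := hn ⟨r, hr⟩
  rw [e, E.xN_coe] at h
  rw [MulAut.conj_apply, e', StSys.x_sign_mem_iff hc]
  exact StSys.x_int_mem h c

omit T in
include p hm in
theorem g2One_sound {L : List ℕ} (hL : ∀ r ∈ L, E.xN r 1 ∈ K) {X : List (ℕ × ℤ × ℕ × ℕ)}
    (hX : ∀ c ∈ X, c.1 < D.nroots) {j k : ℕ} (h : Aux.g2One m f L X j k = true)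
    (h1 : MulAut.conj n (X.map fun c => E.xN c.1 (c.2.1 : F)).prod ∈ K) : E.xN k 1 ∈ K := by
  simp only [Aux.g2One, Bool.and_eq_true, List.all_eq_true, decide_eq_true_eq, Option.any_eq_true,
    List.getElem?_eq_some_iff] at h
  obtain ⟨h2, _, ⟨hj, rfl⟩, rfl, h3⟩ := h
  rw [map_list_prod, List.map_map] at h1
  have := mem_of_prod_mem h1 (j := j) (by simpa) (by
    rw [List.eraseIdx_map, List.forall_mem_map]
    exact fun c hc => hn.conj_mem E (hX c (List.mem_of_mem_eraseIdx hc)) (hL _ (h2 c hc)) _)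
  obtain ⟨c', k, hc, e, e'⟩ := hn ⟨_, hX _ (List.getElem_mem hj)⟩
  rw [List.getElem_map, Function.comp_apply, MulAut.conj_apply, e', StSys.x_sign_mem_iff hc, ← mul_one (Int.cast _),
    StSys.x_int_mul_mem_iff p (intCast_ne_zero_of_natAbs hm h3)] at this
  rwa [e, E.xN_coe]

include p hm in
theorem g2Chk_sound {s : ℕ} (hy : n * E.xN s 1 ∈ K)
    {st : List (ℕ × ℕ × ℕ × ℕ × ℕ)} {L L' : List ℕ} (h : A.g2Chk m f s L st L' = true)
    (hL : ∀ r ∈ L, E.xN r 1 ∈ K) : ∀ r ∈ L', E.xN r 1 ∈ K := by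
  induction st generalizing L with
  | nil => exact fun r hr => hL r (by simpa using List.all_eq_true.1 h r hr)
  | cons x st ih =>
    obtain ⟨e, a, b, j, k⟩ := x
    simp only [Aux.g2Chk, Aux.g2Step, Bool.and_eq_true, decide_eq_true_eq] at h
    obtain ⟨⟨⟨⟨⟨⟨ha, hb⟩, hk⟩, h1⟩, h2⟩, h3⟩, h⟩ := h
    refine ih h (List.forall_mem_cons.2 ⟨?_, hL⟩)
    have h4 : (s < A.n → b = s) → (E.xN a 1 ∈ K ↔ MulAut.conj n
        ((A.g2Y s a).map fun c => E.xN c.1 (c.2.1 : F)).prod ∈ K) := fun h => by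
      rw [← mul_mem_cancel_left hy, ← mul_mem_cancel_right (inv_mem hy), mul_inv_rev, ← mul_assoc,
        mul_assoc _ _ (E.xN a 1), mul_assoc _ _ (E.xN s 1)⁻¹, Aux.g2Y]
      split_ifs with hs
      · rw [← h hs, T.conj_xN E hb ha h1 h2]; simp
      · simp [Real.xN, mt (T.lt_n ⟨s, ·⟩) hs]
    have h5 : ∀ c ∈ A.g2Y s a, c.1 < D.nroots := List.forall_mem_cons.2 ⟨T.lt_nroots ha, by
      split_ifs with hs
      exacts [T.lt_of_aTerms E hs ha, by simp]⟩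
    split_ifs at h3 <;> simp only [Bool.and_eq_true, decide_eq_true_eq, allLt_iff, beqZ_iff, List.all_eq_true] at h3
    · have := StSys.x_refl_mem (S := E.S F) (StSys.n_one_mem' (r := ⟨a, T.lt_nroots ha⟩) 
        (by rw [← E.xN_coe]; exact hL _ h3.1.1.1) (by rw [← E.xN_coe, T.neg]; exact hL _ h3.1.2))
        (s := ⟨b, T.lt_nroots hb⟩) (t := 1) (by rw [← E.xN_coe]; exact hL _ h3.1.1.2)
      rwa [(T.refl_eq_iff E _ _ ⟨k, T.lt_nroots hk⟩).2 h3.2, ← E.xN_coe] at this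
    · refine g2One_sound E p hm (T.sgn_wprod E []) hL (T.lt_of_aTerms E hb ha) h3.2 ?_
      have := mul_mem (mul_mem (hL _ h3.1.2) (hL _ h3.1.1)) (inv_mem (hL _ h3.1.2))
      simpa [T.conj_xN E hb ha h1 h2, mul_mem_cancel_left (hL _ h3.1.1)] using this
    · exact g2One_sound E p hm hn hL h5 h3.2.2 ((h4 h3.1).1 (hL _ h3.2.1))
    · rw [← h3.2.1, h4 h3.1, map_list_prod, List.map_map]
      exact list_prod_mem (List.forall_mem_map.2 fun c hc => hn.conj_mem E (h5 c hc) (hL _ (h3.2.2 c hc)) _)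

include p hm in
theorem all_of_g2Chk {s : ℕ} (hy : n * E.xN s 1 ∈ K)
    {st : List (ℕ × ℕ × ℕ × ℕ × ℕ)} {L : List ℕ} (h : A.g2Chk m f s L st
      ((List.range A.l).flatMap fun i => [A.sim i, A.ng (A.sim i)]) = true) (hL : ∀ r ∈ L, E.xN r 1 ∈ K) (r : Fin D.nroots) :
    (E.S F).x r 1 ∈ K := by
  have := T.g2Chk_sound E p hm hn hy h hL
  simp only [List.mem_flatMap, List.mem_range, List.mem_cons, List.not_mem_nil, or_false] at this
  have h1 : ∀ i, (E.S F).x (E.R.simple i) 1 ∈ K := fun i => E.xN_coe _ (1 : F) ▸ this _ ⟨i, T.lt_l i, .inl (T.simple E i)⟩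
  exact StSys.x_mem_of_simple (fun i => StSys.n_one_mem' (h1 i)
    (E.xN_coe _ (1 : F) ▸ this _ ⟨i, T.lt_l i, .inr (by rw [T.neg, T.simple])⟩)) h1 r

omit T hn in
theorem _root_.CL.Chev.Real.xN_int_mem (hK : ∀ r, (E.S F).x r 1 ∈ K) (r : ℕ) (c : ℤ) : E.xN r (c : F) ∈ K := by
  rw [Real.xN]; split_ifs
  exacts [StSys.x_int_mem (hK _) c, one_mem _]

omit hn in
include p hm in
theorem gen2_of (l : List (Fin D.rank)) (s : ℕ) (a : Fin D.nroots) (st : List (ℕ × ℕ × ℕ × ℕ × ℕ))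
    (h : A.g2Chk m (fun r => l.foldr (fun (i : Fin D.rank) r => A.w i r) r) s [a] st
      ((List.range A.l).flatMap fun i => [A.sim i, A.ng (A.sim i)]) = true) :
    ∃ y, (E.S F).Gen2 a y :=
  ⟨_, fun _ => ⟨fun hK => T.all_of_g2Chk E p hm (T.sgn_wprod E l) hK.2 h (by simpa using hK.1), fun hK =>
    ⟨hK a, mul_mem (wprod_mem fun _ _ => StSys.n_one_mem hK _) (by simpa using E.xN_int_mem hK s 1)⟩⟩⟩

end Tab

theorem Real.two_gen {D : ChevalleyDatum} (hD : D ∈ [chevG2, chevB2, chevD4, chevF4, chevE6, chevE7, chevE8]) (E : Real D)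
    {F : Type*} [Field F] [Finite F] (p : ℕ) [Fact p.Prime] [CharP F p] {a b : Fin D.nroots} (hb : E.R.pair b a = 0)
    {y : GL D.Idx F} (h : (E.S F).Gen2 a y) : ∃ a b : D.group F, Subgroup.closure {a, b} = ⊤ := by
  obtain ⟨ζ, hζ⟩ := IsCyclic.exists_generator (α := Fˣ)
  rw [E.group_eq]
  refine exists_two_gen_of ((E.S F).h_mem_grp b ζ) ((E.S F).x_mem_grp a 1) ((h _).2 fun r => (E.S F).x_mem_grp r 1).2
    (mul_inv_eq_iff_eq_mul.1 (by simp [(E.S F).conj_h, hb])) (n := Nat.card Fˣ) ?_ (StSys.x_pow_char p a 1)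
    (coprime_card_units p) fun K hK h1 h2 h3 => ?_
  · rw [(E.hMul F).h_pow b ζ.ne_zero, ← Units.val_pow_eq_pow_val, pow_card_eq_one', Units.val_one, StSys.h_one]
  have h4 := (h K).1 ⟨h2, h3⟩
  obtain ⟨c, -, h5, h6⟩ := E.finite_overgroup p hD hK h4
  refine (E.S F).XS_le_iff.2 fun r _ t => h5 r t (((E.faithful F).uFaithful.x_injective b) ((E.map_x _ b t).symm.trans
    (h6 _ (mem_of_gen_sq (A := (E.S F).coef K b) hζ (fun t ht => ?_) (h4 b) t))))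
  have := mul_mem (mul_mem h1 ht) (inv_mem h1)
  rwa [(E.S F).conj_h b b ζ.ne_zero, E.R.pair_self, zpow_ofNat] at this

variable {F : Type*} [Field F] (p : ℕ) [Fact p.Prime] [CharP F p]
include p

theorem gen2_G2 (E : Real chevG2) : ∃ y, (E.S F).Gen2 ⟨6, by decide⟩ y := by
  have hn := (tabG2.sgn_n E (F := F) ⟨0, by decide⟩ (f := dig 0x053271a4986b 4) (by decide +kernel)).mul E
    (tabG2.sgn_n E ⟨1, by decide⟩ (f := dig 0x61482b0937a5 4) (by decide +kernel))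
  refine ⟨_ * E.xN 2 1, fun K => ⟨fun hK => ?_, fun hK => ⟨hK _, mul_mem (mul_mem (StSys.n_one_mem hK ⟨0, by decide⟩)
    (StSys.n_one_mem hK ⟨1, by decide⟩)) (by simpa using E.xN_int_mem hK 2 1)⟩⟩⟩
  have h := tabG2.g2Chk_sound E p (m := 1) (by simp) hn hK.2 (L := [6]) (L' := [0, 1, 5, 6, 10, 11])
    (st := [(2,6,2,0,0),(2,0,2,0,10),(1,6,0,0,1),(1,6,10,0,11),(1,0,10,0,5)]) (by decide +kernel)
    (List.forall_mem_singleton.2 hK.1)
  have h1 : ∀ r : Fin chevG2.nroots, (r : ℕ) ∈ [0, 1, 5, 6, 10, 11] → auxG2.ng r ∈ [0, 1, 5, 6, 10, 11] →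
      (E.S F).n r 1 ∈ K := fun r a b => StSys.n_one_mem' (E.xN_coe r (1 : F) ▸ h _ a) (by rw [← E.xN_coe, tabG2.neg]; exact h _ b)
  exact tabG2.all_of_g2Chk E p (m := 1) (by simp) hn hK.2 (st := [(0,0,2,0,8),(0,1,2,0,7),(1,0,8,1,4)]) (by decide +kernel)
    (List.forall_mem_cons.2 ⟨(mul_mem_cancel_left (mul_mem (h1 _ (by decide) (by decide +kernel))
      (h1 _ (by decide) (by decide +kernel)))).1 hK.2, h⟩)

theorem gen2_F4 (E : Real chevF4) : ∃ y, (E.S F).Gen2 ⟨24, by decide⟩ y :=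
  tabF4.gen2_of E p (m := 1) (by simp) (List.finRange _) 8 _ [(2,24,8,0,5),(2,5,8,0,17),(2,17,8,0,4),(2,4,8,0,16),
    (2,16,8,0,22),(2,22,8,0,23),(2,23,8,0,42),(2,42,8,0,30),(0,24,22,0,21),(0,24,30,0,31),(2,30,8,0,43),(2,31,8,0,25),
    (2,43,8,1,27),(0,17,27,0,19),(0,22,19,0,20),(3,14,8,0,14),(3,33,8,0,33)] (by decide +kernel)

theorem gen2_B2 (E : Real chevB2) : ∃ a b y, E.R.pair b a = 0 ∧ (E.S F).Gen2 a y := by
  by_cases h : p = 2
  · subst h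
    let w : List (ℕ × ℤ) → GL chevB2.Idx F := fun l => E.word (l.map fun a => (a.1, (a.2 : F)))
    let y : List (ℕ × ℤ) := [(7, 1), (0, 1), (7, 1), (4, 1), (6, 1), (3, 1), (4, 1)]
    refine ⟨⟨7, by decide⟩, ⟨4, by decide⟩, w y, by rw [tabB2.pair E]; decide +kernel, fun K => ⟨fun hK => ?_, fun hK =>
      ⟨hK _, list_prod_mem (List.forall_mem_map.2 (List.forall_mem_map.2 fun a _ => E.xN_int_mem hK _ _))⟩⟩⟩
    have h : ∀ a b, w a ∈ K → (Nat.blt 0 2 = true ∧ ((Aux.cstW (y ++ a) ++ Aux.cstW (b ++ y)).all fun a =>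
        Nat.blt a.1 auxB2.n) = true ∧ auxB2.sameWordN 2 (Aux.cstW (y ++ a)) (Aux.cstW (b ++ y)) = true) → w b ∈ K :=
      fun a b h1 h2 => by
        have := congrArg Subtype.val (tabB2.wordZ_eq E (CharP.cast_eq_zero F 2) _ _ h2)
        simp only [E.coe_wordG, List.map_append, Real.word, List.prod_append] at this
        exact (mul_mem_cancel_right hK.2).1 (this ▸ mul_mem hK.2 h1)
    have h1 : w [(7, 1)] ∈ K := by simpa [w, Real.word, E.xN_of_lt (r := 7) (by decide)] using hK.1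
    have h2 := h _ [(0, 1)] h1 (by decide +kernel)
    have h3 := h _ [(7, 1), (4, 1), (6, 1)] h2 (by decide +kernel)
    have h4 := h _ [(3, 1)] h3 (by decide +kernel)
    have h5 := h _ [(4, 1)] h4 (by decide +kernel)
    simp only [w, Real.word, List.map_cons, List.map_nil, List.prod_cons, List.prod_nil, mul_one, Int.cast_one] at h1 h2 h3 h4 h5
    rw [mul_mem_cancel_left h1, mul_mem_cancel_left h5] at h3
    exact tabB2.all_of_g2Chk E 2 (m := 1) (by simp) (tabB2.sgn_wprod E []) (s := 8)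
      (by simp [Real.xN, show ¬ 8 < chevB2.nroots by decide]) (L := [7, 0, 3, 4, 6])
      (st := [(0,7,6,0,2),(0,3,6,0,5)]) (by decide +kernel) (by simp [*])
  · obtain ⟨y, hy⟩ := tabB2.gen2_of E p (natCast_ne_zero_of_ne (F := F) p Nat.prime_two h) (List.finRange _) 8 ⟨5, by decide⟩
      [(3,1,0,0,1),(3,2,0,0,2),(2,5,0,0,6),(1,5,1,0,3),(1,2,6,0,4)] (by decide +kernel)
    exact ⟨_, ⟨6, by decide⟩, y, by rw [tabB2.pair E]; decide +kernel, hy⟩

theorem Real.exists_gen2 {D : ChevalleyDatum} (hD : D ∈ [chevG2, chevB2, chevD4, chevF4, chevE6, chevE7, chevE8])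
    (E : Real D) : ∃ a b y, E.R.pair b a = 0 ∧ (E.S F).Gen2 a y := by
  simp only [List.mem_cons, List.not_mem_nil, or_false] at hD
  rcases hD with rfl | rfl | rfl | rfl | rfl | rfl | rfl
  · exact (gen2_G2 p E).elim fun y h => ⟨_, ⟨9, by decide⟩, y, by rw [tabG2.pair E]; decide +kernel, h⟩
  · exact gen2_B2 p E
  · exact (tabD4.gen2_of E p (m := 1) (by simp) (List.finRange _) 2 ⟨18, by decide⟩ [(3,1,2,0,1),(3,9,2,0,9),(3,5,2,0,5),
      (0,18,1,0,6),(0,18,9,0,4),(2,6,2,0,19),(3,17,2,0,17),(0,18,19,0,14),(0,18,17,0,22),(0,1,14,0,23),(2,18,2,1,11),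
      (2,22,2,1,3),(2,23,2,1,13),(0,18,3,0,8),(2,8,2,0,10),(3,12,2,0,12)] (by decide +kernel)).elim fun y h =>
      ⟨_, ⟨0, by decide⟩, y, by rw [tabD4.pair E]; decide +kernel, h⟩
  · exact (gen2_F4 p E).elim fun y h => ⟨_, ⟨2, by decide⟩, y, by rw [tabF4.pair E]; decide +kernel, h⟩
  · exact (tabE6.gen2_of E p (m := 1) (by simp) (List.finRange _) 72 ⟨42, by decide⟩ [(2,42,0,0,47),(2,47,0,0,59),
      (3,56,0,0,56),(2,59,0,0,52),(3,11,0,0,11),(3,23,0,0,23),(3,28,0,0,28),(2,52,0,0,39),(3,8,0,0,8),(3,36,0,0,36),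
      (3,37,0,0,37),(1,42,28,0,32),(1,47,23,0,34),(1,47,32,0,46),(1,59,11,0,35),(1,52,8,0,15),(1,23,37,0,24),
      (1,28,39,0,29),(1,39,24,0,25)] (by decide +kernel)).elim fun y h =>
      ⟨_, ⟨0, by decide⟩, y, by rw [tabE6.pair E]; decide +kernel, h⟩
  · exact (tabE7.gen2_of E p (m := 1) (by simp) (List.finRange _) 126 ⟨63, by decide⟩ [(2,63,0,0,23),(3,64,0,0,64),
      (3,66,0,0,66),(3,69,0,0,69),(3,86,0,0,86),(3,97,0,0,97),(2,23,0,0,51),(2,51,0,0,45),(3,80,0,0,80),(0,45,64,0,81),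
      (0,45,66,0,46),(2,45,0,0,28),(3,52,0,0,52),(3,74,0,0,74),(2,81,0,0,98),(2,98,0,0,32),(3,102,0,0,102),(0,23,98,0,47),
      (2,28,0,0,39),(2,39,0,0,56),(2,56,0,0,59),(2,59,0,0,61),(2,61,0,0,62),(0,63,28,0,27),(0,23,39,0,93),(0,23,27,0,78),
      (0,69,74,0,73)] (by decide +kernel)).elim fun y h => ⟨_, ⟨0, by decide⟩, y, by rw [tabE7.pair E]; decide +kernel, h⟩
  · exact (tabE8.gen2_of E p (m := 1) (by simp) (List.finRange _) 240 ⟨162, by decide⟩ [(3,71,0,0,71),(3,94,0,0,94),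
      (3,101,0,0,101),(2,162,0,0,135),(3,59,0,0,59),(3,85,0,0,85),(2,135,0,0,142),(2,142,0,0,165),(2,165,0,0,149),
      (3,47,0,0,47),(3,60,0,0,60),(3,86,0,0,86),(2,149,0,0,176),(2,176,0,0,190),(2,190,0,0,153),(0,86,162,0,175),
      (0,86,71,0,41),(0,86,85,0,118),(0,86,149,0,109),(3,49,0,0,49),(3,63,0,0,63),(3,90,0,0,90),(2,109,0,0,113),
      (2,113,0,0,116),(2,118,0,0,119),(2,153,0,0,179),(2,175,0,0,189),(2,179,0,0,192),(2,189,0,0,208),(2,192,0,0,154),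
      (2,208,0,0,195),(0,85,86,0,121),(0,85,63,0,77),(0,149,101,0,141),(0,149,153,0,130),(0,149,208,0,177),
      (0,47,49,0,123),(0,47,130,0,198),(0,60,63,0,126),(0,60,208,0,233),(0,176,195,0,137),(0,176,177,0,120),
      (0,176,233,0,211),(0,190,137,0,66),(0,190,211,0,144),(0,153,66,0,31),(0,153,144,0,103),(0,41,31,0,98),
      (0,109,103,0,104)] (by decide +kernel)).elim fun y h => ⟨_, ⟨0, by decide⟩, y, by rw [tabE8.pair E]; decide +kernel, h⟩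

end CL.Chev
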