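import Cfsg.Agent.Chev.Gen2
import Cfsg.Agent.Chev.TwRealF4

/-!
# Two generators for `²F₄(q)`
-/

set_option autoImplicit false

namespace CL.Chev

open Cfsg Cfsg.Lie Cert CL.Cox

namespace StSys

variable {Φ : Type} {R : RS (Fin 4) Φ} {F : Type*} [Field F] {G : Type*} [Group G] {S : StSys R F G} {θ : F ≃+* F}
  {c d : Φ} {L : Subgroup G}

theorem f4_pos (hC : ∀ i j, R.cartan i j = cF4 i j) (hc : R.root c = ![0, 1, 1, 0]) (hd : R.root d = ![0, 2, 1, 0])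
    (hsq : ∀ t, θ (θ t) ^ 2 = t) (hL : ∀ s ≠ 0, S.h (R.simple 1) (θ s) * S.h (R.simple 2) s ∈ L)
    (a : S.x (R.simple 0) 1 * S.x (R.simple 3) 1 ∈ L) (b : S.x (R.simple 1) 1 * (S.x (R.simple 2) 1 * S.x c 1) ∈ L)
    (b' : S.x c 1 * S.x d 1 ∈ L) (t : F) : S.x (R.simple 0) (θ t) * S.x (R.simple 3) t ∈ L ∧
      ∀ u, suzW θ (S.x (R.simple 1)) (S.x (R.simple 2)) (S.x c) (S.x d) t u ∈ L := by
  have e : ∀ s ≠ 0, ∃ h : G, (∀ g ∈ L, h * g * h⁻¹ ∈ L) ∧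
      ∀ r t, h * S.x r t * h⁻¹ = S.x r (θ s ^ R.pair (R.simple 1) r * (s ^ R.pair (R.simple 2) r * t)) := fun s hs =>
    ⟨_, fun g hg => mul_mem (mul_mem (hL s hs) hg) (inv_mem (hL s hs)), fun r t => by
      rw [← S.conj_h _ _ (θ.map_ne_zero_iff.2 hs), ← S.conj_h _ _ hs]; group⟩
  refine ⟨?_, fun u => ?_⟩
  · by_cases h0 : t = 0
    · simp [h0]
    obtain ⟨h, h1, h2⟩ := e _ (inv_ne_zero h0)
    simpa [← conj_mul, h2, R.pair_simple_simple, hC, cF4] using h1 _ a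
  rw [suzW, S.x_add, ← mul_assoc, mul_assoc _ _ (S.x d _)]
  refine mul_mem ?_ ?_
  · by_cases h0 : t = 0
    · simp [h0]
    have h3 := θ.map_ne_zero_iff.2 h0
    obtain ⟨h, h1, h2⟩ := e _ (mul_ne_zero h3 h0)
    have h4 : θ (θ t * t) ^ 2 = θ t ^ 2 * t := by rw [map_mul, mul_pow, hsq, mul_comm]
    have := h1 _ b
    rw [← conj_mul, ← conj_mul, h2, h2, h2, ← mul_assoc] at this
    simp only [R.pair_simple_simple, hC] at this
    convert this using 3 <;> [congr 1; skip; skip] <;>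
      simp [cF4, -map_mul, zpow_ofNat, h4, R.pair_simple_left, hC, hc, Fin.sum_univ_four] <;> field_simp
  · by_cases h0 : u = 0
    · simp [h0]
    obtain ⟨h, h1, h2⟩ := e _ h0
    simpa [← conj_mul, h2, R.pair_simple_left, hC, cF4, hc, hd, Fin.sum_univ_four, zpow_ofNat] using h1 _ b'

variable (S c d) in
/-- The generators with parameters in the prime field lie in `L`. -/
def F4One (L : Subgroup G) : Prop :=
  S.x (R.simple 0) 1 * S.x (R.simple 3) 1 ∈ L ∧ S.x (R.simple 1) 1 * (S.x (R.simple 2) 1 * S.x c 1) ∈ L ∧ S.x c 1 * S.x d 1 ∈ L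

theorem GAut.IsF4.le_of {A : S.GAut} (h : A.IsF4 θ c d) [Finite F] {ζ : Fˣ} (hζ : ∀ x, x ∈ Subgroup.zpowers ζ)
    (hh : S.h (R.simple 1) (θ ζ) * S.h (R.simple 2) ζ ∈ L) (a : S.F4One c d L) (b : S.opp.F4One c d L) :
    Subgroup.closure (f4Gens θ (fun i => S.x (R.simple i)) (fun i => S.x (R.neg (R.simple i))) (S.x c) (S.x d)
      (S.x (R.neg c)) (S.x (R.neg d))) ≤ L := by
  have hL : ∀ s ≠ 0, S.h (R.simple 1) (θ s) * S.h (R.simple 2) s ∈ L := fun s hs => by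
    obtain ⟨k, e⟩ := mem_powers_iff_mem_zpowers.2 (hζ (Units.mk0 s hs))
    obtain rfl : (ζ : F) ^ k = s := congrArg Units.val e
    rw [map_pow, ← h.hMul.h_pow _ (by simp), ← h.hMul.h_pow _ ζ.ne_zero, ← (h.hMul.commute_h _ _ (by simp) ζ.ne_zero).mul_pow]
    exact pow_mem hh k
  have h1 := f4_pos h.ca h.root_c h.root_d h.sq hL a.1 a.2.1 a.2.2
  have h2 := f4_pos (S := S.opp) h.ca h.root_c h.root_d h.sq (fun s hs => by
    rw [opp_h, opp_h, h.hMul.h_neg_root _ hs, h.hMul.h_neg_root _ (by simpa),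
      ← (h.hMul.commute_h _ _ (by simpa) hs).mul_inv]
    exact inv_mem (hL s hs)) b.1 b.2.1 b.2.2
  rw [Subgroup.closure_le]
  rintro g (⟨t, rfl | rfl⟩ | ⟨t, u, rfl | rfl⟩)
  exacts [(h1 t).1, (h2 t).1, (h1 t).2 u, (h2 t).2 u]

theorem GAut.IsF4.hb_mem [Finite Φ] {K : Subgroup G} {A : S.res.GAut} (h : A.IsF4 θ c d)
    (D : A.TwData jF4 (K.subgroupOf S.grp)) (hS : S.Faithful) (hK : K ≤ S.grp) {s : F} (hs : s ≠ 0) :
    S.res.h (R.simple 1) (θ s) * S.res.h (R.simple 2) s ∈ K.subgroupOf S.grp := by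
  obtain ⟨-, p1, p2, -⟩ := h.π_eq ▸ piF4_apply
  have c := h.hMul.commute_h (R.simple 1) (R.simple 2) (t := θ (θ (θ s))) (u := θ (θ s)) (by simpa) (by simpa)
  have := D.sq_mem_of_w0 hS hK h.hMul (w0_simple_F4 h.cartan) (g := S.res.h (R.simple 1) (θ (θ (θ s))) *
    S.res.h (R.simple 2) (θ (θ s))) (mul_mem (h_mem_H _ _ (by simpa)) (h_mem_H _ _ (by simpa))) (by rw [map_mul, A.map_h, A.map_h, p1, p2, h.φ1, h.φ2, h.sq, c.eq])
  rwa [c.mul_pow, h.hMul.h_pow _ (by simpa), h.hMul.h_pow _ (by simpa), h.sq, h.sq] at this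

theorem commute_hb {r : Φ} (h1 : R.pair (R.simple 1) r = 0) (h2 : R.pair (R.simple 2) r = 0) {s t : F} (hs : s ≠ 0)
    (ht : t ≠ 0) : Commute (S.h (R.simple 1) s * S.h (R.simple 2) t) (S.x r 1) :=
  Commute.mul_left (mul_inv_eq_iff_eq_mul.1 (by simp [S.conj_h _ _ hs, h1])) (mul_inv_eq_iff_eq_mul.1 (by simp [S.conj_h _ _ ht, h2]))

theorem f4One_closure (θ : F ≃+* F) : let L := Subgroup.closure (f4Gens θ (fun i => S.x (R.simple i))
      (fun i => S.x (R.neg (R.simple i))) (S.x c) (S.x d) (S.x (R.neg c)) (S.x (R.neg d)))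
    S.F4One c d L ∧ S.opp.F4One c d L := by
  refine ⟨⟨?_, ?_, ?_⟩, ?_, ?_, ?_⟩ <;> refine Subgroup.subset_closure ?_
  exacts [.inl ⟨1, by simp⟩, .inr ⟨1, 0, by simp [suzW, mul_assoc]⟩, .inr ⟨0, 1, by simp [suzW]⟩, .inl ⟨1, by simp⟩,
    .inr ⟨1, 0, by simp [suzW, mul_assoc]⟩, .inr ⟨0, 1, by simp [suzW]⟩]

end StSys

/-- Words with all parameters equal to one. -/
noncomputable def Real.w1 {D : ChevalleyDatum} (E : Real D) (F : Type*) [Field F] (l : List ℕ) : (E.S F).grp :=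
  (l.map fun r => E.xG r (1 : F)).prod

theorem Tab.w1_mem_iff {D : ChevalleyDatum} {A : Aux} (T : Tab D A) (E : Real D) {F : Type*} [Field F] (hp : (2 : F) = 0)
    {L : Subgroup (E.S F).grp} {a d : List ℕ} (ha : E.w1 F a ∈ L) (hd : E.w1 F d ∈ L) (b c : List ℕ)
    (h : ((a ++ b ++ (c ++ d)).all fun a => Nat.blt a A.n) = true ∧
      A.sameWordN 2 ((a ++ b).map fun r => (r, [(1, 1)])) ((c ++ d).map fun r => (r, [(1, 1)])) = true) :
    E.w1 F b ∈ L ↔ E.w1 F c ∈ L := by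
  have := T.wordN_eq E (1 : ℕ →* F) (p := 2) hp _ _ ⟨rfl, by rw [← List.map_append, List.all_map]; exact h.1, h.2⟩
  simp only [Real.wordG, List.map_map, List.map_append, List.prod_append, Function.comp_def, Aux.evalP] at this
  rw [← mul_mem_cancel_left ha, show E.w1 F a * E.w1 F b = E.w1 F c * E.w1 F d by simpa [Real.w1] using this,
    mul_mem_cancel_right hd]

theorem two_gen_twF4 {K : Type*} [Field K] [Fintype K] {m : ℕ} (hK : Fintype.card K = 2 ^ (2 * m + 1)) :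
    ∃ a b : twistedF4 K (2 ^ m), Subgroup.closure {a, b} = ⊤ := by
  have E := realF4
  have hT := isTwF4 E hK
  obtain ⟨A, θ, c, d, h1, e⟩ := hT.ex
  obtain ⟨ζ, hζ⟩ := IsCyclic.exists_generator (α := Kˣ)
  have := Fact.mk Nat.prime_two
  have : CharP K 2 := charP_of_card_eq_prime_pow hK
  have h2 := h1.suzP.two
  obtain rfl : c = ⟨28, by decide⟩ := E.R.root_inj (h1.root_c.trans (funext fun i => ((tabF4.root E _ i).trans
    ((by decide +kernel : ∀ i : Fin 4, auxF4.rt 28 i = ![0, 1, 1, 0] i) i)).symm))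
  obtain rfl : d = ⟨30, by decide⟩ := E.R.root_inj (h1.root_d.trans (funext fun i => ((tabF4.root E _ i).trans
    ((by decide +kernel : ∀ i : Fin 4, auxF4.rt 30 i = ![0, 2, 1, 0] i) i)).symm))
  have hs : ∀ i : Fin 4, ((E.R.simple i : Fin chevF4.nroots) : ℕ) = auxF4.sim i := tabF4.simple E
  have h3 : ∀ L, (StSys.F4One (R := E.R) (E.S K).res ⟨28, by decide⟩ ⟨30, by decide⟩ L ∧
      StSys.F4One (R := E.R) (E.S K).res.opp ⟨28, by decide⟩ ⟨30, by decide⟩ L) ↔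
      (E.w1 K [33, 24] ∈ L ∧ E.w1 K [27, 25, 28] ∈ L ∧ E.w1 K [28, 30] ∈ L) ∧
      E.w1 K [14, 23] ∈ L ∧ E.w1 K [20, 22, 19] ∈ L ∧ E.w1 K [19, 17] ∈ L := fun L => by
    simp only [StSys.F4One, StSys.opp_x, tabF4.x_neg E, hs, ← E.xG_coe, Real.w1, List.map_cons,
      List.map_nil, List.prod_cons, List.prod_nil, mul_one]
    rfl
  have hw : ∀ a b, E.w1 K (a ++ b) = E.w1 K a * E.w1 K b := by simp [Real.w1]
  obtain ⟨⟨a1, a2, a3⟩, a4, -, a5⟩ := (h3 _).1 (e ▸ StSys.f4One_closure (R := E.R) θ)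
  let y := [33, 24] ++ [14, 23] ++ [33, 24] ++ [27, 25, 28] ++ [19, 17] ++ [27, 25, 28] ++ [28, 30]
  have hy : E.w1 K y ∈ (twistedF4 K (2 ^ m)).subgroupOf _ := by
    simp only [y, hw]
    exact mul_mem (mul_mem (mul_mem (mul_mem (mul_mem (mul_mem a1 a4) a1) a2) a5) a2) a3
  have v0 := fun L (h : E.w1 K y ∈ L) => tabF4.w1_mem_iff E h2 h h [27, 25, 28] [13, 21, 11] (by decide +kernel)
  have v1 := fun L (h : E.w1 K y ∈ L) => tabF4.w1_mem_iff E h2 h h [13, 21, 11] [18, 6, 3] (by decide +kernel)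
  have hh := h1.hb_mem (e ▸ h1.twData) hT.faithful hT.le ζ.ne_zero
  have hc : ∀ r, r < 48 ∧ auxF4.pr (auxF4.sim 1) r = 0 ∧ auxF4.pr (auxF4.sim 2) r = 0 → Commute _ (E.xG r (1 : K)) :=
    fun r h => E.xG_of_lt h.1 (1 : K) ▸ StSys.commute_hb (R := E.R) ((tabF4.pair E _ _).trans (hs 1 ▸ h.2.1))
      ((tabF4.pair E _ _).trans (hs 2 ▸ h.2.2)) (θ.map_ne_zero_iff.2 ζ.ne_zero) ζ.ne_zero
  have h4 : E.w1 K [18, 6, 3] ^ 2 ^ 2 = 1 := by
    rw [sq, pow_mul, sq, sq, ← hw, ← hw]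
    exact (tabF4.w1_mem_iff E h2 (L := ⊥) (a := []) (d := []) rfl rfl _ [] (by decide +kernel)).2 rfl
  obtain ⟨a, b, e'⟩ := exists_two_gen_of hh ((v1 _ hy).1 ((v0 _ hy).1 a2)) hy ((hc 18 (by decide +kernel)).mul_right
      ((hc 6 (by decide +kernel)).mul_right ((hc 3 (by decide +kernel)).mul_right (.one_right _))))
    (h1.hMul.pow_card_sub_one (mul_mem (StSys.h_mem_H _ _ (by simp)) (StSys.h_mem_H _ _ ζ.ne_zero))) (m := 2 ^ 2)
    h4
    (Nat.card_units K ▸ (coprime_card_units 2).pow_right 2) fun L _ b1 b2 b3 => by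
      have c1 := (v1 L b3).2 b2
      have c0 := (v0 L b3).2 c1
      have c4 := (tabF4.w1_mem_iff E h2 b3 b3 _ [20, 22, 19] (by decide +kernel)).1
        ((tabF4.w1_mem_iff E h2 b3 b3 _ [12, 16, 7] (by decide +kernel)).1 b2)
      have c5 := (tabF4.w1_mem_iff E h2 b3 b3 _ [34, 26, 36] (by decide +kernel)).1 c4
      have := (h3 L).2 ⟨⟨(tabF4.w1_mem_iff E h2 c4 (hw _ _ ▸ mul_mem c5 c4) _ _ (by decide +kernel)).1 c5, c0,
        (tabF4.w1_mem_iff E h2 c0 (d := []) (one_mem L) _ _ (by decide +kernel)).1 c0⟩,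
        (tabF4.w1_mem_iff E h2 c0 (hw _ _ ▸ mul_mem c1 c0) _ _ (by decide +kernel)).1 c1, c4,
        (tabF4.w1_mem_iff E h2 c4 (d := []) (one_mem L) _ _ (by decide +kernel)).1 c4⟩
      exact e ▸ h1.le_of hζ b1 this.1 this.2
  let φ := Subgroup.subgroupOfEquivOfLe hT.le
  exact ⟨φ a, φ b, by simpa [MonoidHom.map_closure, Set.image_pair] using congrArg (Subgroup.map φ.toMonoidHom) e'⟩

end CL.Chev
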