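import Cfsg.Agent.Chev.Gen2
import Cfsg.Agent.S1035

/-!
# Two generators for `²E₆(q)` and `³D₄(q)`
-/

set_option autoImplicit false

namespace CL.Chev

open Cfsg Cfsg.Lie Cert CL.Cox

/-- The parameters of the members of `L` in a one-parameter group. -/
def parGrp {F G : Type*} [AddGroup F] [Group G] (L : Subgroup G) {y : F → G} (hy : ∀ s t, y (s + t) = y s * y t) :
    AddSubgroup F :=
  (L.comap (MonoidHom.mk' (M := Multiplicative F) y hy)).toAddSubgroup'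

theorem mem_parGrp {F G : Type*} [AddGroup F] [Group G] {L : Subgroup G} {y : F → G} {hy : ∀ s t, y (s + t) = y s * y t}
    {t : F} : t ∈ parGrp L hy ↔ y t ∈ L := Iff.rfl

theorem exists_eq_gen_pow {F : Type*} [Field F] [Finite F] {ζ : Fˣ} (hζ : ∀ x, x ∈ Subgroup.zpowers ζ) {q m : ℕ}
    (hq : 0 < q) (h : Nat.card F = m * q + 1) {t : F} (ht : t ^ (q + 1) = t) (h0 : t ≠ 0) : ∃ j, t = (ζ ^ m) ^ j := by
  obtain ⟨k, e⟩ := mem_powers_iff_mem_zpowers.2 (hζ (Units.mk0 t h0))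
  obtain rfl : (ζ : F) ^ k = t := congrArg Units.val e
  have h1 : ζ ^ (k * q) = 1 := Units.ext (mul_right_cancel₀ h0 (by simpa [pow_mul, pow_succ] using ht))
  rw [← orderOf_dvd_iff_pow_eq_one, orderOf_eq_card_of_forall_mem_zpowers hζ, Nat.card_units, h, Nat.add_sub_cancel] at h1
  obtain ⟨j, rfl⟩ := Nat.dvd_of_mul_dvd_mul_right hq h1
  exact ⟨j, pow_mul _ _ _⟩

theorem pow_mul_mem {F : Type*} [Field F] {A : AddSubgroup F} {c : F} (h : ∀ t ∈ A, c * t ∈ A) (h1 : 1 ∈ A) (j : ℕ) :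
    c ^ j ∈ A := by
  induction j with
  | zero => simpa
  | succ j ih => exact pow_succ' c j ▸ h _ ih

theorem RS.refl_refl_simple {ι Φ : Type} [Fintype ι] [DecidableEq ι] {R : RS ι Φ} {i j : ι} (h : R.cartan i j = -1)
    (h' : R.cartan j i = -1) : R.refl (R.simple j) (R.refl (R.simple i) (R.simple j)) = R.simple i :=
  R.root_inj (by
    rw [R.root_refl, R.pair_refl_right', R.root_refl, R.pair_self, R.pair_simple_simple, R.pair_simple_simple, h, h']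
    module)

namespace StSys

variable {Φ : Type} {F : Type*} [Field F] [Finite F] {G : Type*} [Group G] {L : Subgroup G} {θ : F ≃+* F} {q : ℕ}
  (hθ : ∀ t, θ t = t ^ (q + 1)) (hq : 0 < q) {ζ : Fˣ} (hζ : ∀ x, x ∈ Subgroup.zpowers ζ)
include hθ hq hζ

theorem e6_pos {R : RS (Fin 6) Φ} {S : StSys R F G} (hC : ∀ i j, R.cartan i j = cE6 i j)
    (hF : Nat.card F = (q + 1) ^ 2) (hh : S.h (R.simple 2) ζ * S.h (R.simple 4) (θ ζ) ∈ L)
    (n1 : S.n (R.simple 1) 1 ∈ L) (n3 : S.n (R.simple 3) 1 ∈ L) (x3 : S.x (R.simple 3) 1 ∈ L)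
    (x0 : S.x (R.simple 0) 1 * S.x (R.simple 5) 1 ∈ L) (x2 : S.x (R.simple 2) 1 * S.x (R.simple 4) 1 ∈ L) (t : F) :
    (θ t = t → S.x (R.simple 1) t ∈ L ∧ S.x (R.simple 3) t ∈ L) ∧ S.x (R.simple 0) t * S.x (R.simple 5) (θ t) ∈ L ∧
      S.x (R.simple 2) t * S.x (R.simple 4) (θ t) ∈ L := by
  have h0 : θ ζ ≠ 0 := by simp
  have h2 : θ (θ ζ) = ζ := by
    have := Fintype.ofFinite F
    rw [hθ, hθ, ← pow_mul, ← sq, ← hF, Nat.card_eq_fintype_card, FiniteField.pow_card]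
  generalize e : S.h (R.simple 2) ζ * S.h (R.simple 4) (θ ζ) = h at hh
  have e1 : ∀ i t, h * S.x (R.simple i) t * h⁻¹ = S.x (R.simple i) (ζ ^ cE6 2 i * (θ ζ ^ cE6 4 i * t)) := fun i t => by
    rw [← hC, ← hC, ← R.pair_simple_simple, ← R.pair_simple_simple, ← S.conj_h _ _ ζ.ne_zero, ← S.conj_h _ _ h0, ← e]
    group
  have e2 : ∀ {y z}, h * y * h⁻¹ = z → (y ∈ L ↔ z ∈ L) := fun e => by
    rw [← e, mul_mem_cancel_right (inv_mem hh), mul_mem_cancel_left hh]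
  have e3 : ∀ i j c, cE6 i j = 0 → ζ ^ cE6 2 i * θ ζ ^ cE6 4 i = c → ζ ^ cE6 2 j * θ ζ ^ cE6 4 j = θ c →
      (∀ A : AddSubgroup F, (∀ t, t ∈ A ↔ c * t ∈ A) → ∀ t ∈ A, ζ ^ 2 * t ∈ A) → S.x (R.simple i) 1 * S.x (R.simple j) 1 ∈ L →
      S.x (R.simple i) t * S.x (R.simple j) (θ t) ∈ L := fun i j c a1 a2 a3 a4 a5 =>
    mem_of_gen_sq (A := parGrp L (y := fun t => S.x (R.simple i) t * S.x (R.simple j) (θ t)) fun s t => by
      simp only [map_add, S.x_add, (S.commute_simple ((hC i j).trans a1) _ _).mul_mul_mul_comm]) hζ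
      (a4 _ fun t => mem_parGrp.trans ((e2 (by rw [← conj_mul, e1, e1, ← mul_assoc, ← mul_assoc, a2, a3, ← map_mul])).trans
        mem_parGrp.symm)) (mem_parGrp.2 (by simpa)) t
  refine ⟨fun ht => ?_, e3 0 5 ζ⁻¹ rfl (by simp [cE6]) (by simp [cE6]) (fun A hA t ht => ?_) x0,
    e3 2 4 (ζ ^ 2) rfl (by simp [cE6]) (by simp [cE6]) (fun A hA t => (hA t).1) x2⟩
  · suffices S.x (R.simple 3) t ∈ L from
      ⟨RS.refl_refl_simple (hC 1 3) (hC 3 1) ▸ x_refl_mem n3 (x_refl_mem n1 this), this⟩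
    by_cases h1 : t = 0
    · simp [h1]
    obtain ⟨j, rfl⟩ := exists_eq_gen_pow hζ hq (m := q + 2) (by rw [hF]; ring) (hθ t ▸ ht) h1
    refine pow_mul_mem (A := S.coef L _) (fun t ht => (e2 (e1 3 _)).2 ?_) x3 j
    convert (show S.x (R.simple 3) t ∈ L from ht) using 2
    simp [cE6, pow_succ' (ζ : F) (q + 1), ← hθ]
    field_simp
  · rw [hA, hA]; simpa [sq, mul_assoc]

theorem d4_pos {R : RS (Fin 4) Φ} {S : StSys R F G} (hC : R.cartanM = cD4) (hF : Nat.card F = (q + 1) ^ 3)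
    (hh : S.h (R.simple 0) (ζ ^ 2) * S.h (R.simple 2) (θ ζ ^ 2) * S.h (R.simple 3) (θ (θ ζ) ^ 2) *
      S.h (R.simple 1) (ζ * θ ζ * θ (θ ζ)) ∈ L) (n0 : wprod S.nS [0, 2, 3] ∈ L) (x1 : S.x (R.simple 1) 1 ∈ L) :
    (∀ t, θ t = t → S.x (R.simple 1) t ∈ L) ∧ ((∀ t, θ t = t → t ≠ 0 → S.h (R.simple 1) t ∈ L) →
      S.x (R.simple 0) 1 * S.x (R.simple 2) 1 * S.x (R.simple 3) 1 ∈ L →
        ∀ t, S.x (R.simple 0) t * S.x (R.simple 2) (θ t) * S.x (R.simple 3) (θ (θ t)) ∈ L) := by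
  have h0 : θ ζ ≠ 0 := by simp
  have h1 : θ (θ ζ) ≠ 0 := by simp
  have hz := ζ.ne_zero
  have h3 : ∀ t, θ (θ (θ t)) = t := fun t => by
    have := Fintype.ofFinite F
    rw [hθ, hθ, hθ, ← pow_mul, ← pow_mul, ← sq, ← pow_succ', ← hF, Nat.card_eq_fintype_card, FiniteField.pow_card]
  have hc : ∀ i j, R.cartan i j = cD4 i j := congrFun₂ hC
  generalize e : _ * S.h (R.simple 1) _ = h at hh
  have e1 : ∀ r t, h * S.x r t * h⁻¹ = S.x r ((ζ ^ 2) ^ R.pair (R.simple 0) r * ((θ ζ ^ 2) ^ R.pair (R.simple 2) r *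
      ((θ (θ ζ) ^ 2) ^ R.pair (R.simple 3) r * ((ζ * θ ζ * θ (θ ζ)) ^ R.pair (R.simple 1) r * t)))) := fun i t => by
    rw [← S.conj_h, ← S.conj_h, ← S.conj_h, ← S.conj_h, ← e]
    · group
    all_goals simp
  have e2 : ∀ {h y z}, h ∈ L → h * y * h⁻¹ = z → (y ∈ L ↔ z ∈ L) := fun hh e => by
    rw [← e, mul_mem_cancel_right (inv_mem hh), mul_mem_cancel_left hh]
  refine ⟨fun t ht => ?_, fun hH x0 => ?_⟩
  · obtain ⟨c, h4, h5⟩ := S.exists_conj_wprod [0, 2, 3] (R.simple 1)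
    have h6 := fun t => (e2 n0 (h5 t)).trans (x_sign_mem_iff h4 t)
    by_cases h7 : t = 0
    · simp [h7]
    obtain ⟨j, rfl⟩ := exists_eq_gen_pow hζ hq (m := q ^ 2 + 3 * q + 3) (by rw [hF]; ring) (hθ t ▸ ht) h7
    refine (h6 _).2 (pow_mul_mem (A := S.coef L _) (fun t ht => ?_) ((h6 1).1 x1) j)
    have h8 : R.root (wprod R.sperm [0, 2, 3] (R.simple 1)) = ![1, 1, 1, 1] :=
      (RS.root_wprod_simple hC _ _).trans (by decide +kernel)
    generalize wprod R.sperm [0, 2, 3] (R.simple 1) = β at h8 ht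
    show S.x β _ ∈ L
    convert (e2 hh (e1 β t)).1 ht using 2
    simp [R.pair_simple_left, h8, hc, cD4, Fin.sum_univ_four]
    field_simp
    rw [hθ, hθ]; ring
  · let A := parGrp L (y := fun t => S.x (R.simple 0) t * S.x (R.simple 2) (θ t) * S.x (R.simple 3) (θ (θ t))) fun s t => by
      simp only [map_add, S.x_add, (S.commute_simple (hc 0 2) _ _).mul_mul_mul_comm,
        ((S.commute_simple (hc 0 3) _ _).mul_left (S.commute_simple (hc 2 3) _ _)).mul_mul_mul_comm]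
    have a1 : ∀ c t, θ c = c → t ∈ A → c * t ∈ A := fun c t h4 ht => by
      by_cases h5 : c = 0
      · simp [h5]
      refine mem_parGrp.2 ((e2 (hH c⁻¹ (by simp [h4]) (inv_ne_zero h5)) ?_).1 (mem_parGrp.1 ht))
      simp [← conj_mul, S.conj_h _ _ (inv_ne_zero h5), R.pair_simple_simple, hc, cD4, h4]
    have a2 : ∀ t, t ∈ A ↔ ζ ^ 4 / (ζ * θ ζ * θ (θ ζ)) * t ∈ A := fun t => mem_parGrp.trans ((e2 hh (by
      rw [← conj_mul, ← conj_mul, e1, e1, e1]
      congr 2 <;> [congr 1; skip; skip] <;> simp [R.pair_simple_simple, hc, cD4, h3] <;> field_simp)).trans mem_parGrp.symm)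
    have a3 : 1 ∈ A := mem_parGrp.2 (by simpa)
    refine mem_of_cubic h3 a1 a3 (by simpa only [mul_one] using (a2 1).1 a3) (fun e => ?_) ((a2 _).2 ?_)
    · have : ζ ^ (4 * q) = 1 := Units.ext (by
        simp only [map_div₀, map_mul, map_pow, h3] at e
        field_simp at e
        rw [hθ, ← pow_mul, show (q + 1) * 4 = 4 * q + 4 by ring, pow_add] at e
        simpa using e)
      rw [← orderOf_dvd_iff_pow_eq_one, orderOf_eq_card_of_forall_mem_zpowers hζ, Nat.card_units, hF] at this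
      have := Nat.le_of_dvd (by omega) this
      have : (q + 1) ^ 3 = q ^ 3 + 3 * q ^ 2 + 3 * q + 1 := by ring
      have : q ≤ q ^ 2 := Nat.le_self_pow two_ne_zero q
      omega
    · rw [← mul_one (_ / _ * _)]
      exact a1 _ _ (by simp only [map_mul, map_div₀, map_pow, h3]; ring) a3

theorem e6_le {R : RS (Fin 6) Φ} {S : StSys R F G} (hC : ∀ i j, R.cartan i j = cE6 i j) (hM : S.HMul)
    (hF : Nat.card F = (q + 1) ^ 2) (hh : S.h (R.simple 2) ζ * S.h (R.simple 4) (θ ζ) ∈ L)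
    (a : ∀ i : Fin 4, (((![[0, 5], [2, 4], [3], [1]] : Fin 4 → List (Fin 6)) i).map fun j => S.x (R.simple j) 1).prod ∈ L)
    (b : ∀ i : Fin 4, (((![[0, 5], [2, 4], [3], [1]] : Fin 4 → List (Fin 6)) i).map
      fun j => S.x (R.neg (R.simple j)) 1).prod ∈ L) : Subgroup.closure (S.e6Gens θ) ≤ L := by
  simp only [Fin.forall_fin_succ, IsEmpty.forall_iff] at a b
  simp at a b
  have h1 := e6_pos hθ hq hζ hC hF hh (n_one_mem' a.2.2.2 b.2.2.2) (n_one_mem' a.2.2.1 b.2.2.1) a.2.2.1 a.1 a.2.1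
  have h2 := e6_pos (S := S.opp) hθ hq hζ hC hF (by
      rw [opp_h, opp_h, hM.h_neg_root _ ζ.ne_zero, hM.h_neg_root _ (by simp), ← mul_inv_rev,
        hM.commute_h _ _ (by simp) ζ.ne_zero]
      exact inv_mem hh) (n_one_mem' (S := S) b.2.2.2 (by simpa using a.2.2.2)) (n_one_mem' (S := S) b.2.2.1 (by simpa using a.2.2.1))
    b.2.2.1 b.1 b.2.1
  simp only [Subgroup.closure_le, e6Gens, List.mem_cons, List.not_mem_nil, or_false, exists_eq_or_imp, exists_eq_left]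
  rintro g (⟨t, ht, (rfl | rfl) | rfl | rfl⟩ | ⟨t, (rfl | rfl) | rfl | rfl⟩)
  exacts [((h1 t).1 ht).1, ((h2 t).1 ht).1, ((h1 t).1 ht).2, ((h2 t).1 ht).2, (h1 t).2.1, (h2 t).2.1, (h1 t).2.2, (h2 t).2.2]

theorem d4_le {R : RS (Fin 4) Φ} {S : StSys R F G} (hC : R.cartanM = cD4) (hM : S.HMul) (hF : Nat.card F = (q + 1) ^ 3)
    (hh : S.h (R.simple 0) (ζ ^ 2) * S.h (R.simple 2) (θ ζ ^ 2) * S.h (R.simple 3) (θ (θ ζ) ^ 2) *
      S.h (R.simple 1) (ζ * θ ζ * θ (θ ζ)) ∈ L)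
    (a : ∀ i : Fin 2, (((![[0, 2, 3], [1]] : Fin 2 → List (Fin 4)) i).map fun j => S.x (R.simple j) 1).prod ∈ L)
    (b : ∀ i : Fin 2, (((![[0, 2, 3], [1]] : Fin 2 → List (Fin 4)) i).map fun j => S.x (R.neg (R.simple j)) 1).prod ∈ L) :
    Subgroup.closure (S.d4Gens θ) ≤ L := by
  simp only [Fin.forall_fin_succ, IsEmpty.forall_iff] at a b
  simp [← mul_assoc] at a b
  have hc : ∀ i j, R.cartan i j = cD4 i j := congrFun₂ hC
  have n : ∀ S : StSys R F G, S.x (R.simple 0) 1 * S.x (R.simple 2) 1 * S.x (R.simple 3) 1 ∈ L →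
      S.x (R.neg (R.simple 0)) 1 * S.x (R.neg (R.simple 2)) 1 * S.x (R.neg (R.simple 3)) 1 ∈ L →
      wprod S.nS [0, 2, 3] ∈ L := fun S a b => by
    have := S.n_mul_n_mul_n_eq (hc 0 2) (hc 0 3) (hc 2 3) 1 1 1
    simp only [wprod_cons, wprod_nil, mul_one, nS, ← mul_assoc _ _ (S.n _ _), this]
    refine mul_mem (mul_mem a ?_) a
    convert inv_mem b
    rw [((S.commute_neg_simple (hc 0 3) _ _).mul_left (S.commute_neg_simple (hc 2 3) _ _)).mul_inv,
      (S.commute_neg_simple (hc 0 2) _ _).mul_inv, inv_one, S.x_neg, S.x_neg, S.x_neg]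
  have h1 := d4_pos hθ hq hζ hC hF hh (n S a.1 b.1) a.2
  have h2 := d4_pos (S := S.opp) hθ hq hζ hC hF (by
    have m : ∀ i t, t ≠ 0 → S.h (R.simple i) t ∈ S.H := fun i t => S.h_mem_H _
    simp only [opp_h]
    rw [hM.h_neg_root, hM.h_neg_root, hM.h_neg_root, hM.h_neg_root, ← Commute.mul_inv, ← Commute.mul_inv, ← Commute.mul_inv]
    · exact inv_mem hh
    all_goals first | apply hM.commute_of_mem_H <;> apply_rules [mul_mem, m] <;> simp | simp) (n S.opp b.1 (by simpa using a.1)) b.2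
  have h3 : ∀ t, θ t = t → S.h (R.simple 1) t ∈ L := fun t ht =>
    mul_mem (mul_mem (mul_mem (h1.1 t ht) (h2.1 _ (by simp [ht]))) (h1.1 t ht))
      (mul_mem (mul_mem (h1.1 _ (by simp)) (h2.1 _ (by simp))) (h1.1 _ (by simp)))
  simp only [Subgroup.closure_le, d4Gens]
  rintro g (⟨t, ht, rfl | rfl⟩ | ⟨t, rfl | rfl⟩)
  exacts [h1.1 t ht, h2.1 t ht, h1.2 (fun t ht _ => h3 t ht) a.1 t,
    h2.2 (fun t ht h0 => (hM.h_neg_root _ h0).symm ▸ inv_mem (h3 t ht)) b.1 t]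

omit hθ hq hζ [Finite F] in
theorem e6_one_mem {R : RS (Fin 6) Φ} (S : StSys R F G) (i : Fin 4) :
    (((![[0, 5], [2, 4], [3], [1]] : Fin 4 → List (Fin 6)) i).map fun j => S.x (R.simple j) 1).prod ∈ S.e6Gens θ ∧
    (((![[0, 5], [2, 4], [3], [1]] : Fin 4 → List (Fin 6)) i).map fun j => S.x (R.neg (R.simple j)) 1).prod ∈ S.e6Gens θ := by
  fin_cases i <;> constructor <;> first | (refine .inr ⟨1, ?_⟩; simp; done) | exact .inl ⟨1, by simp⟩

omit hθ hq hζ [Finite F] in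
theorem d4_one_mem {R : RS (Fin 4) Φ} (S : StSys R F G) (i : Fin 2) :
    (((![[0, 2, 3], [1]] : Fin 2 → List (Fin 4)) i).map fun j => S.x (R.simple j) 1).prod ∈ S.d4Gens θ ∧
    (((![[0, 2, 3], [1]] : Fin 2 → List (Fin 4)) i).map fun j => S.x (R.neg (R.simple j)) 1).prod ∈ S.d4Gens θ := by
  fin_cases i <;> constructor <;> first | (refine .inr ⟨1, ?_⟩; simp [mul_assoc]; done) | exact .inl ⟨1, by simp⟩

omit hθ hq hζ [Finite F] in
theorem commute_h_x {ι : Type} [Fintype ι] [DecidableEq ι] {R : RS ι Φ} (S : StSys R F G) {i j : ι} (h : R.cartan i j = 0)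
    (t u : F) : Commute (S.h (R.simple i) t) (S.x (R.simple j) u) :=
  S.commute_of_cartan h (mul_mem (S.n_mem_L _ _) (S.n_mem_L _ _)) (S.x_mem_L _ _)

omit hθ hq hζ [Finite F] in
theorem d4_commute {R : RS (Fin 4) Φ} (S : StSys R F G) (hc : ∀ i j, R.cartan i j = cD4 i j) {a b c : F} (ha : a ≠ 0)
    (hb : b ≠ 0) (hc' : c ≠ 0) : Commute (S.h (R.simple 0) (a ^ 2) * S.h (R.simple 2) (b ^ 2) * S.h (R.simple 3) (c ^ 2) *
      S.h (R.simple 1) (a * b * c)) (S.x (R.simple 1) 1) := mul_inv_eq_iff_eq_mul.1 (by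
  have e : ∀ a b c d x : G, a * b * c * d * x * (a * b * c * d)⁻¹ = a * (b * (c * (d * x * d⁻¹) * c⁻¹) * b⁻¹) * a⁻¹ :=
    fun _ _ _ _ _ => by group
  rw [e, S.conj_h, S.conj_h, S.conj_h, S.conj_h] <;> simp [R.pair_simple_simple, cD4, *]
  congr 1; field_simp)

end StSys

theorem Real.two_gen_fold {D D' : ChevalleyDatum} (E : Real D) (E' : Real D') {F : Type*} [Field F] [Finite F]
    {orb : Fin D'.rank → List (Fin D.rank)} (hf : ∃ f : D'.group F →* D.group F, Function.Injective f ∧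
      (∀ i t, f ((E'.Sg F).x (E'.R.simple i) t) = ((orb i).map fun j => (E.Sg F).x (E.R.simple j) t).prod) ∧
      ∀ i t, f ((E'.Sg F).x (E'.R.neg (E'.R.simple i)) t) =
        ((orb i).map fun j => (E.Sg F).x (E.R.neg (E.R.simple j)) t).prod) {a : Fin D'.rank}
    (hy : ∀ (p : ℕ) [Fact p.Prime] [CharP F p], ∃ y, (E'.S F).Gen2 (E'.R.simple a) y) {T : Subgroup (GL D.Idx F)}
    (hT : T ≤ (E.S F).grp) {X : Set (E.S F).grp} (e : T.subgroupOf _ = Subgroup.closure X)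
    (hX : ∀ i, ((orb i).map fun j => (E.S F).res.x (E.R.simple j) 1).prod ∈ X ∧
      ((orb i).map fun j => (E.S F).res.x (E.R.neg (E.R.simple j)) 1).prod ∈ X) {h : (E.S F).grp}
    (hh : h ∈ Subgroup.closure X) (hH : h ∈ (E.S F).res.H)
    (hc : Commute h ((orb a).map fun j => (E.S F).res.x (E.R.simple j) 1).prod)
    (H : ∀ L, h ∈ L → (∀ i, ((orb i).map fun j => (E.S F).res.x (E.R.simple j) 1).prod ∈ L) →
      (∀ i, ((orb i).map fun j => (E.S F).res.x (E.R.neg (E.R.simple j)) 1).prod ∈ L) → Subgroup.closure X ≤ L) :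
    ∃ a b : T, Subgroup.closure {a, b} = ⊤ := by
  obtain ⟨p, hp⟩ := CharP.exists F
  have := Fact.mk (CharP.char_is_prime F p)
  obtain ⟨y, hy⟩ := hy p
  obtain ⟨f, -, f2, f3⟩ := hf
  let g := (MulEquiv.subgroupCongr (E.group_eq F)).toMonoidHom.comp f
  have g2 : ∀ i, g ((E'.Sg F).x (E'.R.simple i) 1) = ((orb i).map fun j => (E.S F).res.x (E.R.simple j) 1).prod :=
    fun i => by simp only [g, MonoidHom.comp_apply, f2, map_list_prod, List.map_map]; rfl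
  have g3 : ∀ i, g ((E'.Sg F).x (E'.R.neg (E'.R.simple i)) 1) =
      ((orb i).map fun j => (E.S F).res.x (E.R.neg (E.R.simple j)) 1).prod :=
    fun i => by simp only [g, MonoidHom.comp_apply, f3, map_list_prod, List.map_map]; rfl
  have h1 : y ∈ D'.group F := ((hy _).2 fun r => ((E'.Sg F).x r 1).2).2
  have h0 : ∀ (L : Subgroup (E.S F).grp) (x : D'.group F), x.1 ∈ (L.comap g).map (D'.group F).subtype ↔ g x ∈ L :=
    fun L x => Subgroup.mem_map_iff_mem Subtype.val_injective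
  have h2 : ∀ L : Subgroup (E.S F).grp, g ((E'.Sg F).x (E'.R.simple a) 1) ∈ L ∧ g ⟨y, h1⟩ ∈ L ↔ ∀ r, g ((E'.Sg F).x r 1) ∈ L := fun L => by
    simp only [← h0]; exact hy _
  have h3 := fun i => g2 i ▸ Subgroup.subset_closure (hX i).1
  have h4 := StSys.x_mem_of_simple (S := E'.Sg F) (K := (Subgroup.closure X).comap g)
    (fun i => StSys.n_one_mem' (h3 i) (g3 i ▸ Subgroup.subset_closure (hX i).2 :)) h3
  obtain ⟨a, b, e'⟩ := e ▸ exists_two_gen_of hh (h3 a) ((h2 _).2 h4).2 (g2 a ▸ hc)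
    (((E.hMul F).restrict _ _).pow_card_sub_one hH) (by rw [← map_pow, StSys.x_pow_char p, map_one])
    (Nat.card_units F ▸ coprime_card_units p) fun L _ a1 a2 a3 =>
      H L a1 (fun i => g2 i ▸ (h2 L).1 ⟨a2, a3⟩ _) fun i => g3 i ▸ (h2 L).1 ⟨a2, a3⟩ _
  let φ := Subgroup.subgroupOfEquivOfLe hT
  exact ⟨φ a, φ b, by simpa [MonoidHom.map_closure, Set.image_pair] using congrArg (Subgroup.map φ.toMonoidHom) e'⟩

theorem two_gen_twE6 {K : Type*} [Field K] [Fintype K] {q : ℕ} (hq : IsPrimePow q) (hK : Fintype.card K = q ^ 2) :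
    ∃ a b : twistedE6 K q, Subgroup.closure {a, b} = ⊤ := by
  have hT := isTwE6 realE6 hq hK
  obtain ⟨A, θ, h1, hθ, e⟩ := hT.ex
  obtain ⟨q, rfl⟩ := Nat.exists_eq_succ_of_ne_zero hq.ne_zero
  obtain ⟨ζ, hζ⟩ := IsCyclic.exists_generator (α := Kˣ)
  have p := fun i => congrFun (congrArg DFunLike.coe h1.π_eq) i
  exact realE6.two_gen_fold realF4 (tabE6.exists_fold tabF4 realE6 realF4 foldCheckF4 (Aux.bsign_sign _) orbE6
    (by decide +kernel) K (realF4.injective_torus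
      (Cfsg.Agent.S1035.result Nat.card_eq_fintype_card.symm (chevF4, 1) (by simp)))) (a := (3 : Fin 4))
    (fun p _ _ => (Fin.ext (tabF4.simple realF4 (3 : Fin 4)) : _ = ⟨24, by decide⟩) ▸ gen2_F4 p realF4) hT.le e
    (StSys.e6_one_mem (R := realE6.R) _) (h1.twData.h_mem_pair h1.faithful (k := 2) rfl (h1.ca 2 4) (p 2) (p 4) (t := ζ)
      (t' := θ ζ) (by rw [h1.φ_eq]) (by rw [h1.φ_eq, h1.sq]))
    (mul_mem (StSys.h_mem_H _ _ ζ.ne_zero) (StSys.h_mem_H _ _ (by simp)))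
    (((StSys.commute_h_x _ (h1.ca 2 1) _ _).mul_left (StSys.commute_h_x _ (h1.ca 4 1) _ _)).mul_right (.one_right _))
    fun L => StSys.e6_le hθ (by have := hT.one_lt; omega) hζ h1.ca h1.hMul hT.card

theorem two_gen_twD4 {K : Type*} [Field K] [Fintype K] {q : ℕ} (hq : IsPrimePow q) (hK : Fintype.card K = q ^ 3) :
    ∃ a b : twistedD4 K q, Subgroup.closure {a, b} = ⊤ := by
  have hT := isTwD4 realD4 hq hK
  obtain ⟨A, θ, h1, hθ, e⟩ := hT.ex
  obtain ⟨q, rfl⟩ := Nat.exists_eq_succ_of_ne_zero hq.ne_zero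
  obtain ⟨ζ, hζ⟩ := IsCyclic.exists_generator (α := Kˣ)
  have p := fun i => congrFun (congrArg DFunLike.coe h1.π_eq) i
  exact realD4.two_gen_fold realG2 (tabD4.exists_fold tabG2 realD4 realG2 foldCheckG2 (Aux.bsign_sign _) orbD4
    (by decide +kernel) K (realG2.injective_torus
      (Cfsg.Agent.S1035.result Nat.card_eq_fintype_card.symm (chevG2, 1) (by simp)))) (a := (1 : Fin 2))
    (fun p _ _ => (Fin.ext (tabG2.simple realG2 (1 : Fin 2)) : _ = ⟨6, by decide⟩) ▸ gen2_G2 p realG2) hT.le e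
    (StSys.d4_one_mem (R := realD4.R) _) (mul_mem (h1.twData.h_mem_triple h1.faithful (k := 1) rfl (h1.ca 0 2) (h1.ca 0 3)
      (h1.ca 2 3) (p 0) (p 2) (p 3) (t := ζ ^ 2) (t' := θ ζ ^ 2) (t'' := θ (θ ζ) ^ 2) (by rw [h1.φ_eq, map_pow])
      (by rw [h1.φ_eq, map_pow]) (by rw [h1.φ_eq, map_pow, h1.cube])) (h1.twData.h_mem_single h1.faithful (k := 0) rfl (p 1)
        (t := ζ * θ ζ * θ (θ ζ)) (by simp only [h1.φ_eq, map_mul, h1.cube]; ring)))
    (by refine mul_mem (mul_mem (mul_mem ?_ ?_) ?_) ?_ <;> exact StSys.h_mem_H _ _ (by simp))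
    ((StSys.d4_commute _ h1.ca ζ.ne_zero (by simp) (by simp)).mul_right (.one_right _))
    fun L => StSys.d4_le hθ (by have := hT.one_lt; omega) hζ h1.cartan h1.hMul hT.card

end CL.Chev
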