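/-
The dimension of the centre of the Hecke algebra of a finite group with the exchange condition does not depend on the
(real) parameters: it is the number of conjugacy classes of the group.
-/
import Cfsg.Agent.Chev.Words
import Cfsg.Agent.Char.Orth2

set_option autoImplicit false

namespace CL.Chev.HD

open Matrix
open scoped ComplexOrder

variable {W I : Type*} [Group W] {s : I → W}

theorem fold (h : InvGen s) (hE : Exchange s) {i j : I} {x : W} (h1 : wlen s x < wlen s (s i * x))
    (h2 : wlen s (s i * (x * s j)) < wlen s (x * s j)) : s i * x = x * s j := by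
  have e1 := h.wlen_le_mul_gen j (s i * x)
  rw [mul_assoc] at e1
  rcases hE.wlen_mul_gen h j x with e | e
  · obtain ⟨l, hl, rfl⟩ := h.exists_isRed x
    have hr : IsRed s (l ++ [j]) := by
      rw [IsRed, wprod_append, wprod_singleton, e, hl]; simp
    obtain ⟨l₁, a, l₂, e2, e3⟩ := hE i _ hr (by
      rw [← hr, wprod_append, wprod_singleton]; exact h2.le)
    rcases List.eq_nil_or_concat l₂ with rfl | ⟨l₃, b, rfl⟩
    · obtain ⟨rfl, e4⟩ := List.append_inj' e2 rfl
      obtain rfl : j = a := by simpa using e4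
      exact e3
    · have e4 : l ++ [j] = (l₁ ++ a :: l₃) ++ [b] := by simpa using e2
      obtain ⟨rfl, -⟩ := List.append_inj' e4 rfl
      rw [exchange_prod h e3, hl] at h1
      have := wlen_wprod_le s (l₁ ++ l₃)
      simp only [List.length_append, List.length_cons] at this h1
      omega
  · omega

/-- Parameters of a Hecke algebra in the normalisation `T_s ^ 2 = 1 + a_s T_s`. -/
structure Par (s : I → W) (a : I → ℝ) : Prop where
  inv : InvGen s
  exch : Exchange s
  compat : ∀ i j w, s i * w = w * s j → a i = a j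

theorem Par.smul {a : I → ℝ} (h : Par s a) (t : ℝ) : Par s (fun i => t * a i) :=
  ⟨h.inv, h.exch, fun i j w e => by rw [h.compat i j w e]⟩

/-- The correction term in `T_s T_w`. -/
noncomputable def dn (s : I → W) (a : I → ℝ) (i : I) (w : W) : ℂ :=
  if wlen s (s i * w) < wlen s w then (a i : ℂ) else 0

theorem dn_up {a : I → ℝ} {i : I} {w : W} (h : wlen s w < wlen s (s i * w)) : dn s a i w = 0 :=
  if_neg (by omega)

/-- A reduced word for `w`. -/
noncomputable def red (s : I → W) (w : W) : List I := Classical.epsilon fun l => IsRed s l ∧ wprod s l = w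

theorem red_spec (h : InvGen s) (w : W) : IsRed s (red s w) ∧ wprod s (red s w) = w :=
  Classical.epsilon_spec (h.exists_isRed w)

/-- The centre of the Hecke algebra, in the coordinates of the standard basis. -/
def centre (s : I → W) (a : I → ℝ) : Submodule ℂ (W → ℂ) where
  carrier := {v | ∀ i x, v (s i * x) + dn s a i x * v x = v (x * s i) + dn s a i x⁻¹ * v x}
  add_mem' := fun {v v'} hv hv' i x => by
    simp only [Pi.add_apply]; linear_combination hv i x + hv' i x
  zero_mem' := fun i x => by simp
  smul_mem' := fun c v hv i x => by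
    simp only [Pi.smul_apply, smul_eq_mul]; linear_combination c * hv i x

variable [Fintype W] [DecidableEq W]

/-- Left multiplication by `T_s`. -/
noncomputable def Lam (s : I → W) (a : I → ℝ) (i : I) : Matrix W W ℂ :=
  Matrix.of fun x y => (if s i * x = y then 1 else 0) + (if x = y then dn s a i x else 0)

/-- Conjugation by the inversion of the group. -/
noncomputable def J (W : Type*) [Group W] [Fintype W] [DecidableEq W] : Matrix W W ℂ ≃ₐ[ℂ] Matrix W W ℂ :=
  Matrix.reindexAlgEquiv ℂ ℂ (Equiv.inv W)

theorem J_apply (M : Matrix W W ℂ) (x y : W) : J W M x y = M x⁻¹ y⁻¹ := rfl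

theorem J_J (M : Matrix W W ℂ) : J W (J W M) = M := by
  ext x y; simp [J_apply]

/-- Right multiplication by `T_s`. -/
noncomputable def Rho (s : I → W) (a : I → ℝ) (i : I) : Matrix W W ℂ := J W (Lam s a i)

/-- Left multiplication by `T_w`. -/
noncomputable def L (s : I → W) (a : I → ℝ) (w : W) : Matrix W W ℂ := ((red s w).map (Lam s a)).prod

variable {a : I → ℝ}

theorem lam_mulVec (i : I) (v : W → ℂ) (x : W) : (Lam s a i *ᵥ v) x = v (s i * x) + dn s a i x * v x := by
  simp [Lam, mulVec, dotProduct, add_mul, Finset.sum_add_distrib]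

theorem rho_mulVec (h : InvGen s) (i : I) (v : W → ℂ) (x : W) :
    (Rho s a i *ᵥ v) x = v (x * s i) + dn s a i x⁻¹ * v x := by
  have : ∀ y, s i * x⁻¹ = y⁻¹ ↔ x * s i = y := fun y => by
    rw [← _root_.inv_inj, _root_.mul_inv_rev, inv_inv, inv_inv, h.inv]
  simp [Rho, J_apply, Lam, mulVec, dotProduct, add_mul, Finset.sum_add_distrib, this]

theorem mem_centre (h : InvGen s) {v : W → ℂ} : v ∈ centre s a ↔ ∀ i, Lam s a i *ᵥ v = Rho s a i *ᵥ v := by
  simp only [funext_iff, lam_mulVec, rho_mulVec h]
  rfl

theorem lam_single (h : InvGen s) (i : I) (w : W) :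
    Lam s a i *ᵥ Pi.single w 1 = Pi.single (s i * w) 1 + dn s a i w • Pi.single w 1 := by
  ext x
  have : s i * x = w ↔ x = s i * w := by rw [← inv_mul_eq_iff_eq_mul, h.inv, eq_comm, eq_comm (a := w)]
  simp only [lam_mulVec, Pi.single_apply, Pi.add_apply, Pi.smul_apply, smul_eq_mul, this]
  congr 1
  split_ifs with h1 <;> simp [*]

theorem rho_single (h : InvGen s) (i : I) (w : W) :
    Rho s a i *ᵥ Pi.single w 1 = Pi.single (w * s i) 1 + dn s a i w⁻¹ • Pi.single w 1 := by
  ext x
  have : x * s i = w ↔ x = w * s i := by rw [← mul_inv_eq_iff_eq_mul, h.inv, eq_comm, eq_comm (a := w)]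
  simp only [rho_mulVec h, Pi.single_apply, Pi.add_apply, Pi.smul_apply, smul_eq_mul, this]
  congr 1
  split_ifs with h1 <;> simp [*]

omit [Fintype W] in
theorem lam_conjTranspose (h : InvGen s) (i : I) : (Lam s a i)ᴴ = Lam s a i := by
  ext x y
  have : s i * y = x ↔ s i * x = y := ⟨fun e => by rw [← e, h.cancel_left], fun e => by rw [← e, h.cancel_left]⟩
  simp only [conjTranspose_apply, Lam, of_apply, this, eq_comm (a := y), star_add, dn]
  congr 1
  · split_ifs <;> simp
  · by_cases e : x = y
    · subst e; split_ifs <;> simp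
    · simp [e]

namespace Par

variable (h : Par s a)
include h

theorem comm (i j : I) : Commute (Lam s a i) (Rho s a j) := by
  refine mulVec_injective (funext fun v => funext fun x => ?_)
  simp only [← mulVec_mulVec, lam_mulVec, rho_mulVec h.inv, mul_assoc]
  have e1 := h.exch.wlen_gen_mul h.inv i x
  have e2 := h.exch.wlen_mul_gen h.inv j x
  have e3 := h.exch.wlen_gen_mul h.inv i (x * s j)
  have e4 := h.exch.wlen_mul_gen h.inv j (s i * x)
  rw [mul_assoc] at e4
  simp only [dn, ← h.inv.wlen_mul_gen, h.inv.wlen_inv, mul_assoc]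
  by_cases e : s i * x = x * s j
  · have e5 : s i * (x * s j) = x := by rw [← e, h.inv.cancel_left]
    rw [e5, h.compat i j x e, e]
  · have f1 := mt (fun p : _ ∧ _ => fold h.inv h.exch (i := i) (j := j) (x := x) p.1 p.2) e
    have f2 := mt (fun p : _ ∧ _ => fold h.inv h.exch (i := i) (j := j) (x := x * s j) p.1 p.2) (by
      rw [h.inv.cancel_right, ← mul_assoc]
      exact fun e' => e (by rw [← e', h.inv.cancel_right, e']))
    rw [h.inv.cancel_right] at f2
    split_ifs <;> first | omega | ring

theorem uniq {M M' : Matrix W W ℂ} (hM : ∀ j, Commute M (Rho s a j)) (hM' : ∀ j, Commute M' (Rho s a j))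
    (e : M *ᵥ Pi.single 1 1 = M' *ᵥ Pi.single 1 1) : M = M' := by
  have key : ∀ w, M *ᵥ Pi.single w 1 = M' *ᵥ Pi.single w 1 := fun w => by
    induction w using h.inv.induction_right with
    | one => exact e
    | step j w hw ih =>
      have e1 := rho_single (a := a) h.inv j w
      rw [dn_up (by rwa [← h.inv.wlen_mul_gen, h.inv.wlen_inv]), zero_smul, add_zero] at e1
      rw [← e1, mulVec_mulVec, mulVec_mulVec, (hM j).eq, (hM' j).eq, ← mulVec_mulVec, ← mulVec_mulVec, ih]
  ext x y
  simpa using congrFun (key y) x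

theorem L_comm (w : W) (j : I) : Commute (L s a w) (Rho s a j) :=
  Commute.list_prod_left _ _ fun x hx => by
    obtain ⟨i, -, rfl⟩ := List.mem_map.1 hx
    exact h.comm i j

theorem L_single (w : W) : L s a w *ᵥ Pi.single 1 1 = Pi.single w 1 := by
  obtain ⟨h1, h2⟩ := red_spec h.inv w
  rw [L]
  conv_rhs => rw [← h2]
  generalize red s w = l at h1
  induction l with
  | nil => exact one_mulVec _
  | cons i l ih =>
    rw [List.map_cons, List.prod_cons, ← mulVec_mulVec, ih (h.inv.isRed_tail h1), lam_single h.inv,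
      dn_up h1.lt_cons, zero_smul, add_zero, wprod_cons]

theorem L_one : L s a 1 = 1 := h.uniq (h.L_comm 1) (fun _ => Commute.one_left _) (by rw [h.L_single, one_mulVec])

theorem lam_mul_L (i : I) (w : W) : Lam s a i * L s a w = L s a (s i * w) + dn s a i w • L s a w :=
  h.uniq (fun j => (h.comm i j).mul_left (h.L_comm w j))
    (fun j => (h.L_comm _ j).add_left ((h.L_comm w j).smul_left _)) (by
      rw [← mulVec_mulVec, add_mulVec, smul_mulVec, h.L_single, h.L_single, lam_single h.inv])

theorem L_mul_lam (i : I) (w : W) : L s a w * Lam s a i = L s a (w * s i) + dn s a i w⁻¹ • L s a w :=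
  h.uniq (fun j => (h.L_comm w j).mul_left (h.comm i j))
    (fun j => (h.L_comm _ j).add_left ((h.L_comm w j).smul_left _)) (by
      have e : Lam s a i *ᵥ Pi.single 1 1 = Rho s a i *ᵥ Pi.single 1 1 := by
        rw [lam_single h.inv, rho_single h.inv, inv_one, mul_one, one_mul]
      rw [← mulVec_mulVec, e, mulVec_mulVec, (h.L_comm w i).eq, ← mulVec_mulVec, add_mulVec, smul_mulVec,
        h.L_single, h.L_single, rho_single h.inv])

theorem L_conjTranspose (w : W) : (L s a w)ᴴ = L s a w⁻¹ := by
  induction w using h.inv.induction_left with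
  | one => rw [inv_one, h.L_one, conjTranspose_one]
  | step i w hw ih =>
    have e1 := h.lam_mul_L i w
    have e2 := h.L_mul_lam i w⁻¹
    rw [inv_inv] at e2
    rw [dn_up hw, zero_smul, add_zero] at e1 e2
    rw [← e1, conjTranspose_mul, ih, lam_conjTranspose h.inv, e2, _root_.mul_inv_rev, h.inv.inv]

end Par

/-- The Casimir element. -/
noncomputable def Zc (s : I → W) (a : I → ℝ) : Matrix W W ℂ := ∑ w, L s a w * L s a w⁻¹

/-- The Higman map. -/
noncomputable def Hg (s : I → W) (a : I → ℝ) : Matrix W W ℂ := ∑ w, L s a w * J W (L s a w)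

namespace Par

variable (h : Par s a)
include h

theorem Zc_det : (Zc s a).det ≠ 0 := by
  have : (Zc s a).PosDef := by
    rw [Zc, ← Finset.add_sum_erase _ _ (Finset.mem_univ 1), inv_one, h.L_one, one_mul]
    exact PosDef.one.add_posSemidef (posSemidef_sum _ fun w _ =>
      h.L_conjTranspose w ▸ posSemidef_self_mul_conjTranspose _)
  exact ((isUnit_iff_isUnit_det _).1 this.isUnit).ne_zero

theorem Zc_rho (j : I) : Commute (Zc s a) (Rho s a j) :=
  Commute.sum_left _ _ _ fun w _ => (h.L_comm w j).mul_left (h.L_comm _ j)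

theorem Zc_lam (i : I) : Commute (Zc s a) (Lam s a i) := by
  rw [Commute, SemiconjBy, Zc, Finset.sum_mul, Finset.mul_sum]
  simp only [mul_assoc, h.L_mul_lam, inv_inv]
  simp only [← mul_assoc, h.lam_mul_L, mul_add, add_mul, Finset.sum_add_distrib, mul_smul_comm, smul_mul_assoc]
  congr 1
  rw [← Equiv.sum_comp (Equiv.mulLeft (s i))]
  simp [h.inv.inv, h.inv.cancel_right]

theorem Hg_spec (i : I) : Lam s a i * Hg s a = Rho s a i * Hg s a := by
  rw [Hg, Finset.mul_sum, Finset.mul_sum]
  have e : ∀ w, Rho s a i * (L s a w * J W (L s a w)) =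
      L s a w * (J W (L s a (s i * w)) + dn s a i w • J W (L s a w)) := fun w => by
    rw [← mul_assoc, ← (h.L_comm w i).eq, mul_assoc, Rho, ← map_mul, h.lam_mul_L, map_add, map_smul]
  simp only [e]
  simp only [← mul_assoc, h.lam_mul_L, mul_add, add_mul, Finset.sum_add_distrib, mul_smul_comm, smul_mul_assoc]
  congr 1
  rw [← Equiv.sum_comp (Equiv.mulLeft (s i))]
  simp [h.inv.cancel_left]

theorem JL_centre {v : W → ℂ} (hv : v ∈ centre s a) (w : W) : J W (L s a w) *ᵥ v = L s a w⁻¹ *ᵥ v := by
  rw [mem_centre h.inv] at hv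
  induction w using h.inv.induction_left with
  | one => rw [inv_one, h.L_one, map_one]
  | step i w hw ih =>
    have e1 := h.lam_mul_L i w
    have e2 := h.L_mul_lam i w⁻¹
    rw [inv_inv] at e2
    rw [dn_up hw, zero_smul, add_zero] at e1 e2
    rw [← e1, map_mul, ← mulVec_mulVec, ih, _root_.mul_inv_rev, h.inv.inv, ← e2, ← mulVec_mulVec, hv, mulVec_mulVec,
      mulVec_mulVec, (h.L_comm _ i).eq, Rho]

theorem trace_eq : ((Zc s a)⁻¹ * Hg s a).trace = Module.finrank ℂ (centre s a) := by
  have hu : IsUnit (Zc s a).det := h.Zc_det.isUnit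
  have hc : ∀ M : Matrix W W ℂ, Commute (Zc s a) M → M * (Zc s a)⁻¹ = (Zc s a)⁻¹ * M := fun M hM => by
    rw [← nonsing_inv_mul_cancel_left _ (M * _) hu, ← mul_assoc (Zc s a), hM.eq, mul_nonsing_inv_cancel_right _ _ hu]
  have hp : LinearMap.IsProj (centre s a) (toLin' ((Zc s a)⁻¹ * Hg s a)) := by
    refine ⟨fun v => (mem_centre h.inv).2 fun i => ?_, fun v hv => ?_⟩
    · rw [toLin'_apply, mulVec_mulVec, mulVec_mulVec, ← mul_assoc, ← mul_assoc, hc _ (h.Zc_lam i), hc _ (h.Zc_rho i),
        mul_assoc, mul_assoc, h.Hg_spec]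
    · have e : Hg s a *ᵥ v = Zc s a *ᵥ v := by
        simp only [Hg, Zc, sum_mulVec, ← mulVec_mulVec, h.JL_centre hv]
      rw [toLin'_apply, ← mulVec_mulVec, e, mulVec_mulVec, nonsing_inv_mul _ hu, one_mulVec]
  rw [← hp.trace, trace_toLin'_eq]

omit h in
theorem continuous_L (w : W) : Continuous fun t : ℝ => L s (fun i => t * a i) w := by
  simp only [L]
  generalize red s w = l
  induction l with
  | nil => simpa using continuous_const
  | cons i l ih =>
    simp only [List.map_cons, List.prod_cons]
    refine Continuous.matrix_mul (continuous_matrix fun x y => ?_) ih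
    simp only [Lam, of_apply, dn]
    split_ifs <;> fun_prop

theorem finrank_centre : Module.finrank ℂ (centre s a) = Nat.card (ConjClasses W) := by
  have cZ : Continuous fun t : ℝ => Zc s (fun i => t * a i) :=
    continuous_finsetSum _ fun w _ => (continuous_L w).matrix_mul (continuous_L _)
  have cH : Continuous fun t : ℝ => Hg s (fun i => t * a i) :=
    continuous_finsetSum _ fun w _ => (continuous_L w).matrix_mul (continuous_matrix fun x y =>
      (continuous_L w).matrix_elem x⁻¹ y⁻¹)
  have c1 : Continuous fun t : ℝ => ((Module.finrank ℂ (centre s fun i => t * a i) : ℕ) : ℂ) := by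
    simp only [← (h.smul _).trace_eq, Matrix.inv_def, Ring.inverse_eq_inv']
    exact (((cZ.matrix_det.inv₀ fun t => (h.smul t).Zc_det).smul cZ.matrix_adjugate).matrix_mul cH).matrix_trace
  have c2 : Continuous fun t : ℝ => Module.finrank ℂ (centre s fun i => t * a i) :=
    (Nat.isClosedEmbedding_coe_real.isInducing.continuous_iff).2 (by
      simpa [Function.comp_def] using Complex.continuous_re.comp c1)
  have e := (IsLocallyConstant.iff_continuous _).2 c2 |>.apply_eq_of_preconnectedSpace 1 0
  have e0 : centre s (fun i => 0 * a i) = CL.Char.classFunctions W := by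
    ext v
    rw [CL.Char.mem_classFunctions]
    have e1 : v ∈ centre s (fun i => 0 * a i) ↔ ∀ i x, v (s i * x) = v (x * s i) := by
      simp [centre, dn]
    rw [e1]
    refine ⟨fun hv g x => ?_, fun hv i x => ?_⟩
    · obtain ⟨l, rfl⟩ := h.inv.gen x
      induction l with
      | nil => simp
      | cons i l ih =>
        rw [wprod_cons, _root_.mul_inv_rev, h.inv.inv, ← ih, mul_assoc (s i), mul_assoc (s i), hv, ← mul_assoc,
          h.inv.cancel_right]
    · rw [← hv _ (s i), ← mul_assoc, h.inv.sq, one_mul, h.inv.inv]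
  rw [← CL.Char.finrank_classFunctions, ← e0, ← e, show (fun i => 1 * a i) = a from funext fun i => one_mul _]

end Par

end CL.Chev.HD
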