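/-
The number of irreducible constituents of the permutation character on the cosets of `B` in a finite group with a
(B,N)-pair is the number of conjugacy classes of the Weyl group.
-/
import Cfsg.Agent.Chev.HkDef
import Cfsg.Agent.Chev.FHHecke
import Cfsg.Agent.Char.Constituent
import Cfsg.Agent.Known.StChar

set_option autoImplicit false

namespace CL.Chev.HD

open Cfsg BN CL.Char Matrix

section Conv

variable {G : Type*} [Group G]

/-- The matrix of convolution with a function. -/
def cv : (G → ℂ) →ₗ[ℂ] Matrix G G ℂ where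
  toFun f := Matrix.of fun x y => f (x⁻¹ * y)
  map_add' _ _ := rfl
  map_smul' _ _ := rfl

theorem cv_apply (f : G → ℂ) (x y : G) : cv f x y = f (x⁻¹ * y) := rfl

theorem cv_injective : Function.Injective (cv : (G → ℂ) → Matrix G G ℂ) := fun f h e => funext fun z => by
  simpa [cv_apply] using congrFun (congrFun e 1) z

variable [Fintype G]

theorem cv_mul (f h : G → ℂ) : cv f * cv h = cv fun z => ∑ g, f g * h (g⁻¹ * z) := by
  ext x y
  rw [Matrix.mul_apply, ← Equiv.sum_comp (Equiv.mulLeft x)]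
  simp [cv_apply, mul_assoc]

theorem trace_cv (f : G → ℂ) : (cv f).trace = Nat.card G * f 1 := by
  simp [Matrix.trace, cv_apply]

theorem cv_comm {φ : G → ℂ} (hφ : IsClassFunction G φ) (f : G → ℂ) : Commute (cv φ) (cv f) := by
  rw [Commute, SemiconjBy, cv_mul, cv_mul]
  refine congrArg cv (funext fun z => ?_)
  rw [← Equiv.sum_comp ((Equiv.inv G).trans (Equiv.mulLeft z))]
  refine Finset.sum_congr rfl fun g _ => ?_
  simp [hφ.mul_comm z, mul_comm (f g)]

/-- The scalar by which convolution with a class function acts on an irreducible character. -/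
noncomputable def lam (φ χ : G → ℂ) : ℂ := (∑ g, φ g⁻¹ * χ g) / χ 1

theorem cv_mul_irr {φ χ : G → ℂ} (hφ : IsClassFunction G φ) (hχ : IsIrrCharacter G χ) :
    cv φ * cv χ = lam φ χ • cv χ := by
  rw [cv_mul, ← map_smul]
  refine congrArg cv (funext fun z => ?_)
  have := hχ.sum_mul_apply_mul (φ := fun g => φ g⁻¹) (fun g x => by
    simpa [mul_assoc] using hφ g⁻¹ x) z
  rw [← Equiv.sum_comp (Equiv.inv G)]
  simp only [Equiv.inv_apply, inv_inv, this, lam, Pi.smul_apply, smul_eq_mul]
  ring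

theorem lam_irr {ψ χ : G → ℂ} (hψ : IsIrrCharacter G ψ) (hχ : IsIrrCharacter G χ) :
    lam ψ χ = Nat.card G * classInner χ ψ / χ 1 := by
  have := hχ.sum_apply_inv_mul_apply_mul hψ.isCharacter 1
  simp only [mul_one] at this
  rw [lam, this, mul_div_cancel_right₀ _ hχ.one_ne_zero]

/-- The sum of the conjugates of a function. -/
noncomputable def K (f : G → ℂ) : G → ℂ := fun z => ∑ g, f (g⁻¹ * z * g)

theorem isClassFunction_K (f : G → ℂ) : IsClassFunction G (K f) := fun z x => by
  rw [K, K, ← Equiv.sum_comp (Equiv.mulLeft x)]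
  simp [mul_assoc]

theorem lam_K (f : G → ℂ) {χ : G → ℂ} (hχ : IsClassFunction G χ) : lam (K f) χ = Nat.card G * lam f χ := by
  have : ∀ g, ∑ z, f (g⁻¹ * z⁻¹ * g) * χ z = ∑ z, f z⁻¹ * χ z := fun g => by
    rw [← Equiv.sum_comp (MulAut.conj g).toEquiv]
    refine Finset.sum_congr rfl fun z _ => ?_
    simp [mul_assoc, ← hχ z g]
  simp only [lam, K, Finset.sum_mul]
  rw [Finset.sum_comm]
  simp [this, mul_div_assoc]

variable [DecidableEq G]

theorem single_mul_cv (g : G) (f : G → ℂ) : cv (Pi.single g 1) * cv f = cv fun z => f (g⁻¹ * z) := by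
  rw [cv_mul]
  refine congrArg cv (funext fun z => ?_)
  simp [Pi.single_apply]

theorem cv_mul_single (g : G) (f : G → ℂ) : cv f * cv (Pi.single g 1) = cv fun z => f (z * g⁻¹) := by
  rw [cv_mul]
  refine congrArg cv (funext fun z => ?_)
  have : ∀ x, x⁻¹ * z = g ↔ x = z * g⁻¹ := fun x => by
    rw [inv_mul_eq_iff_eq_mul, eq_mul_inv_iff_mul_eq, eq_comm]
  simp [Pi.single_apply, this]

theorem cv_K (f : G → ℂ) : cv (K f) = ∑ g, cv (Pi.single g 1) * cv f * cv (Pi.single g⁻¹ 1) := by
  simp only [single_mul_cv, cv_mul_single, inv_inv, ← map_sum]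
  refine congrArg cv (funext fun z => ?_)
  simp [K, mul_assoc]

theorem sum_cv_irr : ∑ χ : IrrCharacter G, ((χ : G → ℂ) 1 / Nat.card G) • cv (χ : G → ℂ) = 1 := by
  have e : cv (regChar G) = (Nat.card G : ℂ) • (1 : Matrix G G ℂ) := by
    ext x y
    simp [cv_apply, regChar, inv_mul_eq_one, one_apply]
  rw [regChar_eq_sum, map_sum] at e
  rw [← inv_smul_smul₀ (natCard_ne_zero (G := G)) (1 : Matrix G G ℂ), ← e, Finset.smul_sum]
  exact Finset.sum_congr rfl fun χ _ => by rw [map_smul, smul_smul, div_eq_inv_mul]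

variable {ε : G → ℂ} (he : cv ε * cv ε = cv ε)

omit [DecidableEq G] in
theorem trace_mul_irr {χ : G → ℂ} (hχ : IsIrrCharacter G χ) :
    (cv χ * cv ε).trace = Nat.card G * (χ 1 * lam ε χ) := by
  rw [cv_mul, trace_cv, lam, mul_div_cancel₀ _ hχ.one_ne_zero]
  simp [mul_comm]

include he

theorem mul_irr_eq_zero {χ : G → ℂ} (hχ : IsIrrCharacter G χ) (h : lam ε χ = 0) : cv χ * cv ε = 0 := by
  have hc := hχ.isCharacter.isClassFunction
  have h0 : lam χ χ ≠ 0 := by
    rw [lam_irr hχ hχ, hχ.classInner_self, mul_one]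
    exact div_ne_zero natCard_ne_zero hχ.one_ne_zero
  have : IsIdempotentElem (toLin' ((lam χ χ)⁻¹ • (cv χ * cv ε))) := by
    rw [IsIdempotentElem, Module.End.mul_eq_comp, ← toLin'_mul, smul_mul_smul_comm, mul_assoc, ← mul_assoc (cv ε),
      ← (cv_comm hc ε).eq, mul_assoc, he, ← mul_assoc, cv_mul_irr hc hχ, smul_mul_assoc, smul_smul,
      inv_mul_cancel_right₀ h0]
  have e := LinearMap.IsIdempotentElem.eq_zero_of_trace_eq_zero this (by
    rw [trace_toLin'_eq, trace_smul, trace_mul_irr hχ, h]; simp)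
  rw [map_eq_zero_iff _ toLin'.injective] at e
  exact (smul_eq_zero.1 e).resolve_left (inv_ne_zero h0)

omit he in
theorem linearIndependent_mul_irr (ε : G → ℂ) :
    LinearIndependent ℂ fun χ : {χ : IrrCharacter G // lam ε χ ≠ 0} => cv (χ.1 : G → ℂ) * cv ε := by
  classical
  refine Fintype.linearIndependent_iff.2 fun c hc ψ => ?_
  have e := congrArg (fun M => (cv (ψ.1 : G → ℂ) * M).trace) hc
  simp only [Finset.mul_sum, mul_smul_comm, ← mul_assoc, cv_mul_irr ψ.1.2.isCharacter.isClassFunction (Subtype.prop _),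
    lam_irr ψ.1.2 (Subtype.prop _), classInner_irr, Subtype.val_inj, smul_mul_assoc, mul_zero, trace_zero] at e
  rw [Finset.sum_eq_single ψ (fun χ _ h => by simp [h]) (by simp), trace_smul, trace_smul, trace_mul_irr ψ.1.2] at e
  simpa [ψ.2, ψ.1.2.one_ne_zero] using e

theorem mem_span_iff {ζ : G → ℂ} :
    cv ζ ∈ Submodule.span ℂ (Set.range fun χ : {χ : IrrCharacter G // lam ε χ ≠ 0} => cv (χ.1 : G → ℂ) * cv ε) ↔
      cv ε * cv ζ = cv ζ ∧ cv ζ * cv ε = cv ζ ∧ ∀ f, Commute (cv ζ) (cv ε * cv f * cv ε) := by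
  constructor
  · intro h
    generalize cv ζ = z at h
    induction h using Submodule.span_induction with
    | mem z hz =>
      obtain ⟨χ, rfl⟩ := hz
      have hc := χ.1.2.isCharacter.isClassFunction
      refine ⟨by rw [← mul_assoc, ← (cv_comm hc ε).eq, mul_assoc, he], by rw [mul_assoc, he], fun f => ?_⟩
      refine (((cv_comm hc ε).mul_right (cv_comm hc f)).mul_right (cv_comm hc ε)).mul_left ?_
      rw [Commute, SemiconjBy, ← mul_assoc, ← mul_assoc, he, mul_assoc (cv ε * cv f), he]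
    | zero => simp
    | add x y _ _ hx hy =>
      exact ⟨by rw [mul_add, hx.1, hy.1], by rw [add_mul, hx.2.1, hy.2.1], fun f => (hx.2.2 f).add_left (hy.2.2 f)⟩
    | smul c x _ hx =>
      exact ⟨by rw [mul_smul_comm, hx.1], by rw [smul_mul_assoc, hx.2.1], fun f => (hx.2.2 f).smul_left c⟩
  · rintro ⟨h1, h2, h3⟩
    have k : cv (K ζ) * cv ε = cv (K ε) * cv ζ := by
      calc cv (K ζ) * cv ε = cv ε * cv (K ζ) * cv ε := by
            rw [← (cv_comm (isClassFunction_K ζ) ε).eq, mul_assoc, he]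
        _ = ∑ g, (cv ε * cv (Pi.single g 1) * cv ε) * cv ζ * (cv (Pi.single g⁻¹ 1) * cv ε) := by
            simp only [cv_K, Finset.mul_sum, Finset.sum_mul, mul_assoc, h1]
        _ = cv ζ * (cv ε * cv (K ε) * cv ε) := by
            simp only [← (h3 _).eq]
            simp only [cv_K, Finset.mul_sum, Finset.sum_mul, mul_assoc]
        _ = cv (K ε) * cv ζ := by
            rw [← (cv_comm (isClassFunction_K ε) ε).eq, mul_assoc, he, ← mul_assoc,
              ← (cv_comm (isClassFunction_K ε) ζ).eq, mul_assoc, h2]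
    rw [← one_mul (cv ζ), ← sum_cv_irr, Finset.sum_mul]
    refine Submodule.sum_mem _ fun χ _ => ?_
    rw [smul_mul_assoc]
    refine Submodule.smul_mem _ _ ?_
    have hc := χ.2.isCharacter.isClassFunction
    by_cases h : lam ε χ = 0
    · rw [← h1, ← mul_assoc, mul_irr_eq_zero he χ.2 h, zero_mul]
      exact zero_mem _
    · have e := congrArg (cv (χ : G → ℂ) * ·) k
      simp only [← mul_assoc, (cv_comm hc _).eq, cv_mul_irr (isClassFunction_K _) χ.2, smul_mul_assoc] at e
      have h0 : lam (K ε) χ ≠ 0 := by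
        rw [lam_K _ hc]; exact mul_ne_zero natCard_ne_zero h
      rw [← inv_smul_smul₀ h0 (_ * _), (cv_comm hc _).eq, ← e, ← (cv_comm hc _).eq]
      exact Submodule.smul_mem _ _ (Submodule.smul_mem _ _ (Submodule.subset_span ⟨⟨χ, h⟩, rfl⟩))

end Conv

section BN

variable {G : Type*} [Group G] [Fintype G] {P : BNPair G}

variable (P) in
/-- The normalised standard basis of the Hecke algebra. -/
noncomputable def Tn (w : Weyl P) : Matrix G G ℂ := ((√(cellIdx P w) : ℝ) : ℂ)⁻¹ • FH.T P w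

variable (P) in
/-- The parameters of the Hecke algebra. -/
noncomputable def par (s : P.S) : ℝ := ((cellIdx P (gen P s) : ℝ) - 1) / √(cellIdx P (gen P s))

theorem sqrt_ne (w : Weyl P) : ((√(cellIdx P w) : ℝ) : ℂ) ≠ 0 :=
  Complex.ofReal_ne_zero.2 (Real.sqrt_pos.2 (Nat.cast_pos.2 (FH.cellIdx_pos w))).ne'

variable (P) in
theorem isPar : Par (gen P) (par P) := by
  have key : ∀ i j w, gen P i * w = w * gen P j → wlen (gen P) w < wlen (gen P) (gen P i * w) → par P i = par P j :=
    fun i j w e h => by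
      have h1 := cellIdx_gen_mul h
      have h2 := (invGen P).wlen_gen_mul_le i w
      rw [e, cellIdx_mul (by rw [(exchange P).wlen_gen (invGen P), ← e]; omega), mul_comm] at h1
      rw [par, par, Nat.eq_of_mul_eq_mul_right (FH.cellIdx_pos w) h1]
  refine ⟨invGen P, exchange P, fun i j w e => ?_⟩
  rcases (exchange P).lt_or_lt (invGen P) i w with h | h
  · exact key i j w e h
  · exact key i j (gen P i * w) (by rw [(invGen P).cancel_left, e, (invGen P).cancel_right])
      (by rwa [(invGen P).cancel_left])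

theorem Tn_mul {w w' : Weyl P} (h : wlen (gen P) (w * w') = wlen (gen P) w + wlen (gen P) w') :
    Tn P w * Tn P w' = Tn P (w * w') := by
  rw [Tn, Tn, Tn, smul_mul_smul_comm, FH.T_mul h, cellIdx_mul h, Nat.cast_mul, Real.sqrt_mul (Nat.cast_nonneg _),
    Complex.ofReal_mul, _root_.mul_inv]

theorem one_mul_Tn (w : Weyl P) : Tn P 1 * Tn P w = Tn P w := (Tn_mul (by simp)).trans (by simp)

theorem Tn_mul_one (w : Weyl P) : Tn P w * Tn P 1 = Tn P w := (Tn_mul (by simp)).trans (by simp)

theorem Tn_sq (s : P.S) : Tn P (gen P s) * Tn P (gen P s) = Tn P 1 + (par P s : ℂ) • Tn P (gen P s) := by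
  have h1 := sqrt_ne (gen P s)
  have h2 : ((√(cellIdx P (gen P s)) : ℝ) : ℂ) ^ 2 = cellIdx P (gen P s) := by
    rw [← Complex.ofReal_pow, Real.sq_sqrt (Nat.cast_nonneg _), Complex.ofReal_natCast]
  rw [Tn, Tn, smul_mul_smul_comm, FH.T_sq, cellIdx_one, par, smul_add, smul_smul, smul_smul, smul_smul, add_comm]
  push_cast
  congr 2
  · rw [← h2]; simp only [Real.sqrt_one, Complex.ofReal_one]; field_simp
  · field_simp

theorem gen_mul_Tn (i : P.S) (w : Weyl P) :
    Tn P (gen P i) * Tn P w = Tn P (gen P i * w) + dn (gen P) (par P) i w • Tn P w := by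
  have key : ∀ w, wlen (gen P) w < wlen (gen P) (gen P i * w) → Tn P (gen P i) * Tn P w = Tn P (gen P i * w) :=
    fun w h => Tn_mul (by
      have := (invGen P).wlen_gen_mul_le i w
      rw [(exchange P).wlen_gen (invGen P)]; omega)
  rcases (exchange P).lt_or_lt (invGen P) i w with h | h
  · rw [key w h, dn_up h, zero_smul, add_zero]
  · have e := key (gen P i * w) (by rwa [(invGen P).cancel_left])
    rw [(invGen P).cancel_left] at e
    rw [dn, if_pos h]
    conv_lhs => rw [← e, ← mul_assoc, Tn_sq, add_mul, smul_mul_assoc, e, one_mul_Tn]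

theorem Tn_mul_gen (i : P.S) (w : Weyl P) :
    Tn P w * Tn P (gen P i) = Tn P (w * gen P i) + dn (gen P) (par P) i w⁻¹ • Tn P w := by
  have key : ∀ w, wlen (gen P) w < wlen (gen P) (w * gen P i) → Tn P w * Tn P (gen P i) = Tn P (w * gen P i) :=
    fun w h => Tn_mul (by
      have := (invGen P).wlen_mul_gen_le i w
      rw [(exchange P).wlen_gen (invGen P)]; omega)
  rw [dn, ← (invGen P).wlen_mul_gen, (invGen P).wlen_inv]
  split_ifs with h
  · have e := key (w * gen P i) (by rwa [(invGen P).cancel_right])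
    rw [(invGen P).cancel_right] at e
    conv_lhs => rw [← e, mul_assoc, Tn_sq, mul_add, mul_smul_comm, e, Tn_mul_one]
  · have := (exchange P).wlen_mul_gen (invGen P) i w
    rw [key w (by omega), zero_smul, add_zero]

open Classical in
theorem Tn_eq (w : Weyl P) : Tn P w =
    cv fun g => if g ∈ cell P w then ((√(cellIdx P w) : ℝ) : ℂ)⁻¹ * (Nat.card P.B : ℂ)⁻¹ else 0 := by
  ext x y
  simp [Tn, FH.T, FH.ind, cv_apply]

variable [Fintype (Weyl P)]

variable (P) in
/-- The element of the Hecke algebra with given coordinates. -/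
noncomputable def toH : (Weyl P → ℂ) →ₗ[ℂ] Matrix G G ℂ := Fintype.linearCombination ℂ (Tn P)

omit [Fintype G] in
theorem toH_apply (v : Weyl P → ℂ) : toH P v = ∑ w, v w • Tn P w := rfl

theorem toH_entry (v : Weyl P → ℂ) {w : Weyl P} {x y : G} (h : x⁻¹ * y ∈ cell P w) :
    toH P v x y = v w * (((√(cellIdx P w) : ℝ) : ℂ)⁻¹ * (Nat.card P.B : ℂ)⁻¹) := by
  rw [toH_apply, Matrix.sum_apply, Finset.sum_eq_single w (fun w' _ hw => by
    simp [Tn_eq, cv_apply, mt (fun h' => eq_of_mem_cell h' h) hw]) (by simp)]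
  simp [Tn_eq, cv_apply, h]

theorem toH_injective : Function.Injective (toH P) := fun v v' e => funext fun w => by
  have h : (1 : G)⁻¹ * St.rep w ∈ cell P w := by simpa using St.rep_mem_cell w
  have := toH_entry v h
  rw [e, toH_entry v' h] at this
  exact (mul_right_cancel₀ (mul_ne_zero (inv_ne_zero (sqrt_ne w)) (inv_ne_zero FH.card_B_ne)) this).symm

theorem exists_toH_eq_cv (v : Weyl P → ℂ) : ∃ f, toH P v = cv f := by
  simp only [toH_apply, Tn_eq, ← map_smul, ← map_sum]
  exact ⟨_, rfl⟩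

theorem one_mul_toH (v : Weyl P → ℂ) : Tn P 1 * toH P v = toH P v := by
  simp only [toH_apply, Finset.mul_sum, mul_smul_comm, one_mul_Tn]

theorem toH_mul_one (v : Weyl P → ℂ) : toH P v * Tn P 1 = toH P v := by
  simp only [toH_apply, Finset.sum_mul, smul_mul_assoc, Tn_mul_one]

theorem exists_toH {f : G → ℂ} (h1 : Tn P 1 * cv f = cv f) (h2 : cv f * Tn P 1 = cv f) : ∃ v, toH P v = cv f := by
  classical
  have k1 : ∀ b ∈ P.B, ∀ z, f (b * z) = f z := fun b hb z => by
    have e : cv (Pi.single b⁻¹ 1) * Tn P 1 = Tn P 1 := by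
      rw [Tn_eq, single_mul_cv]
      simp only [mem_cell_one, inv_inv, P.B.mul_mem_cancel_left hb]
    have : cv (Pi.single b⁻¹ 1) * (Tn P 1 * cv f) = _ := congrArg (cv (Pi.single b⁻¹ 1) * ·) h1
    rw [← mul_assoc, e, h1, single_mul_cv, inv_inv] at this
    exact (congrFun (cv_injective this) z).symm
  have k2 : ∀ b ∈ P.B, ∀ z, f (z * b) = f z := fun b hb z => by
    have e : Tn P 1 * cv (Pi.single b⁻¹ 1) = Tn P 1 := by
      rw [Tn_eq, cv_mul_single]
      simp only [mem_cell_one, inv_inv, P.B.mul_mem_cancel_right hb]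
    have : cv f * Tn P 1 * cv (Pi.single b⁻¹ 1) = _ := congrArg (· * cv (Pi.single b⁻¹ 1)) h2
    rw [mul_assoc, e, h2, cv_mul_single, inv_inv] at this
    exact (congrFun (cv_injective this) z).symm
  refine ⟨fun w => f (St.rep w) * (((√(cellIdx P w) : ℝ) : ℂ) * Nat.card P.B), ?_⟩
  ext x y
  obtain ⟨w, hw⟩ := exists_mem_cell P (x⁻¹ * y)
  obtain ⟨b, hb, b', hb', e⟩ := exists_eq_of_mem_cell (St.rep_mem_cell w) hw
  rw [toH_entry _ hw, cv_apply, e, k2 _ hb', k1 _ hb]
  field_simp [sqrt_ne w, FH.card_B_ne (P := P)]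

variable [DecidableEq (Weyl P)]

omit [Fintype G] in
theorem toH_single (w : Weyl P) : toH P (Pi.single w 1) = Tn P w := by
  simp [toH]

theorem gen_mul_toH (i : P.S) (v : Weyl P → ℂ) : Tn P (gen P i) * toH P v = toH P (Lam (gen P) (par P) i *ᵥ v) := by
  conv_rhs => rw [pi_eq_sum_univ' v]
  simp only [toH_apply v, Finset.mul_sum, mul_smul_comm, mulVec_sum, mulVec_smul, map_sum, map_smul,
    lam_single (invGen P), map_add, toH_single, gen_mul_Tn]

theorem toH_mul_gen (i : P.S) (v : Weyl P → ℂ) : toH P v * Tn P (gen P i) = toH P (Rho (gen P) (par P) i *ᵥ v) := by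
  conv_rhs => rw [pi_eq_sum_univ' v]
  simp only [toH_apply v, Finset.sum_mul, smul_mul_assoc, mulVec_sum, mulVec_smul, map_sum, map_smul,
    rho_single (invGen P), map_add, toH_single, Tn_mul_gen]

theorem mem_centre_iff {v : Weyl P → ℂ} : v ∈ centre (gen P) (par P) ↔ ∀ v', Commute (toH P v) (toH P v') := by
  rw [mem_centre (invGen P)]
  refine ⟨fun h v' => ?_, fun h i => toH_injective ?_⟩
  · rw [toH_apply v']
    refine Commute.sum_right _ _ _ fun w hw => Commute.smul_right ?_ _
    clear hw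
    induction w using (invGen P).induction_left with
    | one => exact (toH_mul_one v).trans (one_mul_toH v).symm
    | step i w hw ih =>
      have e := gen_mul_Tn i w
      rw [dn_up hw, zero_smul, add_zero] at e
      rw [← e]
      refine Commute.mul_right ?_ ih
      rw [Commute, SemiconjBy, gen_mul_toH, toH_mul_gen, h]
  · rw [← gen_mul_toH, ← toH_mul_gen, ← toH_single, (h _).eq]

end BN

/-- The number of irreducible constituents of `1_B^G` is the number of conjugacy classes of the Weyl group. -/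
theorem card_constituents {G : Type*} [Group G] [Finite G] (P : BNPair G) :
    Nat.card {χ : IrrCharacter G // ∃ φ : G → ℂ, IsCharacter G φ ∧ fixedPointCharacter P.B = (χ : G → ℂ) + φ} =
      Nat.card (ConjClasses (Weyl P)) := by
  classical
  have := Fintype.ofFinite G
  have := Fintype.ofFinite (Weyl P)
  obtain ⟨ε, hε, he⟩ : ∃ ε : G → ℂ, (ε = fun g => if g ∈ P.B then (Nat.card P.B : ℂ)⁻¹ else 0) ∧ Tn P 1 = cv ε :=
    ⟨_, rfl, by simp [Tn_eq, mem_cell_one, cellIdx_one]⟩
  have hee : cv ε * cv ε = cv ε := he ▸ one_mul_Tn 1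
  have e1 : ∀ χ : IrrCharacter G,
      (∃ φ : G → ℂ, IsCharacter G φ ∧ fixedPointCharacter P.B = (χ : G → ℂ) + φ) ↔ lam ε χ ≠ 0 := fun χ => by
    have e2 : lam ε χ = classInner (fixedPointCharacter P.B) χ / (χ : G → ℂ) 1 := by
      rw [(St.isCharacter_fpc _).classInner_comm χ.2.isCharacter, St.classInner_fpc_right _ χ.2.isClassFunction, lam,
        classInner_def, hε]
      congr 1
      simp only [inv_mem_iff, ite_mul, zero_mul, map_one, mul_one, ← Finset.sum_filter, ← Finset.mul_sum]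
      rw [Finset.sum_subtype (p := (· ∈ P.B)) _ (by simp)]
    rw [e2, div_ne_zero_iff, and_iff_left χ.2.one_ne_zero]
    refine ⟨?_, exists_char_eq_add_of_classInner_ne_zero (St.isCharacter_fpc _) χ.2⟩
    rintro ⟨φ, hφ, e⟩
    rw [e]
    exact classInner_ne_zero_of_add_left χ.2.isCharacter hφ χ.2.isCharacter (by simp [χ.2.classInner_self])
  rw [Nat.card_congr (Equiv.subtypeEquivRight e1), ← (isPar P).finrank_centre, Nat.card_eq_fintype_card,
    ← finrank_span_eq_card (linearIndependent_mul_irr ε), LinearEquiv.finrank_eq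
      (Submodule.equivMapOfInjective _ toH_injective _)]
  refine congrArg (fun U : Submodule ℂ (Matrix G G ℂ) => Module.finrank ℂ U) ?_
  ext z
  constructor
  · intro hz
    obtain ⟨ζ, rfl⟩ : z ∈ LinearMap.range cv := by
      refine Submodule.span_le.2 ?_ hz
      rintro _ ⟨χ, rfl⟩
      exact ⟨_, (cv_mul _ _).symm⟩
    obtain ⟨h1, h2, h3⟩ := (mem_span_iff hee).1 hz
    obtain ⟨v, hv⟩ := exists_toH (he ▸ h1) (he ▸ h2)
    refine ⟨v, mem_centre_iff.2 fun v' => ?_, hv⟩
    obtain ⟨f, hf⟩ := exists_toH_eq_cv v'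
    rw [hv, ← one_mul_toH v', ← toH_mul_one v', ← mul_assoc, he, hf]
    exact h3 f
  · rintro ⟨v, hv, rfl⟩
    obtain ⟨ζ, hζ⟩ := exists_toH_eq_cv v
    rw [hζ, mem_span_iff hee, ← hζ, ← he]
    refine ⟨one_mul_toH v, toH_mul_one v, fun f => ?_⟩
    obtain ⟨f', hf⟩ : ∃ f', Tn P 1 * cv f * Tn P 1 = cv f' := ⟨_, by rw [he, cv_mul, cv_mul]⟩
    obtain ⟨v', hv'⟩ := exists_toH (P := P) (f := f') (by rw [← hf, ← mul_assoc, ← mul_assoc, one_mul_Tn])
      (by rw [← hf, mul_assoc, one_mul_Tn])
    rw [hf, ← hv']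
    exact mem_centre_iff.1 hv v'

end CL.Chev.HD
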