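/-
Small Ree groups, part 8: the Schur multiplier is trivial.
-/
import Cfsg.Agent.Known.SzSchur
import Cfsg.Agent.Chev.ReeOrd

set_option autoImplicit false

namespace CL.Chev.Ree

open Subgroup CL.Schur
open scoped commutatorElement

section cm

variable {Γ G : Type*} [Group Γ] [Group G] {τ : Γ →* G} (hs : Function.Surjective τ) (hc : τ.ker ≤ center Γ)
include hc

theorem cm_one_right (g : G) : cm hs g 1 = 1 := by simpa using (commElt_eq_cm hs hc (lf hs g) 1).symm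

omit hc in
theorem cm_self (g : G) : cm hs g g = 1 := by simp [cm]

theorem cm_mul_self {g t : G} (h : g * t = t * g) (ht : t * t = 1) : cm hs (g * g) t = 1 := by
  rw [cm_mul_left' hs hc _ h, ← cm_mul_right' hs hc _ _ h, ht, cm_one_right hs hc]

omit hc in
theorem cm_symm {g h : G} (e : cm hs g h = 1) : cm hs h g = 1 := by
  rw [cm, ← commutatorElement_inv, inv_eq_one]; exact e

theorem comm_of_cm {x y : Γ} (e : cm hs (τ x) (τ y) = 1) : x * y = y * x := by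
  rwa [← commutatorElement_eq_one_iff_mul_comm, commElt_eq_cm hs hc]

/-- Averaging over a finite group acting on an abelian subgroup. -/
theorem exists_avg {ι : Type*} [Group ι] [Finite ι] (D : ι →* G) (Y : Subgroup Γ) (hY : ∀ x ∈ Y, ∀ y ∈ Y, x * y = y * x)
    (hn : ∀ c, ∀ y ∈ Y, lf hs (D c) * y * (lf hs (D c))⁻¹ ∈ Y) : ∃ π : Γ → Γ, (∀ x ∈ Y, ∀ y ∈ Y, π (x * y) = π x * π y) ∧
      (∀ c, ∀ y ∈ Y, π (lf hs (D c) * y * (lf hs (D c))⁻¹) = π y) ∧ (∀ z ∈ Y, z ∈ center Γ → π z = z ^ Nat.card ι) ∧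
      ∃ P : Subgroup Γ, ∀ y, y ∈ P ↔ y ∈ Y ∧ π y = 1 := by
  classical
  have := Fintype.ofFinite ι
  let : CommGroup Y := { (inferInstance : Group Y) with mul_comm := fun x y => Subtype.ext (hY _ x.2 _ y.2) }
  let φ : ι → (Y →* Y) := fun c => MonoidHom.mk' (fun y => ⟨_, hn c y y.2⟩) fun x y => Subtype.ext (conj_mul ..).symm
  have hφφ : ∀ c d y, φ c (φ d y) = φ (c * d) y := fun c d y => Subtype.ext (by
    have e := conj_of_center (hc (show lf hs (D c) * lf hs (D d) * (lf hs (D (c * d)))⁻¹ ∈ τ.ker by simp))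
    change lf hs (D c) * (lf hs (D d) * y * _) * _ = lf hs (D (c * d)) * y * _
    calc _ = (lf hs (D c) * lf hs (D d) * (lf hs (D (c * d)))⁻¹) * (lf hs (D (c * d)) * y * (lf hs (D (c * d)))⁻¹) *
          (lf hs (D c) * lf hs (D d) * (lf hs (D (c * d)))⁻¹)⁻¹ := by group
      _ = _ := by rw [← mul_inv_eq_iff_eq_mul.1 (e _), mul_inv_cancel_right])
  let π : Y →* Y := ∏ c, φ c
  have hπ : ∀ y, π y = ∏ c, φ c y := fun y => MonoidHom.finsetProd_apply _ _ _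
  refine ⟨fun y => if h : y ∈ Y then π ⟨y, h⟩ else 1, fun x hx y hy => ?_, fun d y hy => ?_, fun z hz h => ?_,
    π.ker.map Y.subtype, fun y => ⟨?_, fun ⟨hy, h⟩ => ⟨⟨y, hy⟩, Subtype.ext (by simpa [hy] using h), rfl⟩⟩⟩
  · simp only [hx, hy, mul_mem hx hy, dite_true]
    exact congrArg Subtype.val (map_mul π ⟨x, hx⟩ ⟨y, hy⟩)
  · simp only [hy, hn d y hy, dite_true]
    rw [hπ, hπ]
    exact congrArg Subtype.val (Fintype.prod_equiv (Equiv.mulRight d) _ _ fun c => hφφ c d ⟨y, hy⟩)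
  · simp only [hz, dite_true]
    rw [hπ, Finset.prod_congr rfl fun c _ => show φ c ⟨z, hz⟩ = ⟨z, hz⟩ from Subtype.ext (conj_of_center h _),
      Finset.prod_const, Finset.card_univ, Nat.card_eq_fintype_card]
    rfl
  · rintro ⟨y, hy, rfl⟩
    exact ⟨y.2, by simpa using hy⟩

end cm

namespace Tw

variable {F : Type*} [Field F] (S : Tw F) {y : F} (hy : y ^ 3 ≠ y)
include hy

omit S in
theorem ne_of_cube_ne : y ≠ 0 ∧ 1 + y ≠ 0 ∧ y - 1 ≠ 0 :=
  ⟨by rintro rfl; simp at hy, fun h => hy (by linear_combination (y ^ 2 - y) * h), fun h => hy (by linear_combination (y ^ 2 + y) * h)⟩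

include S in
theorem inv_not_add : (1 + y)⁻¹ ≠ 1⁻¹ + y⁻¹ := fun h => by
  obtain ⟨h0, h1, h2⟩ := ne_of_cube_ne hy
  field_simp at h
  exact h2 (pow_eq_zero_iff two_ne_zero |>.1 (by linear_combination -h - y * S.three))

theorem div_not_add : S.σ (1 + y) / (1 + y) ^ 2 ≠ S.σ 1 / 1 ^ 2 + S.σ y / y ^ 2 := fun h => by
  obtain ⟨h0, h1, h2⟩ := ne_of_cube_ne hy
  rw [map_add, map_one] at h
  field_simp at h
  have h3 : S.σ y = S.σ (S.σ y) := mul_left_cancel₀ h2 (by rw [S.σσ]; linear_combination h + (S.σ y * y + y ^ 3) * S.three)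
  exact hy (by rw [← S.σσ, ← h3, ← S.σ_inj h3])

end Tw

namespace Model

variable {G : Type*} [Group G] {F : Type*} [Field F] (M : Model G F)
variable {Γ : Type*} [Group Γ] {τ : Γ →* G} (hs : Function.Surjective τ) (hc : τ.ker ≤ center Γ) {y₀ : F} (hy : y₀ ^ 3 ≠ y₀)

theorem comm_Z (a b c z : F) : M.T a b c * M.T 0 0 z = M.T 0 0 z * M.T a b c := by
  rw [T_mul_T_zero, T_zero_mul_T]; simp [add_comm]

theorem comm_U₂ (b c y z : F) : M.T 0 b c * M.T 0 y z = M.T 0 y z * M.T 0 b c := by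
  rw [T_mul_T_zero, T_mul_T_zero, add_comm b, add_comm c]

theorem h₀_conj_T' (a b c : F) : M.D (-1) * M.T a b c * (M.D (-1))⁻¹ = M.T (-a) b (-c) := by rw [D_conj_T]; simp

theorem T_zero_eq_sq (b c : F) : M.T 0 b c = M.T 0 (-b) 0 * M.T 0 (-b) 0 * M.T 0 0 c := by
  rw [T_mul_T_zero, T_mul_T_zero]
  exact M.T_congr rfl (by linear_combination b * M.toTw.three) (by ring)

theorem T_commutator (a b c x y z : F) : ∃ b' c', ⁅M.T a b c, M.T x y z⁆ = M.T 0 b' c' :=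
  ⟨_, _, by rw [commutatorElement_def, T_inv, T_inv, M.T_mul, M.T_mul, M.T_mul]; exact M.T_congr (by ring) rfl rfl⟩

include hc hy

theorem cm_Z_Z (c z : F) : cm hs (M.T 0 0 c) (M.T 0 0 z) = 1 := by
  obtain ⟨h0, h1, -⟩ := Tw.ne_of_cube_ne hy
  refine biadd_trivial (fun c z => cm hs (M.T 0 0 c) (M.T 0 0 z)) (fun a a' b => ?_) (fun a b b' => ?_) (·⁻¹)
    (fun a b hb => ?_) one_ne_zero h0 h1 (M.toTw.inv_not_add hy) c z
  · rw [← cm_mul_left' hs hc _ (M.comm_Z ..), T_mul_T_zero, add_zero, add_comm]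
  · rw [← cm_mul_right' hs hc _ _ (M.comm_Z ..), T_mul_T_zero, add_zero]
  · obtain ⟨k, hk⟩ := M.toTw.exists_σ_mul_sq (inv_ne_zero hb)
    rw [← cm_conj hs hc (M.comm_Z 0 0 a b) (M.D k), D_conj_T, D_conj_T, hk, inv_mul_cancel₀ hb, mul_comm _ a]
    simp

theorem cm_U₂_Z (b c z : F) : cm hs (M.T 0 b c) (M.T 0 0 z) = 1 := by
  have h := cm_conj hs hc (M.comm_Z 0 (-b) 0 z) (M.D (-1))
  simp only [h₀_conj_T', neg_zero] at h
  rw [M.T_zero_eq_sq b, cm_mul_left' hs hc _ (M.comm_Z ..), cm_mul_left' hs hc _ (M.comm_Z ..), M.cm_Z_Z hs hc hy, one_mul]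
  nth_rw 1 [← h]
  rw [← cm_mul_right' hs hc _ _ (M.comm_Z ..), T_mul_T_zero]
  simp [cm_one_right hs hc]

theorem cm_U_Z (a b c z : F) : cm hs (M.T a b c) (M.T 0 0 z) = 1 := by
  obtain ⟨h0, h1, -⟩ := Tw.ne_of_cube_ne hy
  have red : ∀ a b c z, cm hs (M.T a b c) (M.T 0 0 z) = cm hs (M.T a 0 0) (M.T 0 0 z) := fun a b c z => by
    rw [show M.T a b c = M.T a 0 0 * M.T 0 b c by simp [T_mul_T_zero], cm_mul_left' hs hc _ (M.comm_Z ..),
      M.cm_U₂_Z hs hc hy, one_mul]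
  rw [red]
  refine biadd_trivial (fun a z => cm hs (M.T a 0 0) (M.T 0 0 z)) (fun a a' b => ?_) (fun a b b' => ?_)
    (fun x => M.σ x / x ^ 2) (fun a b hb => ?_) one_ne_zero h0 h1 (M.toTw.div_not_add hy) a z
  · rw [← cm_mul_left' hs hc _ (M.comm_Z ..), M.T_mul, red (a' + a), add_comm]
  · rw [← cm_mul_right' hs hc _ _ (M.comm_Z ..), T_mul_T_zero, add_zero]
  · have h2 := M.toTw.σ_ne_zero hb
    rw [← cm_conj hs hc (M.comm_Z a 0 0 b) (M.D (Units.mk0 (M.σ b / b ^ 2) (by positivity))), D_conj_T, D_conj_T]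
    simp only [Units.val_mk0, mul_zero, map_div₀, map_pow, M.σσ]
    congr 2
    · ring
    · field_simp

theorem cm_U₂_U₂ [Finite F] (b c y z : F) : cm hs (M.T 0 b c) (M.T 0 y z) = 1 := by
  obtain ⟨h0, h1, -⟩ := Tw.ne_of_cube_ne hy
  have hl : ∀ a a' b, cm hs (M.T 0 (a + a') 0) (M.T 0 b 0) = cm hs (M.T 0 a 0) (M.T 0 b 0) * cm hs (M.T 0 a' 0) (M.T 0 b 0) :=
    fun a a' b => by rw [← cm_mul_left' hs hc _ (M.comm_U₂ ..), T_mul_T_zero, add_zero, add_comm]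
  have hr : ∀ a b b', cm hs (M.T 0 a 0) (M.T 0 (b + b') 0) = cm hs (M.T 0 a 0) (M.T 0 b 0) * cm hs (M.T 0 a 0) (M.T 0 b' 0) :=
    fun a b b' => by rw [← cm_mul_right' hs hc _ _ (M.comm_U₂ ..), T_mul_T_zero, add_zero]
  rw [show M.T 0 y z = M.T 0 y 0 * M.T 0 0 z by simp [T_mul_T_zero], cm_mul_right' hs hc _ _ (M.comm_Z ..),
    M.cm_U_Z hs hc hy, mul_one, show M.T 0 b c = M.T 0 b 0 * M.T 0 0 c by simp [T_mul_T_zero],
    cm_mul_left' hs hc _ (M.comm_U₂ ..), cm_symm hs (M.cm_U_Z hs hc hy ..), one_mul]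
  refine biadd_trivial (fun a z => cm hs (M.T 0 a 0) (M.T 0 z 0)) hl hr (·⁻¹) (fun a b hb => ?_) one_ne_zero h0 h1
    (M.toTw.inv_not_add hy) b y
  obtain ⟨k, hk⟩ := M.toTw.exists_σ_mul_or (inv_ne_zero hb)
  rw [← cm_conj hs hc (M.comm_U₂ a 0 b 0) (M.D k), D_conj_T, D_conj_T]
  rcases hk with hk | hk <;> simp only [hk, mul_zero, neg_mul, inv_mul_cancel₀ hb, mul_comm b⁻¹ a]
  have e1 := hl (a * b⁻¹) (-(a * b⁻¹)) (-1)
  have e2 := hr (a * b⁻¹) (-1) 1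
  rw [add_neg_cancel, T_zero, cm_symm hs (cm_one_right hs hc _)] at e1
  rw [neg_add_cancel, T_zero, cm_one_right hs hc] at e2
  exact mul_left_cancel (e1.symm.trans e2)

include M hs in
theorem eq_one_three [Finite F] [Finite Γ] {z : Γ} (hz : z ∈ τ.ker) (hz' : z ∈ _root_.commutator Γ) {k : ℕ}
    (hk : z ^ 3 ^ k = 1) : z = 1 := by
  obtain ⟨π, h1, h2, h3, P, hP⟩ := exists_avg hs hc M.D (M.U₂.comap τ) (fun x ⟨b, c, hx⟩ y ⟨b', c', hy'⟩ =>
    comm_of_cm hs hc (by rw [hx, hy', M.cm_U₂_U₂ hs hc hy])) fun c y hy => by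
      rw [mem_comap, map_mul, map_mul, map_inv, map_lf]; exact M.conj_mem_U₂ (M.D_mem_B c) hy
  have h0 : π 1 = 1 := by simpa using h3 1 (one_mem _) (one_mem _)
  have hm : ∀ a b c x y z, cm hs (M.T a b c) (M.T x y z) ∈ M.U₂.comap τ := fun a b c x y z => by
    rw [mem_comap, map_cm]; exact M.T_commutator ..
  have hD : ∀ k a b c x y z, π (cm hs (M.D k * M.T a b c * (M.D k)⁻¹) (M.D k * M.T x y z * (M.D k)⁻¹)) =
      π (cm hs (M.T a b c) (M.T x y z)) := fun k a b c x y z => by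
    rw [← h2 k _ (hm ..), conj_cm hs hc, map_lf]
  have hZ : ∀ g ∈ M.U, ∀ a b c y z, lf hs g * cm hs (M.T a b c) (M.T 0 y z) * (lf hs g)⁻¹ = cm hs (M.T a b c) (M.T 0 y z) := by
    rintro _ ⟨a', b', c', rfl⟩ a b c y z
    refine mul_inv_eq_iff_eq_mul.2 (comm_of_cm hs hc ?_)
    rw [map_lf, map_cm, commutatorElement_def, T_conj_T_zero, T_zero_inv, T_mul_T_zero, add_neg_cancel, M.cm_U_Z hs hc hy]
  have hB : ∀ a b c y z, π (cm hs (M.T a b c) (M.T 0 y z)) = 1 := fun a b c y z => by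
    have e := hD (-1) a b c 0 (-y) 0
    simp only [h₀_conj_T', neg_zero] at e
    rw [M.T_zero_eq_sq y, cm_mul_right' hs hc _ _ (M.comm_Z ..), M.cm_U_Z hs hc hy, mul_one, cm_mul_right hs hc, hZ _ (M.T_mem_U ..),
      h1 _ (hm ..) _ (hm ..)]
    nth_rw 1 [← e]
    rw [← h1 _ (hm ..) _ (hm ..), ← hZ _ (M.T_mem_U a b c) (-a), ← cm_mul_left hs hc, M.T_mul, add_neg_cancel,
      M.cm_U₂_U₂ hs hc hy, h0]
  have hU : ∀ a b c, ∀ x ∈ M.U₂.comap τ, π (lf hs (M.T a b c) * x * (lf hs (M.T a b c))⁻¹) = π x := fun a b c x hx => by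
    obtain ⟨y, z, e⟩ := id hx
    rw [← inv_mul_cancel_right (_ * _ * _) x, ← commutatorElement_def, commElt_eq_cm hs hc, map_lf, e, h1 _ (hm ..) _ hx, hB,
      one_mul]
  have hm' : ∀ a b c, ∀ x ∈ M.U₂.comap τ, lf hs (M.T a b c) * x * (lf hs (M.T a b c))⁻¹ ∈ M.U₂.comap τ := fun a b c x hx => by
    rw [mem_comap, map_mul, map_mul, map_inv, map_lf]; exact M.conj_mem_U₂ (M.T_mem_B ..) hx
  have hl : ∀ a b c a' b' c' x y z, π (cm hs (M.T a b c * M.T a' b' c') (M.T x y z)) =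
      π (cm hs (M.T a' b' c') (M.T x y z)) * π (cm hs (M.T a b c) (M.T x y z)) := fun a b c a' b' c' x y z => by
    rw [cm_mul_left hs hc, h1 _ (hm' _ _ _ _ (hm ..)) _ (hm ..), hU _ _ _ _ (hm ..)]
  have hr : ∀ a b c x y z x' y' z', π (cm hs (M.T a b c) (M.T x y z * M.T x' y' z')) =
      π (cm hs (M.T a b c) (M.T x y z)) * π (cm hs (M.T a b c) (M.T x' y' z')) := fun a b c x y z x' y' z' => by
    rw [cm_mul_right hs hc, h1 _ (hm ..) _ (hm' _ _ _ _ (hm ..)), hU _ _ _ _ (hm ..)]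
  have hB' : ∀ a b c y z, π (cm hs (M.T 0 y z) (M.T a b c)) = 1 := fun a b c y z => by
    rw [← mul_one (π _), ← hB a b c y z, ← h1 _ (hm ..) _ (hm ..), cm, cm, ← commutatorElement_inv, inv_mul_cancel, h0]
    exact (hB ..).symm
  have red : ∀ a b c x y z, π (cm hs (M.T a b c) (M.T x y z)) = π (cm hs (M.T a 0 0) (M.T x 0 0)) := fun a b c x y z => by
    rw [show M.T a b c = M.T a 0 0 * M.T 0 b c by simp [T_mul_T_zero], hl, hB', one_mul,
      show M.T x y z = M.T x 0 0 * M.T 0 y z by simp [T_mul_T_zero], hr, hB, mul_one]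
  obtain ⟨y0, y1, -⟩ := Tw.ne_of_cube_ne hy
  have key := biadd_trivial (fun a x => π (cm hs (M.T a 0 0) (M.T x 0 0))) (fun a a' b => by rw [← hl, M.T_mul, red (a' + a), add_comm])
    (fun a b b' => by rw [← hr, M.T_mul, red a 0 0 (b + b') (_ - _)]) (·⁻¹) (fun a b hb => by
      rw [← hD (Units.mk0 b hb)⁻¹, D_conj_T, D_conj_T]; simp [hb, mul_comm]) one_ne_zero y0 y1 (M.toTw.inv_not_add hy)
  have hUU : ⁅M.U.comap τ, M.U.comap τ⁆ ≤ P := commutator_le.2 fun x ⟨a, b, c, hx⟩ y ⟨a', b', c', hy'⟩ => by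
    rw [hP, commElt_eq_cm hs hc, hx, hy', red]
    exact ⟨hm .., key ..⟩
  have h4 := (hP _).1 (hUU (CL.Transfer.pow_index_mem_commutator_of_center (M.U.comap τ)
    (by rw [mem_comap, MonoidHom.mem_ker.1 hz]; exact one_mem _) hz' (hc hz)))
  rw [h3 _ h4.1 (pow_mem (hc hz) _), ← pow_mul, index_comap_of_surjective _ hs, Nat.card_units] at h4
  have h5 := M.not_three_dvd_index_U
  refine orderOf_eq_one_iff.1 (Nat.eq_one_of_dvd_coprimes (Nat.Coprime.pow_left k (Nat.prime_three.coprime_iff_not_dvd.2 ?_))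
    (orderOf_dvd_of_pow_eq_one hk) (orderOf_dvd_of_pow_eq_one h4.2))
  rw [Nat.prime_three.dvd_mul, not_or]
  exact ⟨h5, fun h => h5 (M.index_U ▸ h.mul_right _)⟩

omit hy

theorem cm_h₀ [Finite F] {g : G} (hg : g ∈ centralizer {M.h₀}) : cm hs g M.h₀ = 1 := by
  have key : ∀ g, cm hs g M.h₀ = 1 → g ∈ (centralizer {lf hs M.h₀}).map τ := fun g h =>
    ⟨lf hs g, mem_centralizer_singleton_iff.2 (commutatorElement_eq_one_iff_mul_comm.1 h), map_lf hs g⟩
  have key2 : ∀ g ∈ centralizer {M.h₀}, g * g ∈ (centralizer {lf hs M.h₀}).map τ := fun g h =>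
    key _ (cm_mul_self hs hc (mem_centralizer_singleton_iff.1 h) M.h₀_mul_h₀)
  obtain ⟨x, hx, rfl⟩ := M.hx_le (Y := (centralizer {lf hs M.h₀}).map τ) ((SL2.range_le_iff _ _).2 ⟨fun t => by
    simpa only [φ_up, M.T_zero_eq_sq t 0, T_zero, mul_one] using key2 _ (M.T_mem_C (-t)), fun t => by
    simpa only [φ_lo, M.T_zero_eq_sq (-t) 0, T_zero, mul_one, mul_assoc, w_mul_w_mul] using
      key2 _ (mul_mem (mul_mem M.w_mem_C (M.T_mem_C (- -t))) M.w_mem_C)⟩) (key _ (cm_self hs _)) (M.centralizer_h₀ ▸ hg)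
  rw [← map_lf hs M.h₀, ← commElt_eq_cm hs hc, commutatorElement_eq_one_iff_mul_comm]
  exact mem_centralizer_singleton_iff.1 hx

include M hs in
theorem eq_one_two [Finite F] [Finite Γ] {z : Γ} (hz : z ∈ τ.ker) (hz' : z ∈ _root_.commutator Γ) (hk : z ^ 2 = 1) :
    z = 1 := by
  have hEE : ⁅M.E.comap τ, M.E.comap τ⁆ ≤ ⊥ := commutator_le.2 fun x hx y hy => by
    rw [mem_bot, commElt_eq_cm hs hc]
    by_cases h1 : τ y = 1
    · rw [h1, cm_one_right hs hc]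
    · obtain ⟨g, hg⟩ := M.exists_conj_h₀ h1 (M.sq_of_mem_E hy)
      rw [hg, (M.conj g).cm_h₀ hs hc]
      exact mem_centralizer_singleton_iff.2 (hg ▸ M.comm_of_mem_sylow M.sylowE _ hx _ hy)
  have h4 := mem_bot.1 (hEE (CL.Transfer.pow_index_mem_commutator_of_center (M.E.comap τ)
    (by rw [mem_comap, MonoidHom.mem_ker.1 hz]; exact one_mem _) hz' (hc hz)))
  rw [index_comap_of_surjective _ hs] at h4
  exact orderOf_eq_one_iff.1 (Nat.eq_one_of_dvd_coprimes (Nat.coprime_two_left.2 M.odd_index_E)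
    (orderOf_dvd_of_pow_eq_one hk) (orderOf_dvd_of_pow_eq_one h4))

omit hs hc

include M in
/-- The Schur multiplier of a small Ree group `²G₂(q)`, `q > 3`, is trivial. -/
theorem schur_trivial [Finite F] (hF : 3 < Nat.card F) : Cfsg.HasCyclicSchurMultiplier G 1 := by
  have := M.finite
  obtain ⟨y, hy⟩ := M.exists_cube_ne hF
  refine trivial_of_forall_prime fun p hp _ Γ _ _ τ hτ hcard => (show CL.Pc.PBound G p 0 from ?_) Γ τ hτ (by rw [hcard]; simp)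
  have := Fact.mk hp
  rcases lt_or_ge 3 p with h | h
  · obtain ⟨P⟩ : Nonempty (Sylow p G) := inferInstance
    exact CL.Pc.PBound.of_isCyclic P (M.isCyclic_of_isPGroup hF h P.isPGroup')
  refine CL.Pc.PBound.of_exponent hp fun Γ _ _ τ hτ hx => ?_
  rw [pow_zero, card_le_one_iff_eq_bot, eq_bot_iff]
  intro z hz
  obtain rfl | rfl : p = 2 ∨ p = 3 := by have := hp.two_le; omega
  exacts [M.eq_one_two hτ.1 hτ.2.1 hz (hτ.2.2 hz) (hx z hz), M.eq_one_three hτ.1 hτ.2.1 hy hz (hτ.2.2 hz) (hx z hz)]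

end Model

end CL.Chev.Ree
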