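/-
Sets of abstract root subgroups: lines, triangles `A - B - C`, the quadruples of II (2.14)
(Timmesfeld, Abstract root subgroups, II §2, second part).
-/
import Cfsg.Agent.Chev.RootSet

set_option autoImplicit false

namespace CL.Chev.Root

open Cfsg
open scoped commutatorElement

variable {G : Type*} [Group G] {S : Set (Subgroup G)} {A B C D : Subgroup G}

/-! ### The line `A ⁅A, B⁆` -/

theorem psi_conjBy_comm (hS : IsRootSubgroupSet S) (hA : A ∈ S) (hB : B ∈ S) (hC : ⁅A, B⁆ ∈ S) {b : G}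
    (hb : b ∈ B) : conjBy ⁅A, B⁆ b = ⁅A, B⁆ :=
  conjBy_of_commute (comm_bot_iff.1 (psi_comm_right hS hA hB hC) b hb)

theorem psi_conjBy_line (hS : IsRootSubgroupSet S) (hA : A ∈ S) (hB : B ∈ S) (hC : ⁅A, B⁆ ∈ S) {b : G}
    (hb : b ∈ B) : conjBy (A ⊔ ⁅A, B⁆) b = A ⊔ ⁅A, B⁆ := by
  have key : ∀ b ∈ B, conjBy (A ⊔ ⁅A, B⁆) b ≤ A ⊔ ⁅A, B⁆ := fun b hb => by
    rw [conjBy_sup, psi_conjBy_comm hS hA hB hC hb]
    exact sup_le (psi_conjBy_le hA hb) le_sup_right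
  refine le_antisymm (key b hb) ?_
  have := conjBy_mono (key b⁻¹ (B.inv_mem hb)) b
  rwa [conjBy_inv_conjBy] at this

/-- `L` is covered by the members of `S` it contains. -/
def Covered (S : Set (Subgroup G)) (L : Subgroup G) : Prop := ∀ x ∈ L, ∃ E ∈ S, E ≤ L ∧ x ∈ E

theorem psi_covered (hS : IsRootSubgroupSet S) (hA : A ∈ S) (hB : B ∈ S) (hC : ⁅A, B⁆ ∈ S) :
    Covered S (A ⊔ ⁅A, B⁆) := by
  intro x hx
  obtain ⟨a, ha, c, hc, rfl⟩ := (mem_sup_of_comm (psi_comm_left hS hA hB hC)).1 hx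
  by_cases ha1 : a = 1
  · exact ⟨_, hC, le_sup_right, by rwa [ha1, one_mul]⟩
  · obtain ⟨b, hb, he⟩ := psi_exists_conj hS hA hB hC ha ha1 hc
    exact ⟨_, hS.conj_mem A hA b, psi_conjBy_le hA hb, he ▸ conj_mem_conjBy ha b⟩

theorem covered_of_line (hA : A ∈ S) (hB : B ∈ linePartners S A) : Covered S (A ⊔ B) := by
  intro x hx
  by_cases hx1 : x = 1
  · exact ⟨A, hA, le_sup_left, hx1 ▸ A.one_mem⟩
  · obtain ⟨E, hE, hxE⟩ := hB.2.2.1 x hx hx1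
    exact ⟨E, hE.1, hE.2, hxE⟩

theorem line_comm (hS : IsRootSubgroupSet S) (hA : A ∈ S) (hB : B ∈ S) (h : ⁅A, B⁆ = ⊥) :
    ⁅A ⊔ B, A ⊔ B⁆ = ⊥ :=
  sup_comm_bot (comm_sup_bot (rs_comm_self hS hA) h) (comm_sup_bot (comm_bot_symm h) (rs_comm_self hS hB))

/-- No non-identity element of an abelian covered subgroup containing `A` centralises a rank one partner of `A`. -/
theorem Covered.eq_one_of_commute (hS : IsRootSubgroupSet S) {L : Subgroup G} (hL : Covered S L)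
    (hLc : ⁅L, L⁆ = ⊥) (hA : A ∈ S) (hAL : A ≤ L) (hD : D ∈ S) (h : IsRankOnePair A D) {z : G} (hz : z ∈ L)
    (hzD : ∀ d ∈ D, z * d = d * z) : z = 1 := by
  by_contra hz1
  obtain ⟨a, ha, ha1⟩ := rs_exists_ne_one hS hA
  obtain ⟨E, hE, -, hza⟩ := hL (z * a) (L.mul_mem hz (hAL ha))
  exact not_mem_of_central hS hA hD h
    (commute_sup (fun a' ha' => comm_bot_iff.1 hLc z hz a' (hAL ha')) hzD) hz1 ha ha1 hE hza

theorem Covered.comm_ne_bot (hS : IsRootSubgroupSet S) {L : Subgroup G} (hL : Covered S L)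
    (hLc : ⁅L, L⁆ = ⊥) (hA : A ∈ S) (hAL : A ≤ L) (hD : D ∈ S) (h : IsRankOnePair A D) {E : Subgroup G}
    (hE : E ∈ S) (hEL : E ≤ L) : ⁅E, D⁆ ≠ ⊥ := by
  intro hc
  obtain ⟨e, he, he1⟩ := rs_exists_ne_one hS hE
  exact he1 (hL.eq_one_of_commute hS hLc hA hAL hD h (hEL he) (comm_bot_iff.1 hc e he))

/-- The members of `S` inside `A ⁅A, B⁆` for a non-isolated `A`. -/
theorem NI.psi_points (hS : IsRootSubgroupSet S) (hA : A ∈ S) (h : NI S A) (hB : B ∈ S) (hC : ⁅A, B⁆ ∈ S)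
    {E : Subgroup G} (hE : E ∈ S) (hEL : E ≤ A ⊔ ⁅A, B⁆) : E = ⁅A, B⁆ ∨ ∃ b ∈ B, E = Cfsg.conjBy A b := by
  by_cases hle : E ≤ ⁅A, B⁆
  · left
    obtain ⟨D, hD, hAD⟩ := h
    have hcov := psi_covered hS hA hB hC
    have hLc := psi_line_comm hS hA hB hC
    obtain ⟨e, he, he1⟩ := rs_exists_ne_one hS hE
    rcases rs_tri hS hE hD with h1 | h1 | h1
    · exact absurd h1 (hcov.comm_ne_bot hS hLc hA le_sup_left hD hAD hE hEL)
    · exact NI.eq_of_mem hS hE ⟨D, hD, h1⟩ hC he (hle he) he1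
    rcases rs_tri hS hC hD with h2 | h2 | h2
    · exact absurd h2 (hcov.comm_ne_bot hS hLc hA le_sup_left hD hAD hC le_sup_right)
    · exact (NI.eq_of_le hS hC ⟨D, hD, h2⟩ hE hle).symm
    refine le_antisymm hle fun c hc => ?_
    obtain ⟨d, hd, hd1⟩ := rs_exists_ne_one hS hD
    obtain ⟨d', hd', he'⟩ := psi_surj_left hS hD hC (psi_symm h2) (hle he) he1
      (Subgroup.commutator_mem_commutator hd hc)
    obtain ⟨e', he'E, he''⟩ := psi_surj_right hS hD hE (psi_symm h1) hd hd1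
      (he' ▸ Subgroup.commutator_mem_commutator hd' he)
    have := NI.psi_inj hS hD ⟨A, hA, RankOnePair_symm hAD⟩ hC (psi_symm h2) hd hd1 (hle he'E) hc he''
    exact this ▸ he'E
  · right
    obtain ⟨e, he, heC⟩ := SetLike.not_le_iff_exists.1 hle
    obtain ⟨a, ha, c, hc, rfl⟩ := (mem_sup_of_comm (psi_comm_left hS hA hB hC)).1 (hEL he)
    have ha1 : a ≠ 1 := by rintro rfl; exact heC (by rwa [one_mul])
    obtain ⟨b, hb, heq⟩ := psi_exists_conj hS hA hB hC ha ha1 hc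
    refine ⟨b, hb, ((h.conjBy hS b).eq_of_mem hS (hS.conj_mem A hA b) hE (heq ▸ conj_mem_conjBy ha b) he ?_).symm⟩
    rw [heq]; simpa using ha1

theorem NI.psi_partition (hS : IsRootSubgroupSet S) (hA : A ∈ S) (h : NI S A) (hB : B ∈ S) (hC : ⁅A, B⁆ ∈ S) :
    IsSubgroupPartition (A ⊔ ⁅A, B⁆) (membersIn S (A ⊔ ⁅A, B⁆)) := by
  refine ⟨fun E hE => hE.2, fun x hx _ => ?_, fun E hE F hF hne => ?_⟩
  · obtain ⟨E, hE, hEL, hxE⟩ := psi_covered hS hA hB hC x hx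
    exact ⟨E, ⟨hE, hEL⟩, hxE⟩
  · refine (Subgroup.eq_bot_iff_forall _).2 fun x hx => ?_
    by_contra hx1
    rcases h.psi_points hS hA hB hC hE.1 hE.2 with h1 | ⟨b, -, h1⟩
    · rcases h.psi_points hS hA hB hC hF.1 hF.2 with h2 | ⟨b, -, h2⟩
      · exact hne (h1.trans h2.symm)
      · exact hne ((h2 ▸ h.conjBy hS b : NI S F).eq_of_mem hS hF.1 hE.1 hx.2 hx.1 hx1).symm
    · exact hne ((h1 ▸ h.conjBy hS b : NI S E).eq_of_mem hS hE.1 hF.1 hx.1 hx.2 hx1)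

theorem NI.psi_mem_line (hS : IsRootSubgroupSet S) (hA : A ∈ S) (h : NI S A) (hB : B ∈ S) (hC : ⁅A, B⁆ ∈ S) :
    A ∈ linePartners S ⁅A, B⁆ :=
  ⟨⟨hA, (psi_ne_left hS hA hB hC).symm, comm_bot_symm (psi_comm_left hS hA hB hC)⟩, by
    rw [sup_comm]; exact h.psi_partition hS hA hB hC⟩

theorem line_symm (hA : A ∈ S) (hB : B ∈ linePartners S A) : A ∈ linePartners S B :=
  ⟨⟨hA, hB.1.2.1.symm, comm_bot_symm hB.1.2.2⟩, by rw [sup_comm]; exact hB.2⟩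

theorem line_of_sup_eq (hB : B ∈ linePartners S A) {P Q : Subgroup G} (hQ : Q ∈ S) (hne : Q ≠ P)
    (hc : ⁅P, Q⁆ = ⊥) (he : P ⊔ Q = A ⊔ B) : Q ∈ linePartners S P :=
  ⟨⟨hQ, hne, hc⟩, by rw [he]; exact hB.2⟩

theorem line_conjBy (hS : IsRootSubgroupSet S) (hB : B ∈ linePartners S A) (g : G) :
    conjBy B g ∈ linePartners S (conjBy A g) := by
  obtain ⟨⟨hB, hne, hc⟩, -, h2, h3⟩ := hB
  refine ⟨⟨hS.conj_mem B hB g, fun he => hne (conjBy_inj.1 he), comm_bot_conjBy hc g⟩,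
    fun E hE => hE.2, fun x hx hx1 => ?_, fun E hE F hF hEF => ?_⟩
  · rw [← conjBy_sup] at hx
    obtain ⟨y, hy, rfl⟩ := mem_conjBy_iff_exists.1 hx
    obtain ⟨E, hE, hyE⟩ := h2 y hy (by rintro rfl; simp at hx1)
    exact ⟨conjBy E g, ⟨hS.conj_mem E hE.1 g, by rw [← conjBy_sup]; exact conjBy_mono hE.2 g⟩,
      conj_mem_conjBy hyE g⟩
  · have hm : ∀ E ∈ membersIn S (conjBy A g ⊔ conjBy B g), conjBy E g⁻¹ ∈ membersIn S (A ⊔ B) := by
      intro E hE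
      refine ⟨hS.conj_mem E hE.1 _, ?_⟩
      have := conjBy_mono hE.2 g⁻¹
      rwa [← conjBy_sup, conjBy_conjBy_inv] at this
    have := h3 _ (hm E hE) _ (hm F hF) (fun he => hEF (conjBy_inj.1 he))
    rwa [← conjBy_inf, conjBy_eq_bot_iff] at this

/-! ### Triangles -/

section Triangle

theorem tri_not_rk (hS : IsRootSubgroupSet S) (hA : A ∈ S) (hB : B ∈ S) (hC : C ∈ S) (hCB : ⁅C, B⁆ ∈ S)
    (hAC : ⁅A, C⁆ = ⊥) {b : G} (hb : b ∈ B) : ¬ IsRankOnePair A (conjBy C b) := by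
  intro h
  obtain ⟨c, hc, hc1⟩ := rs_exists_ne_one hS hC
  refine not_mem_of_central hS (hS.conj_mem C hC b) hA (RankOnePair_symm h) (z := c⁻¹) (a := b * c * b⁻¹)
    (commute_sup (comm_bot_iff.1 (psi_comm_conjBy hS hC hB hCB hb) _ (C.inv_mem hc))
      fun a ha => (comm_bot_iff.1 hAC a ha _ (C.inv_mem hc)).symm)
    (inv_ne_one.2 hc1) (conj_mem_conjBy hc b) (by simpa using hc1) hCB ?_
  have : c⁻¹ * (b * c * b⁻¹) = ⁅c⁻¹, b⁆ := by rw [commutatorElement_def]; group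
  rw [this]
  exact Subgroup.commutator_mem_commutator (C.inv_mem hc) hb

theorem tri_class_two (hS : IsRootSubgroupSet S) (hA : A ∈ S) (hB : B ∈ S) (hC : C ∈ S) (hCB : ⁅C, B⁆ ∈ S)
    (hAC : ⁅A, C⁆ = ⊥) {b : G} (hb : b ∈ B) :
    ⁅⁅A ⊔ conjBy C b, A ⊔ conjBy C b⁆, A ⊔ conjBy C b⁆ = ⊥ := by
  rcases rs_tri hS hA (hS.conj_mem C hC b) with h | h | h
  · rw [line_comm hS hA (hS.conj_mem C hC b) h, Subgroup.commutator_bot_left]
  · exact absurd h (tri_not_rk hS hA hB hC hCB hAC hb)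
  · exact psi_class_two hS hA (hS.conj_mem C hC b) h

theorem tri_comm_of_comm (hS : IsRootSubgroupSet S) (hA : A ∈ S) (hB : B ∈ S) (hC : C ∈ S) (hCB : ⁅C, B⁆ ∈ S)
    (hAC : ⁅A, C⁆ = ⊥) {b : G} (hb : b ∈ B) (hb1 : b ≠ 1) (h : ⁅A, conjBy C b⁆ = ⊥) : ⁅C, conjBy A b⁆ = ⊥ := by
  have h1 : ⁅⁅B, C⁆, A⁆ = ⊥ := by
    refine comm_bot_mono (comm_bot_symm (comm_sup_bot hAC h)) ?_ le_rfl
    rw [psi_sup_conjBy hS hC hB hCB hb hb1, Subgroup.commutator_comm]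
    exact le_sup_right
  have h2 : ⁅⁅C, A⁆, B⁆ = ⊥ := by rw [comm_bot_symm hAC, Subgroup.commutator_bot_left]
  have h3 := Subgroup.commutator_commutator_eq_bot_of_rotate h1 h2
  exact comm_bot_mono (comm_sup_bot (comm_bot_symm hAC) (comm_bot_symm h3)) le_rfl (psi_conjBy_le hA hb)

theorem tri_comm (hS : IsRootSubgroupSet S) (hA : A ∈ S) (hB : B ∈ S) (hC : C ∈ S) (hAB : ⁅A, B⁆ ∈ S)
    (hCB : ⁅C, B⁆ ∈ S) (hAC : ⁅A, C⁆ = ⊥) {b : G} (hb : b ∈ B) :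
    ⁅A ⊔ conjBy C b, conjBy A b ⊔ C⁆ = ⊥ :=
  sup_comm_bot (comm_sup_bot (psi_comm_conjBy hS hA hB hAB hb) hAC)
    (comm_sup_bot (comm_bot_symm (comm_bot_conjBy hAC b)) (comm_bot_symm (psi_comm_conjBy hS hC hB hCB hb)))

theorem tri_sup_eq (hS : IsRootSubgroupSet S) (hA : A ∈ S) (hB : B ∈ S) (hC : C ∈ S) (hAB : ⁅A, B⁆ ∈ S)
    (hCB : ⁅C, B⁆ ∈ S) {b : G} (hb : b ∈ B) (hb1 : b ≠ 1) :
    (A ⊔ conjBy C b) ⊔ (conjBy A b ⊔ C) = (A ⊔ ⁅A, B⁆) ⊔ (C ⊔ ⁅C, B⁆) := by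
  rw [← psi_sup_conjBy hS hA hB hAB hb hb1, ← psi_sup_conjBy hS hC hB hCB hb hb1]
  ac_rfl

theorem tri_N_class_two (hS : IsRootSubgroupSet S) (hA : A ∈ S) (hB : B ∈ S) (hC : C ∈ S) (hAB : ⁅A, B⁆ ∈ S)
    (hCB : ⁅C, B⁆ ∈ S) (hAC : ⁅A, C⁆ = ⊥) :
    ⁅⁅(A ⊔ ⁅A, B⁆) ⊔ (C ⊔ ⁅C, B⁆), (A ⊔ ⁅A, B⁆) ⊔ (C ⊔ ⁅C, B⁆)⁆, (A ⊔ ⁅A, B⁆) ⊔ (C ⊔ ⁅C, B⁆)⁆ = ⊥ := by
  obtain ⟨b, hb, hb1⟩ := rs_exists_ne_one hS hB
  rw [← tri_sup_eq hS hA hB hC hAB hCB hb hb1]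
  have hX := tri_class_two hS hA hB hC hCB hAC hb
  have hY := tri_class_two hS hC hB hA hAB (comm_bot_symm hAC) hb
  rw [sup_comm C] at hY
  have hXY := tri_comm hS hA hB hC hAB hCB hAC hb
  generalize A ⊔ conjBy C b = X at *
  generalize conjBy A b ⊔ C = Y at *
  refine class_two_sup (K := ⁅X, X⁆ ⊔ ⁅Y, Y⁆) (sup_comm_bot (comm_sup_bot hX ?_) (comm_sup_bot ?_ hY))
    le_sup_left (by rw [hXY]; exact bot_le) le_sup_right
  · exact comm_bot_mono hXY (Subgroup.commutator_le_self X) le_rfl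
  · exact comm_bot_mono (comm_bot_symm hXY) (Subgroup.commutator_le_self Y) le_rfl

theorem tri_isNilpotent (hS : IsRootSubgroupSet S) (hA : A ∈ S) (hB : B ∈ S) (hC : C ∈ S) (hAB : ⁅A, B⁆ ∈ S)
    (hCB : ⁅C, B⁆ ∈ S) (hAC : ⁅A, C⁆ = ⊥) : Group.IsNilpotent ↥(A ⊔ B ⊔ C) := by
  have hN := tri_N_class_two hS hA hB hC hAB hCB hAC
  set D := ⁅A, B⁆ with hD
  set E := ⁅C, B⁆ with hE
  set N := (A ⊔ D) ⊔ (C ⊔ E) with hNdef
  set R := A ⊔ B ⊔ C with hR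
  have hAN : A ≤ N := le_sup_left.trans le_sup_left
  have hDN : D ≤ N := le_sup_right.trans le_sup_left
  have hCN : C ≤ N := le_sup_left.trans le_sup_right
  have hEN : E ≤ N := le_sup_right.trans le_sup_right
  have hAR : A ≤ R := le_sup_left.trans le_sup_left
  have hBR : B ≤ R := le_sup_right.trans le_sup_left
  have hCR : C ≤ R := le_sup_right
  have hDR : D ≤ R := (Subgroup.commutator_le_sup A B).trans le_sup_left
  have hER : E ≤ R := (Subgroup.commutator_le_sup C B).trans (sup_le hCR hBR)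
  have hcomm : ∀ {H K : Subgroup G}, H ≤ R → K ≤ R → ⁅H, K⁆ ≤ R := fun h1 h2 =>
    (Subgroup.commutator_le_sup _ _).trans (sup_le h1 h2)
  have hbot : ∀ {H : Subgroup G} (n : ℕ), H = ⊥ → H ≤ ucs R n := fun n h => h ▸ bot_le
  have hNN : ∀ {H K L : Subgroup G}, H ≤ N → K ≤ N → L ≤ N → ⁅⁅H, K⁆, L⁆ = ⊥ := fun h1 h2 h3 =>
    comm_bot_mono hN (Subgroup.commutator_mono h1 h2) h3
  have hBD : ⁅B, D⁆ = ⊥ := psi_comm_right hS hA hB hAB
  have hBE : ⁅B, E⁆ = ⊥ := psi_comm_right hS hC hB hCB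
  have hAD : ⁅A, D⁆ = ⊥ := psi_comm_left hS hA hB hAB
  have hCE : ⁅C, E⁆ = ⊥ := psi_comm_left hS hC hB hCB
  have h1 : ⁅D, E⁆ ≤ ucs R 1 := le_ucs_succ_three (hcomm hDR hER) (hbot 0 (hNN hDN hEN hAN))
    (hbot 0 (comm_bot_symm (comm_comm_bot hBD hBE))) (hbot 0 (hNN hDN hEN hCN))
  -- the general step for `⁅A, E⁆` and `⁅C, D⁆`
  have step : ∀ {P Q T : Subgroup G}, P ≤ N → Q ≤ N → T ≤ N → P ≤ R → T ≤ R → ⁅P, B⁆ = Q → ⁅B, T⁆ = ⊥ →
      ⁅Q, T⁆ ≤ ucs R 1 → ⁅P, T⁆ ≤ ucs R 2 := by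
    intro P Q T hPN hQN hTN hPR hTR hPB hBT hQT
    refine Subgroup.commutator_le.2 fun p hp t ht => ?_
    have hpt : ⁅p, t⁆ ∈ R := hcomm hPR hTR (Subgroup.commutator_mem_commutator hp ht)
    refine ⟨⟨⁅p, t⁆, hpt⟩, Subgroup.mem_upperCentralSeries_succ_iff.2 fun y => ?_, rfl⟩
    have key : ∀ y ∈ R, ⁅⁅p, t⁆, y⁆ ∈ ucs R 1 := by
      let K : Subgroup G :=
        { carrier := {l | l ∈ R ∧ ⁅⁅p, t⁆, l⁆ ∈ ucs R 1}
          one_mem' := ⟨R.one_mem, by simp⟩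
          mul_mem' := by
            rintro l l' ⟨hl, hl2⟩ ⟨hl', hl2'⟩
            refine ⟨R.mul_mem hl hl', ?_⟩
            rw [commutatorElement_mul_right_eq_mul_conj, mul_assoc, mul_assoc, ← mul_assoc l]
            exact Subgroup.mul_mem _ hl2 (by rw [← conjBy_ucs R 1 hl]; exact conj_mem_conjBy hl2' l)
          inv_mem' := by
            rintro l ⟨hl, hl2⟩
            refine ⟨R.inv_mem hl, ?_⟩
            rw [commutatorElement_inv_right, ← commutatorElement_inv, ← conjBy_ucs R 1 (R.inv_mem hl)]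
            simpa using conj_mem_conjBy (Subgroup.inv_mem _ hl2) l⁻¹ }
      have hK : ∀ {L : Subgroup G}, L ≤ N → L ≤ R → L ≤ K := fun hL hLR l hl => ⟨hLR hl, by
        rw [commutatorElement_eq_one_iff_mul_comm.2 (comm_bot_iff.1 (hNN hPN hTN hL) _
          (Subgroup.commutator_mem_commutator hp ht) l hl)]
        exact Subgroup.one_mem _⟩
      have hBK : B ≤ K := fun b hb => ⟨hBR hb, by
        have hq : ⁅b, p⁆ ∈ Q := by
          rw [← hPB, Subgroup.commutator_comm]; exact Subgroup.commutator_mem_commutator hb hp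
        have e1 : b * t * b⁻¹ = t := by rw [comm_bot_iff.1 hBT b hb t ht]; group
        have e2 : b * p * b⁻¹ = ⁅b, p⁆ * p := by rw [commutatorElement_def]; group
        have e3 : b * ⁅p, t⁆ * b⁻¹ = ⁅p, t⁆ * ⁅⁅b, p⁆, t⁆ := by
          rw [conjugate_commutatorElement, e1, e2, commutatorElement_mul_left_eq_conj_mul,
            ← comm_bot_iff.1 (hNN hPN hTN hQN) _ (Subgroup.commutator_mem_commutator hp ht) _ hq]
          group
        have e4 : ⁅⁅p, t⁆, b⁆ = ⁅p, t⁆ * ⁅⁅b, p⁆, t⁆⁻¹ * ⁅p, t⁆⁻¹ := by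
          calc ⁅⁅p, t⁆, b⁆ = ⁅p, t⁆ * (b * ⁅p, t⁆ * b⁻¹)⁻¹ := by rw [commutatorElement_def ⁅p, t⁆]; group
            _ = _ := by rw [e3]; group
        rw [e4, ← conjBy_ucs R 1 hpt]
        exact conj_mem_conjBy (Subgroup.inv_mem _ (hQT (Subgroup.commutator_mem_commutator hq ht))) _⟩
      have : R ≤ K := sup_le (sup_le (hK hAN hAR) hBK) (hK hCN hCR)
      exact fun y hy => (this hy).2
    obtain ⟨z, hz', he⟩ := key y y.2
    have : z = ⁅(⟨⁅p, t⁆, hpt⟩ : R), y⁆ := Subtype.ext he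
    exact this ▸ hz'
  have h2 : ⁅A, E⁆ ≤ ucs R 2 := step hAN hDN hEN hAR hER rfl hBE h1
  have h2' : ⁅C, D⁆ ≤ ucs R 2 := step hCN hEN hDN hCR hDR rfl hBD (by rwa [Subgroup.commutator_comm])
  have h3 : D ≤ ucs R 3 := le_ucs_succ_three hDR (hbot 2 (comm_bot_symm hAD)) (hbot 2 (comm_bot_symm hBD))
    (by rwa [Subgroup.commutator_comm])
  have h3' : E ≤ ucs R 3 := le_ucs_succ_three hER (by rwa [Subgroup.commutator_comm])
    (hbot 2 (comm_bot_symm hBE)) (hbot 2 (comm_bot_symm hCE))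
  refine isNilpotent_of_le_ucs (n := 4) (sup_le (sup_le ?_ ?_) ?_)
  · exact le_ucs_succ_three hAR (hbot 3 (rs_comm_self hS hA)) h3 (hbot 3 hAC)
  · exact le_ucs_succ_three hBR (by rwa [Subgroup.commutator_comm]) (hbot 3 (rs_comm_self hS hB))
      (by rwa [Subgroup.commutator_comm])
  · exact le_ucs_succ_three hCR (hbot 3 (comm_bot_symm hAC)) h3' (hbot 3 (rs_comm_self hS hC))

/-- Two commuting members whose product meets `A` are not both in the commutator case with a rank one partner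
of `A`. -/
theorem not_psi_psi (hS : IsRootSubgroupSet S) (hD : D ∈ S) (h : IsRankOnePair A D) {E F : Subgroup G}
    (hE : E ∈ S) (hF : F ∈ S) (hEF : ⁅E, F⁆ = ⊥) {a : G} (ha : a ∈ A) (ha1 : a ≠ 1) (haEF : a ∈ E ⊔ F)
    (h1 : ⁅E, D⁆ ∈ S) (h2 : ⁅F, D⁆ ∈ S) : False := by
  have hDR : D ≤ E ⊔ D ⊔ F := le_sup_right.trans le_sup_left
  have hEFR : E ⊔ F ≤ E ⊔ D ⊔ F := sup_le (le_sup_left.trans le_sup_left) le_sup_right
  exact rk_not_isNilpotent h (rk_le_of_mem h hDR ha ha1 (hEFR haEF)) hDR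
    (tri_isNilpotent hS hE hD hF h1 h2 hEF)

end Triangle

/-- Two commuting rank one partners `F ≠ F'` of `D`: some product `f f'` lies in no rank one partner of `D`. -/
theorem exists_not_rk_of_comm {F F' : Subgroup G} (h : IsRankOnePair F D) (h' : IsRankOnePair F' D)
    (hc : ⁅F, F'⁆ = ⊥) (hne : F ≠ F') :
    ∃ f ∈ F, ∃ f' ∈ F', f ≠ 1 ∧ f' ≠ 1 ∧ f * f' ≠ 1 ∧ ∀ E : Subgroup G, f * f' ∈ E → ¬ IsRankOnePair E D := by
  obtain ⟨d, hd, hd1⟩ := exists_ne_one_of_ne_bot (rk_right_ne_bot h)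
  obtain ⟨f, hf, hf1, he⟩ := rk_exists_left h hd hd1
  obtain ⟨f', hf', hf1', he'⟩ := rk_exists_left h' hd hd1
  have hne' : f⁻¹ * f' ≠ 1 := by
    intro h1
    rw [inv_mul_eq_one.1 h1, ← he'] at he
    exact hne (conjBy_inj.1 he)
  refine ⟨f⁻¹, F.inv_mem hf, f', hf', inv_ne_one.2 hf1, hf1', hne', fun E hE hr => ?_⟩
  refine rk_comm_ne_bot (rk_conjBy_self (RankOnePair_symm hr) hE hne') ?_
  have h1 := comm_bot_conjBy (comm_bot_conjBy hc d) f⁻¹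
  rwa [he, he', conjBy_conjBy_inv, conjBy_conjBy] at h1

/-! ### Quadruples `A, B, C = ⁅A, B⁆, D` with `⁅D, C⁆ = A` -/

theorem quad_rk (hS : IsRootSubgroupSet S) (hA : A ∈ S) (hB : B ∈ S) (hC : ⁅A, B⁆ ∈ S) (hD : D ∈ S)
    (hDC : ⁅D, ⁅A, B⁆⁆ = A) : IsRankOnePair B D := by
  have hDA : ⁅D, A⁆ = ⊥ := by
    have := psi_comm_left hS hD hC (hDC.symm ▸ hA)
    rwa [hDC] at this
  rcases rs_tri hS hB hD with h | h | h
  · exact absurd (hDC ▸ comm_comm_bot hDA (comm_bot_symm h)) (hS.ne_bot A hA)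
  · exact h
  · exfalso
    obtain ⟨n, hn⟩ := (Subgroup.isNilpotent_iff_lowerCentralSeries _).1
      (tri_isNilpotent hS hA hB hD hC (psi_symm h) (comm_bot_symm hDA))
    have key : ∀ n, A ≤ (A ⊔ B ⊔ D).lowerCentralSeries n ∧ ⁅A, B⁆ ≤ (A ⊔ B ⊔ D).lowerCentralSeries n := by
      intro n
      induction n with
      | zero => exact ⟨le_sup_left.trans le_sup_left, (Subgroup.commutator_le_sup A B).trans le_sup_left⟩
      | succ n ih =>
        rw [Subgroup.lowerCentralSeries_succ]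
        refine ⟨?_, Subgroup.commutator_mono ih.1 (le_sup_right.trans le_sup_left)⟩
        calc A = ⁅⁅A, B⁆, D⁆ := by rw [Subgroup.commutator_comm, hDC]
          _ ≤ _ := Subgroup.commutator_mono ih.2 le_sup_right
    exact hS.ne_bot A hA (le_bot_iff.1 (hn ▸ (key n).1))

end CL.Chev.Root
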