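/-
Sets of abstract root subgroups without isolated vertices: lines through a point, connectivity,
classes (Timmesfeld, Abstract root subgroups, II §2, third part).
-/
import Cfsg.Agent.Chev.RootLine

set_option autoImplicit false

namespace CL.Chev.Root

open Cfsg
open scoped commutatorElement

variable {G : Type*} [Group G] {S : Set (Subgroup G)} {A B C D : Subgroup G}

/-- If `B` is a rank one partner of `A` and `F` commutes with `A`, lies on a line with `A` and is in the commutator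
case with `B`, then `⁅A, ⁅B, F⁆⁆ = F`. -/
theorem comm_comm_eq_of_line (hS : IsRootSubgroupSet S) (hNI : ∀ E ∈ S, NI S E) (hA : A ∈ S) (hB : B ∈ S)
    (h : IsRankOnePair A B) {F : Subgroup G} (hF : F ∈ S) (hFA : ⁅F, A⁆ = ⊥) (hBF : ⁅B, F⁆ ∈ S)
    (hcov : ∀ a ∈ A, ∀ f ∈ F, ∃ E ∈ S, f * a ∈ E) : ⁅A, ⁅B, F⁆⁆ = F := by
  set F' := ⁅B, F⁆ with hF'
  have hFB : ⁅F, B⁆ = F' := Subgroup.commutator_comm _ _
  have hBF' : ⁅B, F'⁆ = ⊥ := psi_comm_left hS hB hF hBF
  have hFF' : ⁅F, F'⁆ = ⊥ := psi_comm_right hS hB hF hBF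
  obtain ⟨b, hb, hb1⟩ := rs_exists_ne_one hS hB
  obtain ⟨a, ha, ha1, hab⟩ := rk_exists_left h (B.inv_mem hb) (inv_ne_one.2 hb1)
  have hFa : ∀ a ∈ A, conjBy F a = F := fun a ha =>
    conjBy_of_commute fun f hf => (comm_bot_iff.1 hFA f hf a ha).symm
  have hFb := hS.conj_mem F hF b
  have e1 : ⁅A, conjBy F b⁆ = conjBy (conjBy F' a) b := by
    rw [hF', conjBy_commutator, conjBy_commutator, ← hab, conjBy_inv_conjBy, hFa a ha]
  have h1 : ⁅A, conjBy F b⁆ ∈ S := e1 ▸ hS.conj_mem _ (hS.conj_mem _ hBF a) b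
  have hsup : F ⊔ conjBy F b = F ⊔ F' := hFB ▸ psi_sup_conjBy hS hF hB (psi_symm hBF) hb hb1
  have hFFb : ⁅F, conjBy F b⁆ = ⊥ := psi_comm_conjBy hS hF hB (psi_symm hBF) hb
  have h2 : ⁅A, F'⁆ ∈ S := by
    rcases rs_tri hS hA hBF with h2 | h2 | h2
    · refine absurd (comm_bot_mono (comm_sup_bot (comm_bot_symm hFA) h2) le_rfl ?_) (hS.ne_bot _ h1)
      rw [← hsup]; exact le_sup_right
    · exfalso
      have hc : ⁅A ⊔ conjBy F b, F⁆ = ⊥ := sup_comm_bot (comm_bot_symm hFA) (comm_bot_symm hFFb)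
      refine rk_not_isNilpotent h2 (H := (A ⊔ conjBy F b) ⊔ F) (le_sup_left.trans le_sup_left) ?_
        (isNilpotent_of_class_two (class_two_sup (K := ⁅A ⊔ conjBy F b, A ⊔ conjBy F b⁆)
          (comm_sup_bot (psi_class_two hS hA hFb h1) (comm_bot_mono hc (Subgroup.commutator_le_self _) le_rfl))
          le_rfl (by rw [hc]; exact bot_le) (by rw [rs_comm_self hS hF]; exact bot_le)))
      refine le_sup_right.trans (hsup.symm.le.trans (sup_le le_sup_right (le_sup_right.trans le_sup_left)))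
    · exact h2
  set G₀ := ⁅A, F'⁆ with hG₀
  have hcalc : ∀ a' ∈ A, ∀ f ∈ F, ⁅a', ⁅b, f⁆⁆ = ⁅a', b * f * b⁻¹⁆ := by
    intro a' ha' f hf
    rw [commutatorElement_def b f, commutatorElement_mul_right_eq_mul_conj,
      commutatorElement_eq_one_iff_mul_comm.2 (comm_bot_iff.1 hFA _ (F.inv_mem hf) a' ha').symm]
    group
  obtain ⟨f, hf, hf1⟩ := rs_exists_ne_one hS hF
  have hbf1 : ⁅b, f⁆ ≠ 1 := fun h1 =>
    hf1 ((hNI B hB).psi_eq_one hS hB hF hBF hb hb1 hf (commutatorElement_eq_one_iff_mul_comm.1 h1))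
  have hbf : ⁅b, f⁆ ∈ F' := Subgroup.commutator_mem_commutator hb hf
  have e2 : G₀ = ⁅A, conjBy F b⁆ := by
    refine (hNI G₀ h2).eq_of_mem hS h2 h1 (x := ⁅a, ⁅b, f⁆⁆) (Subgroup.commutator_mem_commutator ha hbf) ?_ ?_
    · rw [hcalc a ha f hf]
      exact Subgroup.commutator_mem_commutator ha (conj_mem_conjBy hf b)
    · exact fun h1 => hbf1 ((hNI A hA).psi_eq_one hS hA hBF h2 ha ha1 hbf
        (commutatorElement_eq_one_iff_mul_comm.1 h1))
  have e3 : conjBy G₀ b⁻¹ = conjBy F' a := by rw [e2, e1, conjBy_conjBy_inv]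
  have hAG : ⁅A, G₀⁆ = ⊥ := psi_comm_left hS hA hBF h2
  have hF'G : ⁅F', G₀⁆ = ⊥ := psi_comm_right hS hA hBF h2
  have hF'A : ⁅F', A⁆ = G₀ := Subgroup.commutator_comm _ _
  have hle : conjBy F' a ≤ F' ⊔ G₀ := hF'A ▸ psi_conjBy_le hBF ha
  have hne : conjBy F' a ≠ G₀ := by
    intro he
    rw [conjBy_eq_iff_eq_conjBy_inv, conjBy_of_commute (comm_bot_iff.1 hAG _ (A.inv_mem ha))] at he
    exact psi_ne_left hS hBF hA (psi_symm h2) (hF'A.trans he.symm)
  have h4 : ⁅G₀, B⁆ ∈ S := by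
    rcases rs_tri hS h2 hB with h4 | h4 | h4
    · refine absurd ?_ hne
      rw [← e3]
      exact conjBy_of_commute fun g hg => (comm_bot_iff.1 h4 g hg _ (B.inv_mem hb)).symm
    · refine absurd ?_ (rk_comm_ne_bot (rk_conjBy_self h4 (B.inv_mem hb) (inv_ne_one.2 hb1)))
      rw [e3]
      exact comm_bot_mono (line_comm hS hBF h2 hF'G) le_sup_right hle
    · exact h4
  have h4' := psi_symm h4
  have h5 : ⁅B, G₀⁆ = F' := by
    refine ((hNI F' hBF).eq_of_le hS hBF h4' fun c hc => ?_).symm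
    obtain ⟨g, hg, rfl⟩ := psi_surj_right hS hB h2 h4' (B.inv_mem hb) (inv_ne_one.2 hb1) hc
    have hm : ⁅b⁻¹, g⁆ ∈ F' ⊔ G₀ := by
      rw [commutatorElement_def]
      exact Subgroup.mul_mem _ (hle (e3 ▸ conj_mem_conjBy hg b⁻¹)) (Subgroup.mem_sup_right (G₀.inv_mem hg))
    obtain ⟨f', hf', g', hg', he⟩ := (mem_sup_of_comm hF'G).1 hm
    by_cases hg1 : g' = 1
    · rw [he, hg1, mul_one]; exact hf'
    · refine absurd (comm_bot_of_elt hS h2 hB hg' hg1 fun b' hb' => ?_) (hS.ne_bot _ h4)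
      have := comm_bot_iff.1 (psi_comm_left hS hB h2 h4') b' hb' _ hc
      rw [he, ← mul_assoc, comm_bot_iff.1 hBF' b' hb' f' hf', mul_assoc, mul_assoc] at this
      exact (mul_left_cancel this).symm
  obtain ⟨g, hg, hbg⟩ := psi_surj_right hS hB h2 h4' hb hb1 (h5.symm ▸ hbf)
  have hFG : ⁅F, G₀⁆ = ⊥ := comm_comm_bot hFA hFF'
  by_cases hz : g⁻¹ * f = 1
  · exact (hNI G₀ h2).eq_of_mem hS h2 hF (inv_mul_eq_one.1 hz ▸ hg) hf hf1
  exfalso
  have hzA : ∀ a' ∈ A, g⁻¹ * f * a' = a' * (g⁻¹ * f) := fun a' ha' => by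
    rw [mul_assoc, comm_bot_iff.1 hFA f hf a' ha', ← mul_assoc, ← comm_bot_iff.1 hAG a' ha' _ (G₀.inv_mem hg),
      mul_assoc]
  have hzb : g⁻¹ * f * b = b * (g⁻¹ * f) := by
    rw [commutatorElement_def, commutatorElement_def] at hbg
    have h0 : g * b⁻¹ * g⁻¹ = f * b⁻¹ * f⁻¹ := by
      apply mul_left_cancel (a := b); simpa only [mul_assoc] using hbg
    calc g⁻¹ * f * b = g⁻¹ * (f * b⁻¹ * f⁻¹)⁻¹ * f := by group
      _ = g⁻¹ * (g * b⁻¹ * g⁻¹)⁻¹ * f := by rw [h0]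
      _ = _ := by group
  have hzX := rk_commute_of_elt (RankOnePair_symm h) hb hb1 hzb hzA
  obtain ⟨f', hf', hag⟩ := psi_exists_conj hS hA hBF h2 ha ha1 hg
  have hzf' : g⁻¹ * f * f' = f' * (g⁻¹ * f) := by
    rw [mul_assoc, comm_bot_iff.1 hFF' f hf f' hf', ← mul_assoc, ← comm_bot_iff.1 hF'G f' hf' _ (G₀.inv_mem hg),
      mul_assoc]
  have hr : IsRankOnePair (conjBy A f') B := by
    have := rk_conjBy h f'
    rwa [conjBy_of_commute (A := B) fun b' hb' => (comm_bot_iff.1 hBF' b' hb' f' hf').symm] at this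
  obtain ⟨E, hE, hfa⟩ := hcov a ha f hf
  refine not_mem_of_central hS (hS.conj_mem A hA f') hB hr (z := g⁻¹ * f) (a := f' * a * f'⁻¹)
    (commute_sup ?_ fun b' hb' => hzX b' (Subgroup.mem_sup_left hb')) hz (conj_mem_conjBy ha f')
    (by simpa using ha1) hE ?_
  · intro x hx
    obtain ⟨a', ha', rfl⟩ := mem_conjBy_iff_exists.1 hx
    exact ((Commute.mul_right (Commute.mul_right hzf' (hzA a' ha')) (Commute.inv_right hzf')))
  · rw [← hag, comm_bot_iff.1 hAG a ha g hg, mul_assoc, ← mul_assoc f, comm_bot_iff.1 hFG f hf g hg]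
    simpa [mul_assoc] using hfa

/-- On every line through `A` there is a point `F` in the commutator case with a given rank one partner `D` of `A`;
it satisfies `⁅A, ⁅D, F⁆⁆ = F` and spans the line together with `A`. -/
theorem exists_psi_on_line (hS : IsRootSubgroupSet S) (hNI : ∀ E ∈ S, NI S E) (hA : A ∈ S) (hD : D ∈ S)
    (h : IsRankOnePair A D) {P : Subgroup G} (hP : P ∈ linePartners S A) :
    ∃ F ∈ linePartners S A, ⁅D, F⁆ ∈ S ∧ ⁅A, ⁅D, F⁆⁆ = F ∧ A ⊔ F = A ⊔ P := by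
  have hcov := covered_of_line hA hP
  have hPS := hP.1.1
  have hLc := line_comm hS hA hPS hP.1.2.2
  have key : ∀ F ∈ S, F ≤ A ⊔ P → ⁅D, F⁆ ∈ S → ⁅A, ⁅D, F⁆⁆ = F := fun F hF hFL hDF =>
    comm_comm_eq_of_line hS hNI hA hD h hF (comm_bot_mono hLc hFL le_sup_left) hDF fun a ha f hf => by
      obtain ⟨E, hE, -, hx⟩ := hcov (f * a) (Subgroup.mul_mem _ (hFL hf) (Subgroup.mem_sup_left ha))
      exact ⟨E, hE, hx⟩
  rcases rs_tri hS hPS hD with h1 | h1 | h1
  · exact absurd h1 (hcov.comm_ne_bot hS hLc hA le_sup_left hD h hPS le_sup_right)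
  · obtain ⟨f, hf, f', hf', -, hf1', -, hn⟩ := exists_not_rk_of_comm h h1 hP.1.2.2 hP.1.2.1.symm
    obtain ⟨F, hF, hFL, hff⟩ := hcov (f * f') (Subgroup.mul_mem_sup hf hf')
    have hDF : ⁅D, F⁆ ∈ S := by
      rcases rs_tri hS hF hD with h2 | h2 | h2
      · exact absurd h2 (hcov.comm_ne_bot hS hLc hA le_sup_left hD h hF hFL)
      · exact absurd h2 (hn F hff)
      · exact psi_symm h2
    have hk := key F hF hFL hDF
    have hsup : A ⊔ F = A ⊔ P := by
      refine le_antisymm (sup_le le_sup_left hFL) (sup_le le_sup_left ?_)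
      have hc := psi_covered hS hA hDF (hk.symm ▸ hF)
      rw [hk] at hc
      have hm : f' ∈ A ⊔ F := by
        have := Subgroup.mul_mem_sup (A.inv_mem hf) hff
        rwa [inv_mul_cancel_left] at this
      obtain ⟨E, hE, hEL, hx⟩ := hc f' hm
      rw [(hNI P hPS).eq_of_mem hS hPS hE hf' hx hf1']
      exact hEL
    refine ⟨F, line_of_sup_eq hP hF ?_ (comm_bot_mono hLc le_sup_left hFL) hsup, hDF, hk, hsup⟩
    rintro rfl
    exact hn F hff h
  · exact ⟨P, hP, psi_symm h1, key P hPS le_sup_right (psi_symm h1), rfl⟩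

/-- Every point of a line through `A` other than `A` has `A` as a commutator. -/
theorem line_exists_comm_eq (hS : IsRootSubgroupSet S) (hNI : ∀ E ∈ S, NI S E) (hA : A ∈ S) {P : Subgroup G}
    (hP : P ∈ linePartners S A) : ∃ A' ∈ S, ⁅P, A'⁆ = A := by
  obtain ⟨D, hD, h⟩ := hNI A hA
  obtain ⟨F, hF, hDF, hk, hsup⟩ := exists_psi_on_line hS hNI hA hD h hP
  have hFS := hF.1.1
  obtain ⟨D₂, hD₂, h₂⟩ := hNI F hFS
  obtain ⟨F₂, hF₂, hDF₂, hk₂, hsup₂⟩ := exists_psi_on_line hS hNI hFS hD₂ h₂ (line_symm hA hF)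
  have hx₀ := (hNI A hA).psi_points hS hA hDF (hk.symm ▸ hFS) hF₂.1.1 (by
    rw [hk, sup_comm, ← hsup₂]; exact le_sup_right)
  rw [hk] at hx₀
  obtain ⟨x, hx, rfl⟩ := hx₀.resolve_left hF₂.1.2.1
  have hFx : conjBy F x⁻¹ = F :=
    conjBy_of_commute fun f hf => (comm_bot_iff.1 (psi_comm_right hS hD hFS hDF) f hf _ (Subgroup.inv_mem _ hx)).symm
  have hA'' := hS.conj_mem _ hDF₂ x⁻¹
  have e1 : ⁅F, conjBy ⁅D₂, conjBy A x⁆ x⁻¹⁆ = A := by
    rw [← hFx, ← conjBy_commutator, hk₂, conjBy_conjBy_inv]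
  have hy₀ := (hNI F hFS).psi_points hS hFS hA'' (e1.symm ▸ hA) hP.1.1 (by
    rw [e1, sup_comm, hsup]; exact le_sup_right)
  rw [e1] at hy₀
  obtain ⟨y, hy, rfl⟩ := hy₀.resolve_left hP.1.2.1
  refine ⟨_, hA'', ?_⟩
  have := psi_conjBy_comm hS hFS hA'' (e1.symm ▸ hA) hy
  rwa [conjBy_commutator, conjBy_of_mem hy, e1] at this

/-- Two different points of a line span it. -/
theorem line_sup_eq (hS : IsRootSubgroupSet S) (hNI : ∀ E ∈ S, NI S E) (hA : A ∈ S) (hB : B ∈ linePartners S A)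
    {P Q : Subgroup G} (hP : P ∈ membersIn S (A ⊔ B)) (hQ : Q ∈ membersIn S (A ⊔ B)) (hne : P ≠ Q) :
    P ⊔ Q = A ⊔ B := by
  obtain ⟨A', hA', he⟩ := line_exists_comm_eq hS hNI hA hB
  have hBS := hB.1.1
  have hC : ⁅B, A'⁆ ∈ S := he.symm ▸ hA
  have hL : A ⊔ B = B ⊔ ⁅B, A'⁆ := by rw [he, sup_comm]
  rw [hL] at hP hQ ⊢
  have key : ∀ x ∈ A', conjBy B x ⊔ ⁅B, A'⁆ = B ⊔ ⁅B, A'⁆ := fun x hx => by
    conv_rhs => rw [← psi_conjBy_line hS hBS hA' hC hx, conjBy_sup, psi_conjBy_comm hS hBS hA' hC hx]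
  rcases (hNI B hBS).psi_points hS hBS hA' hC hP.1 hP.2 with h1 | ⟨x, hx, h1⟩ <;>
    rcases (hNI B hBS).psi_points hS hBS hA' hC hQ.1 hQ.2 with h2 | ⟨y, hy, h2⟩
  · exact absurd (h1.trans h2.symm) hne
  · rw [h1, h2, sup_comm, key y hy]
  · rw [h1, h2, key x hx]
  · have hxy := A'.mul_mem (A'.inv_mem hx) hy
    have h3 : x⁻¹ * y ≠ 1 := fun h => hne (by rw [h1, h2, inv_mul_eq_one.1 h])
    rw [← psi_conjBy_line hS hBS hA' hC hx, ← psi_sup_conjBy hS hBS hA' hC hxy h3, conjBy_sup, conjBy_conjBy,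
      mul_inv_cancel_left, h1, h2]

theorem line_mem_of_points (hS : IsRootSubgroupSet S) (hNI : ∀ E ∈ S, NI S E) (hA : A ∈ S)
    (hB : B ∈ linePartners S A) {P Q : Subgroup G} (hP : P ∈ membersIn S (A ⊔ B)) (hQ : Q ∈ membersIn S (A ⊔ B))
    (hne : P ≠ Q) : Q ∈ linePartners S P :=
  line_of_sup_eq hB hQ.1 hne.symm (comm_bot_mono (line_comm hS hA hB.1.1 hB.1.2.2) hP.2 hQ.2)
    (line_sup_eq hS hNI hA hB hP hQ hne)

/-- For points `P, P' ≠ Q` of a line some member of `S` normalising the line and centralising `Q` contains an element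
carrying `P` to `P'`. -/
theorem line_exists_conj (hS : IsRootSubgroupSet S) (hNI : ∀ E ∈ S, NI S E) (hA : A ∈ S)
    (hB : B ∈ linePartners S A) {P P' Q : Subgroup G} (hP : P ∈ membersIn S (A ⊔ B))
    (hP' : P' ∈ membersIn S (A ⊔ B)) (hQ : Q ∈ membersIn S (A ⊔ B)) (hne : P ≠ Q) (hne' : P' ≠ Q) :
    ∃ E ∈ S, ⁅P, E⁆ = Q ∧ (∀ x ∈ E, conjBy (A ⊔ B) x = A ⊔ B) ∧ ∃ x ∈ E, conjBy P x = P' ∧ conjBy Q x = Q := by
  obtain ⟨E, hE, he⟩ := line_exists_comm_eq hS hNI hQ.1 (line_mem_of_points hS hNI hA hB hQ hP hne.symm)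
  have hC : ⁅P, E⁆ ∈ S := he.symm ▸ hQ.1
  have hL : P ⊔ ⁅P, E⁆ = A ⊔ B := by rw [he]; exact line_sup_eq hS hNI hA hB hP hQ hne
  refine ⟨E, hE, he, fun x hx => hL ▸ psi_conjBy_line hS hP.1 hE hC hx, ?_⟩
  have hx₀ := (hNI P hP.1).psi_points hS hP.1 hE hC hP'.1 (hL.symm ▸ hP'.2)
  rw [he] at hx₀
  obtain ⟨x, hx, rfl⟩ := hx₀.resolve_left hne'
  exact ⟨x, hx, rfl, he ▸ psi_conjBy_comm hS hP.1 hE hC hx⟩

/-- A line has a third point. -/
theorem line_exists_third (hS : IsRootSubgroupSet S) (hNI : ∀ E ∈ S, NI S E) (hA : A ∈ S)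
    (hB : B ∈ linePartners S A) {P Q : Subgroup G} (hP : P ∈ membersIn S (A ⊔ B)) (hQ : Q ∈ membersIn S (A ⊔ B))
    (hne : P ≠ Q) : ∃ T ∈ membersIn S (A ⊔ B), T ≠ P ∧ T ≠ Q := by
  obtain ⟨p, hp, hp1⟩ := rs_exists_ne_one hS hP.1
  obtain ⟨q, hq, hq1⟩ := rs_exists_ne_one hS hQ.1
  obtain ⟨T, hT, hTL, hx⟩ := covered_of_line hA hB (p * q) (Subgroup.mul_mem _ (hP.2 hp) (hQ.2 hq))
  refine ⟨T, ⟨hT, hTL⟩, ?_, ?_⟩
  · rintro rfl
    exact hne ((hNI T hT).eq_of_mem hS hT hQ.1 ((T.mul_mem_cancel_left hp).1 hx) hq hq1)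
  · rintro rfl
    exact hne ((hNI P hP.1).eq_of_mem hS hP.1 hT hp ((T.mul_mem_cancel_right hq).1 hx) hp1)

/-- If `A`, `C` are in the commutator case, some rank one partner of `A` commutes with `C`. -/
theorem exists_rk_comm_of_psi (hS : IsRootSubgroupSet S) (hNI : ∀ E ∈ S, NI S E) (hA : A ∈ S) (hC : C ∈ S)
    (h : ⁅A, C⁆ ∈ S) : ∃ D ∈ S, IsRankOnePair A D ∧ ⁅C, D⁆ = ⊥ := by
  have h' := psi_symm h
  obtain ⟨D, hD, he⟩ := line_exists_comm_eq hS hNI hC
    (line_symm h' ((hNI C hC).psi_mem_line hS hC hA h'))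
  refine ⟨D, hD, quad_rk hS hC hA h' hD (by rwa [Subgroup.commutator_comm]), ?_⟩
  have := psi_comm_right hS h' hD (he.symm ▸ hC)
  rw [he] at this
  exact comm_bot_symm this

/-! ### Connectivity of the graph of rank one pairs -/

theorem fadj_symm (h : FAdj S A B) : FAdj S B A := ⟨h.2.1, h.1, RankOnePair_symm h.2.2⟩

theorem fconn_symm (h : Relation.ReflTransGen (FAdj S) A B) : Relation.ReflTransGen (FAdj S) B A := by
  induction h with
  | refl => exact .refl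
  | tail _ h ih => exact .head (fadj_symm h) ih

theorem fconn_conjBy (hS : IsRootSubgroupSet S) (h : Relation.ReflTransGen (FAdj S) A B) (g : G) :
    Relation.ReflTransGen (FAdj S) (conjBy A g) (conjBy B g) := by
  induction h with
  | refl => exact .refl
  | tail _ h ih => exact .tail ih ⟨hS.conj_mem _ h.1 g, hS.conj_mem _ h.2.1 g, rk_conjBy h.2.2 g⟩

theorem ni_of_fconn (h : Relation.ReflTransGen (FAdj S) A B) (hne : A ≠ B) : NI S A := by
  rcases h.cases_head with h | ⟨D, h, -⟩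
  · exact absurd h hne
  · exact ⟨D, h.2.1, h.2.2⟩

theorem exists_conj_of_fconn (h : Relation.ReflTransGen (FAdj S) A B) : ∃ g : G, B = conjBy A g := by
  induction h with
  | refl => exact ⟨1, (conjBy_one A).symm⟩
  | tail _ h ih =>
    obtain ⟨g, rfl⟩ := ih
    obtain ⟨x, -, hx⟩ := rk_exists_conjBy_eq h.2.2
    exact ⟨x * g, by rw [← hx, conjBy_conjBy]⟩

/-- Induction over the group generated by `S`. -/
theorem rs_induction (hS : IsRootSubgroupSet S) {p : G → Prop} (h1 : p 1) (hm : ∀ E ∈ S, ∀ e ∈ E, p e)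
    (hmul : ∀ x y, p x → p y → p (x * y)) (g : G) : p g := by
  have hg : g ∈ ⨆ E : S, (E : Subgroup G) := by
    have := hS.generates
    rw [iSup_subtype'] at this
    exact this.symm ▸ Subgroup.mem_top g
  exact Subgroup.iSup_induction _ (C := p) hg (fun E e he => hm E E.2 e he) h1 hmul

theorem NI.fconn_conjBy_elt (hS : IsRootSubgroupSet S) (hA : A ∈ S) (h : NI S A) {E : Subgroup G} (hE : E ∈ S)
    {e : G} (he : e ∈ E) : Relation.ReflTransGen (FAdj S) A (Cfsg.conjBy A e) := by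
  have hAe := hS.conj_mem A hA e
  by_cases he1 : e = 1
  · rw [he1, conjBy_one]
  rcases rs_tri hS hA hE with h1 | h1 | h1
  · rw [conjBy_of_commute fun a ha => (comm_bot_iff.1 h1 a ha e he).symm]
  · exact .single ⟨hA, hAe, rk_conjBy_self h1 he he1⟩
  obtain ⟨D, hD, h⟩ := h
  have hcov := psi_covered hS hA hE h1
  have hLc := psi_line_comm hS hA hE h1
  rcases rs_tri hS hAe hD with h2 | h2 | h2
  · exact absurd h2 (hcov.comm_ne_bot hS hLc hA le_sup_left hD h hAe (psi_conjBy_le hA he))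
  · exact .head ⟨hA, hD, h⟩ (.single ⟨hD, hAe, RankOnePair_symm h2⟩)
  rcases rs_tri hS h1 hD with h3 | h3 | h3
  · exact absurd h3 (hcov.comm_ne_bot hS hLc hA le_sup_left hD h h1 le_sup_right)
  · have h4 : Relation.ReflTransGen (FAdj S) A ⁅A, E⁆ :=
      .head ⟨hA, hD, h⟩ (.single ⟨hD, h1, RankOnePair_symm h3⟩)
    have h5 := fconn_conjBy hS h4 e
    rw [psi_conjBy_comm hS hA hE h1 he] at h5
    exact h4.trans (fconn_symm h5)
  · exfalso
    obtain ⟨a, ha, ha1⟩ := rs_exists_ne_one hS hA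
    refine not_psi_psi hS hD h hAe h1 (comm_bot_mono hLc (psi_conjBy_le hA he) le_sup_right) ha ha1 ?_ h2 h3
    rw [← psi_conjBy_comm hS hA hE h1 he, ← conjBy_sup, psi_conjBy_line hS hA hE h1 he]
    exact Subgroup.mem_sup_left ha

/-- Components of size at least two are invariant under `G`. -/
theorem NI.fconn_conjBy (hS : IsRootSubgroupSet S) (hA : A ∈ S) (h : NI S A) (g : G) :
    Relation.ReflTransGen (FAdj S) A (Cfsg.conjBy A g) := by
  refine rs_induction hS (p := fun g => ∀ A ∈ S, NI S A → Relation.ReflTransGen (FAdj S) A (Cfsg.conjBy A g))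
    (fun A _ _ => by rw [conjBy_one]) (fun E hE e he A hA h => h.fconn_conjBy_elt hS hA hE he)
    (fun x y hx hy A hA h => ?_) g A hA h
  rw [← conjBy_conjBy]
  exact (hy A hA h).trans (hx _ (hS.conj_mem A hA y) (h.conjBy hS y))

theorem ni_of_class (hS : IsRootSubgroupClass S) (hA : A ∈ S) (hB : B ∈ S) (h : IsRankOnePair A B) :
    ∀ E ∈ S, NI S E := by
  intro E hE
  obtain ⟨g, rfl⟩ := hS.2.2 A hA E hE
  exact NI.conjBy hS.1 ⟨B, hB, h⟩ g

theorem class_of_connected (hS : IsRootSubgroupSet S) (hA : A ∈ S) (hc : IsConnectedFamily (FAdj S) S) :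
    IsRootSubgroupClass S :=
  ⟨hS, ⟨A, hA⟩, fun A hA B hB => exists_conj_of_fconn (hc A hA B hB)⟩

theorem ni_of_connected (h2 : ∃ A ∈ S, ∃ B ∈ S, A ≠ B) (hc : IsConnectedFamily (FAdj S) S) :
    ∀ E ∈ S, NI S E := by
  intro E hE
  obtain ⟨A, hA, B, hB, hne⟩ := h2
  by_cases h : E = A
  · exact ni_of_fconn (hc E hE B hB) (h ▸ hne)
  · exact ni_of_fconn (hc E hE A hA) h

/-- An invariant preorder under which comparable members are never rank one pairs is symmetric on commuting pairs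
with a common rank one partner. -/
theorem preorder_symm {r : Subgroup G → Subgroup G → Prop} (htrans : ∀ E F K, r E F → r F K → r E K)
    (hconj : ∀ E F g, r E F → r (conjBy E g) (conjBy F g)) (hrk : ∀ g : G, r (conjBy D g) D → ¬ IsRankOnePair D (conjBy D g))
    (hAC : ⁅A, C⁆ = ⊥) (hAD : IsRankOnePair A D) (hCD : IsRankOnePair C D) (h : r A C) : r C A := by
  have hT : ∀ a ∈ A, a ≠ 1 → ∃ d : G, ∃ c ∈ C, conjBy A d = conjBy D a ∧ conjBy C d = conjBy D c ∧
      r (conjBy D (c⁻¹ * a)) D := by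
    intro a ha ha1
    obtain ⟨d, hd, hd1, he⟩ := rk_exists_right hAD ha ha1
    obtain ⟨c, hc, -, he'⟩ := rk_exists_left hCD hd hd1
    refine ⟨d, c, hc, he, he', ?_⟩
    have := hconj _ _ c⁻¹ (hconj _ _ d h)
    rwa [he, he', conjBy_conjBy_inv, conjBy_conjBy] at this
  obtain ⟨a, ha, ha1⟩ := exists_ne_one_of_ne_bot (rk_left_ne_bot hAD)
  obtain ⟨d, c, hc, e1, e2, h1⟩ := hT a ha ha1
  obtain ⟨d', c', hc', -, -, h2⟩ := hT a⁻¹ (A.inv_mem ha) (inv_ne_one.2 ha1)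
  have h3 := htrans _ _ _ (hconj _ _ (c⁻¹ * a) h2) h1
  have hac := comm_bot_iff.1 hAC a ha
  have e3 : c⁻¹ * a * (c'⁻¹ * a⁻¹) = c⁻¹ * c'⁻¹ := by
    rw [mul_assoc, ← mul_assoc a, hac _ (C.inv_mem hc')]; group
  rw [conjBy_conjBy, e3] at h3
  have h4 : c⁻¹ * c'⁻¹ = 1 := by
    by_contra hne
    exact hrk _ h3 (rk_conjBy_self (RankOnePair_symm hCD) (C.mul_mem (C.inv_mem hc) (C.inv_mem hc')) hne)
  have h5 := hconj _ _ d⁻¹ (hconj _ _ a h2)
  have e4 : a * (c'⁻¹ * a⁻¹) = c := by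
    rw [← inv_mul_eq_one.1 h4, ← mul_assoc, hac c hc]; group
  rwa [conjBy_conjBy D, e4, ← e1, ← e2, conjBy_conjBy_inv, conjBy_conjBy_inv] at h5

/-- A rank one pair normalising an abelian subgroup on which `A` acts quadratically and `⟨A, B⟩` non-trivially (in
the sense `[M, X, X] ≠ 1`) is special. -/
theorem special_of_abelian_normal (h : IsRankOnePair A B) {M : Subgroup G} (hM : ⁅M, M⁆ = ⊥)
    (hn : ∀ x ∈ A ⊔ B, conjBy M x = M) (hq : ∀ a ∈ A, ∀ a' ∈ A, ∀ m ∈ M, a' * ⁅a, m⁆ = ⁅a, m⁆ * a')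
    (hX : ∃ x ∈ A ⊔ B, ∃ y ∈ A ⊔ B, ∃ m ∈ M, y * ⁅x, m⁆ ≠ ⁅x, m⁆ * y) : IsSpecialRankOnePair A B := by
  have hMc := comm_bot_iff.1 hM
  let _ : CommGroup M := { (inferInstance : Group M) with mul_comm := fun x y => Subtype.ext (hMc _ x.2 _ y.2) }
  have hmem : ∀ (x : ↥(A ⊔ B)) (m : M), (x : G) * m * (x : G)⁻¹ ∈ M := fun x m => by
    have := conj_mem_conjBy m.2 (x : G)
    rwa [hn x x.2] at this
  let _ : DistribMulAction ↥(A ⊔ B) (Additive M) :=
    { smul := fun x m => Additive.ofMul ⟨(x : G) * (Additive.toMul m : M) * (x : G)⁻¹, hmem x _⟩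
      one_smul := fun m => by
        change Additive.ofMul _ = m
        simp
      mul_smul := fun x y m => by
        change Additive.ofMul _ = Additive.ofMul _
        congr 1
        apply Subtype.ext
        change ((x * y : ↥(A ⊔ B)) : G) * _ * _ = (x : G) * ((y : G) * _ * (y : G)⁻¹) * _
        simp [mul_assoc]
      smul_zero := fun x => by
        change Additive.ofMul _ = 0
        simp
      smul_add := fun x m m' => by
        change Additive.ofMul _ = Additive.ofMul _ + Additive.ofMul _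
        rw [← ofMul_mul]
        congr 1
        apply Subtype.ext
        simp [mul_assoc] }
  have hval : ∀ (x : ↥(A ⊔ B)) (m : Additive M),
      ((Additive.toMul (x • m) : M) : G) = (x : G) * (Additive.toMul m : M) * (x : G)⁻¹ := fun _ _ => rfl
  have hsub : ∀ (x : ↥(A ⊔ B)) (m : Additive M),
      ((Additive.toMul (x • m - m) : M) : G) = ⁅(x : G), ((Additive.toMul m : M) : G)⁆ := fun x m => by
    rw [toMul_sub, div_eq_mul_inv, Subgroup.coe_mul, Subgroup.coe_inv, hval, commutatorElement_def]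
  have hiff : ∀ (x y : ↥(A ⊔ B)) (m : Additive M), y • (x • m - m) = x • m - m ↔
      (y : G) * ⁅(x : G), ((Additive.toMul m : M) : G)⁆ = ⁅(x : G), ((Additive.toMul m : M) : G)⁆ * y := by
    intro x y m
    rw [← Additive.toMul.injective.eq_iff, ← Subtype.coe_inj, hval, hsub, mul_inv_eq_iff_eq_mul]
  refine special_of_subgroupOf h le_sup_left le_sup_right
    (Quad.special (N := Additive M) (rkg_subgroupOf h) (fun a ha a' ha' m => ?_) ?_)
  · exact (hiff a a' m).2 (hq _ ha _ ha' _ (Additive.toMul m).2)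
  · obtain ⟨x, hx, y, hy, m, hm, hne⟩ := hX
    exact ⟨⟨x, hx⟩, ⟨y, hy⟩, Additive.ofMul ⟨m, hm⟩, fun he => hne ((hiff _ _ _).1 he)⟩

/-- The rank one pair of a quadruple is special. -/
theorem quad_special (hS : IsRootSubgroupSet S) (hA : A ∈ S) (hB : B ∈ S) (hC : ⁅A, B⁆ ∈ S) (hD : D ∈ S)
    (hDC : ⁅D, ⁅A, B⁆⁆ = A) : IsSpecialRankOnePair B D := by
  have hr := quad_rk hS hA hB hC hD hDC
  have hCD : ⁅⁅A, B⁆, D⁆ = A := by rw [Subgroup.commutator_comm, hDC]
  have hCDS : ⁅⁅A, B⁆, D⁆ ∈ S := hCD.symm ▸ hA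
  have hND : ∀ d ∈ D, conjBy (A ⊔ ⁅A, B⁆) d = A ⊔ ⁅A, B⁆ := fun d hd => by
    have := psi_conjBy_line hS hC hD hCDS hd
    rwa [hCD, sup_comm] at this
  have hBC := psi_comm_right hS hA hB hC
  refine special_of_abelian_normal hr (psi_line_comm hS hA hB hC) (fun x hx => mem_normalizer_iff_conjBy.1
    ((sup_le (fun b hb => mem_normalizer_iff_conjBy.2 (psi_conjBy_line hS hA hB hC hb))
      (fun d hd => mem_normalizer_iff_conjBy.2 (hND d hd)) :
        B ⊔ D ≤ Subgroup.normalizer ((A ⊔ ⁅A, B⁆ : Subgroup G) : Set G)) hx)) ?_ ?_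
  · intro b hb b' hb' m hm
    have : ⁅B, A ⊔ ⁅A, B⁆⁆ ≤ ⁅A, B⁆ := by
      refine Subgroup.commutator_le.2 fun b hb m hm => ?_
      obtain ⟨a, ha, c, hc, rfl⟩ := (mem_sup_of_comm (psi_comm_left hS hA hB hC)).1 hm
      rw [commutatorElement_mul_right_eq_mul_conj,
        commutatorElement_eq_one_iff_mul_comm.2 (comm_bot_iff.1 hBC b hb c hc), mul_one, mul_inv_cancel_right,
        Subgroup.commutator_comm]
      exact Subgroup.commutator_mem_commutator hb ha
    exact comm_bot_iff.1 hBC b' hb' _ (this (Subgroup.commutator_mem_commutator hb hm))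
  · obtain ⟨a, ha, ha1⟩ := rs_exists_ne_one hS hA
    obtain ⟨b, hb, hb1⟩ := rs_exists_ne_one hS hB
    obtain ⟨d, hd, hd1⟩ := rs_exists_ne_one hS hD
    refine ⟨b, Subgroup.mem_sup_left hb, d, Subgroup.mem_sup_right hd, a, Subgroup.mem_sup_left ha, fun he => ?_⟩
    have h1 : ⁅b, a⁆ ∈ ⁅A, B⁆ := by
      rw [Subgroup.commutator_comm]; exact Subgroup.commutator_mem_commutator hb ha
    have h2 := NI.psi_eq_one hS hD ⟨B, hB, RankOnePair_symm hr⟩ hC (psi_symm hCDS) hd hd1 h1 he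
    exact ha1 (NI.psi_eq_one hS hB ⟨D, hD, hr⟩ hA (psi_symm hC) hb hb1 ha
      (commutatorElement_eq_one_iff_mul_comm.1 h2))

/-- In a class in which the commutator case occurs, every member lies on a line. -/
theorem exists_line_of_class (hS : IsRootSubgroupClass S) (hNI : ∀ E ∈ S, NI S E)
    (hc : ∃ A ∈ S, ∃ B ∈ S, RootCommutatorCase S A B) (hA : A ∈ S) : ∃ P, P ∈ linePartners S A := by
  obtain ⟨A₁, hA₁, B₁, hB₁, h⟩ := hc
  obtain ⟨g, rfl⟩ := hS.2.2 _ h.1 A hA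
  exact ⟨_, line_conjBy hS.1 ((hNI A₁ hA₁).psi_mem_line hS.1 hA₁ hB₁ h.1) g⟩

theorem ni_of_nondeg (hS : IsRootSubgroupClass S) (hnd : IsNondegenerateRootSet S) : ∀ E ∈ S, NI S E := by
  obtain ⟨A, hA, B, hB, h⟩ := hnd.2.1
  exact ni_of_class hS hA hB h

theorem mem_centMembers {U E : Subgroup G} : E ∈ centralizingMembers S U ↔ E ∈ S ∧ ⁅E, U⁆ = ⊥ := by
  rw [Subgroup.commutator_eq_bot_iff_le_centralizer]; rfl

theorem centMembers_conjBy (hS : IsRootSubgroupSet S) {E F : Subgroup G} (g : G)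
    (h : centralizingMembers S E ⊆ centralizingMembers S F) :
    centralizingMembers S (conjBy E g) ⊆ centralizingMembers S (conjBy F g) := by
  intro K hK
  rw [mem_centMembers] at hK ⊢
  have h1 := comm_bot_conjBy hK.2 g⁻¹
  rw [conjBy_conjBy_inv] at h1
  have h2 := comm_bot_conjBy (mem_centMembers.1 (h (mem_centMembers.2 ⟨hS.conj_mem K hK.1 g⁻¹, h1⟩))).2 g
  rw [conjBy_inv_conjBy] at h2
  exact ⟨hK.1, h2⟩

/-- If every member commuting with `A` commutes with `C`, every rank one partner of `C` is one of `A`. -/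
theorem rk_of_centMembers_subset (hS : IsRootSubgroupSet S) (hA : A ∈ S) (hC : C ∈ S) (hD : D ∈ S)
    (h : centralizingMembers S A ⊆ centralizingMembers S C) (hCD : IsRankOnePair C D) : IsRankOnePair A D := by
  rcases rs_tri hS hD hA with h1 | h1 | h1
  · exact absurd (comm_bot_symm (mem_centMembers.1 (h (mem_centMembers.2 ⟨hD, h1⟩))).2) (rk_comm_ne_bot hCD)
  · exact RankOnePair_symm h1
  · exfalso
    have h2 := (mem_centMembers.1 (h (mem_centMembers.2 ⟨h1, comm_bot_symm (psi_comm_right hS hD hA h1)⟩))).2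
    exact (psi_covered hS hD hA h1).comm_ne_bot hS (psi_line_comm hS hD hA h1) hD le_sup_left hC
      (RankOnePair_symm hCD) h1 le_sup_right h2

theorem centMembers_eq_of_subset (hS : IsRootSubgroupSet S) (hA : A ∈ S) (hC : C ∈ S) (hni : NI S C)
    (h : centralizingMembers S A ⊆ centralizingMembers S C) :
    centralizingMembers S A = centralizingMembers S C := by
  obtain ⟨D, hD, hCD⟩ := hni
  refine Set.Subset.antisymm h ?_
  refine preorder_symm (r := fun E F => centralizingMembers S E ⊆ centralizingMembers S F) (D := D)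
    (fun _ _ _ h1 h2 => h1.trans h2) (fun _ _ g h => centMembers_conjBy hS g h) (fun g h1 h2 => ?_)
    (mem_centMembers.1 (h (mem_centMembers.2 ⟨hA, rs_comm_self hS hA⟩))).2
    (rk_of_centMembers_subset hS hA hC hD h hCD) hCD h
  have hDg := hS.conj_mem D hD g
  exact rk_comm_ne_bot h2 (comm_bot_symm (mem_centMembers.1 (h1 (mem_centMembers.2 ⟨hDg, rs_comm_self hS hDg⟩))).2)

theorem rkPartners_eq_of_subset (hS : IsRootSubgroupSet S) (hNI : ∀ E ∈ S, NI S E) (hA : A ∈ S) (hC : C ∈ S)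
    (h : rankOnePartners S A ⊆ rankOnePartners S C) :
    ⁅A, C⁆ = ⊥ ∧ rankOnePartners S A = rankOnePartners S C := by
  have hAC : ⁅A, C⁆ = ⊥ := by
    rcases rs_tri hS hA hC with h1 | h1 | h1
    · exact h1
    · exact absurd rfl (h ⟨hC, h1⟩).2.ne
    · obtain ⟨D, hD, h2, h3⟩ := exists_rk_comm_of_psi hS hNI hA hC h1
      exact absurd h3 (rk_comm_ne_bot (h ⟨hD, h2⟩).2)
  obtain ⟨D, hD, hAD⟩ := hNI A hA
  refine ⟨hAC, Set.Subset.antisymm h ?_⟩
  refine preorder_symm (r := fun E F => rankOnePartners S E ⊆ rankOnePartners S F) (D := D)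
    (fun _ _ _ h1 h2 => h1.trans h2) (fun E F g h K hK => ?_) (fun g h1 h2 => ?_) hAC hAD (h ⟨hD, hAD⟩).2 h
  · have h1 := rk_conjBy hK.2 g⁻¹
    rw [conjBy_conjBy_inv] at h1
    have h2 := rk_conjBy (h ⟨hS.conj_mem K hK.1 g⁻¹, h1⟩).2 g
    rw [conjBy_inv_conjBy] at h2
    exact ⟨hK.1, h2⟩
  · exact (h1 ⟨hD, RankOnePair_symm h2⟩).2.ne rfl

/-- A degenerate class with two members has no isolated vertices. -/
theorem ni_of_degenerate (hS : IsRootSubgroupClass S) (hdeg : IsDegenerateRootSet S) (hA : A ∈ S) (hC : C ∈ S)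
    (hne : A ≠ C) : ∀ E ∈ S, NI S E := by
  by_cases h : NI S A
  · obtain ⟨D, hD, h⟩ := h
    exact ni_of_class hS hA hD h
  · exfalso
    obtain ⟨g, rfl⟩ := hS.2.2 A hA C hC
    refine hne (rs_induction hS.1 (p := fun g => conjBy A g = A) (conjBy_one A) (fun E hE e he => ?_)
      (fun x y hx hy => by rw [← conjBy_conjBy, hy, hx]) g).symm
    rcases hS.1.pair A hA E hE with h1 | h1 | h1
    · exact conjBy_of_commute fun a ha => (comm_bot_iff.1 h1 a ha e he).symm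
    · exact absurd ⟨E, hE, h1⟩ h
    · exact absurd h1 (hdeg A hA E hE)

/-! ### The graph of lines -/

theorem econn_symm (h : Relation.ReflTransGen (EAdj S S) A B) : Relation.ReflTransGen (EAdj S S) B A := by
  induction h with
  | refl => exact .refl
  | tail _ h ih => exact .head ⟨h.2.1, h.1, line_symm h.1 h.2.2⟩ ih

theorem econn_conjBy (hS : IsRootSubgroupSet S) (h : Relation.ReflTransGen (EAdj S S) A B) (g : G) :
    Relation.ReflTransGen (EAdj S S) (conjBy A g) (conjBy B g) := by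
  induction h with
  | refl => exact .refl
  | tail _ h ih => exact .tail ih ⟨hS.conj_mem _ h.1 g, hS.conj_mem _ h.2.1 g, line_conjBy hS h.2.2 g⟩

theorem econn_of_nondeg (hS : IsRootSubgroupClass S) (hnd : IsNondegenerateRootSet S) :
    IsConnectedFamily (EAdj S S) S := by
  have hNI := ni_of_nondeg hS hnd
  have h1 : ∀ A ∈ S, ∀ E ∈ S, ∀ e ∈ E, ∀ K, Relation.ReflTransGen (EAdj S S) A K → ⁅K, E⁆ = ⊥ →
      Relation.ReflTransGen (EAdj S S) A (conjBy A e) := by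
    intro A _ E _ e he K hK hc
    have := econn_conjBy hS.1 hK e
    rw [conjBy_of_commute (A := K) fun k hk => (comm_bot_iff.1 hc k hk e he).symm] at this
    exact hK.trans (econn_symm this)
  have h2 : ∀ A ∈ S, ∀ E ∈ S, ⁅A, E⁆ ∈ S → EAdj S S A ⁅A, E⁆ := fun A hA E hE h =>
    ⟨hA, h, line_symm h ((hNI A hA).psi_mem_line hS.1 hA hE h)⟩
  have key : ∀ g : G, ∀ A ∈ S, Relation.ReflTransGen (EAdj S S) A (conjBy A g) := by
    refine rs_induction hS.1 (fun A _ => by rw [conjBy_one]) (fun E hE e he A hA => ?_) (fun x y hx hy A hA => ?_)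
    · rcases rs_tri hS.1 hA hE with h | h | h
      · exact h1 A hA E hE e he A .refl h
      · obtain ⟨P, hP⟩ := exists_line_of_class hS hNI hnd.2.2 hA
        obtain ⟨F, hF, hEF, -, -⟩ := exists_psi_on_line hS.1 hNI hA hE h hP
        exact h1 A hA E hE e he _ (.head ⟨hA, hF.1.1, hF⟩ (.single (h2 F hF.1.1 E hE (psi_symm hEF))))
          (comm_bot_symm (psi_comm_right hS.1 hF.1.1 hE (psi_symm hEF)))
      · exact h1 A hA E hE e he _ (.single (h2 A hA E hE h)) (comm_bot_symm (psi_comm_right hS.1 hA hE h))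
    · rw [← conjBy_conjBy]
      exact (hy A hA).trans (hx _ (hS.1.conj_mem A hA y))
  intro A hA B hB
  obtain ⟨g, rfl⟩ := hS.2.2 A hA B hB
  exact key g A hA

theorem line_sup_rk_eq_top (hS : IsRootSubgroupClass S) (hnd : IsNondegenerateRootSet S) (hA : A ∈ S) (hB : B ∈ S)
    (h : IsRankOnePair A B) {U : Subgroup G} (hU : ∀ C ∈ linePartners S A, C ≤ U) (hBU : B ≤ U) : U = ⊤ := by
  have hNI := ni_of_nondeg hS hnd
  -- the commutator partners producing `A` lie in `U`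
  have h1 : ∀ F ∈ linePartners S A, ∀ E ∈ S, ⁅F, E⁆ = A → E ≤ U := by
    intro F hF E hE he
    have hc : ⁅E, F⁆ = A := by rw [Subgroup.commutator_comm, he]
    have := (hNI E hE).psi_mem_line hS.1 hE hF.1.1 (hc.symm ▸ hA)
    rw [hc] at this
    exact hU E this
  have hAU : A ≤ U := by
    obtain ⟨P, hP⟩ := exists_line_of_class hS hNI hnd.2.2 hA
    obtain ⟨E, hE, he⟩ := line_exists_comm_eq hS.1 hNI hA hP
    rw [← he]
    exact (Subgroup.commutator_le_sup _ _).trans (sup_le (hU P hP) (h1 P hP E hE he))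
  have h2 : ∀ P ∈ linePartners S A, ∃ u ∈ U, P = conjBy A u := by
    intro P hP
    obtain ⟨F, hF, hBF, hk, hsup⟩ := exists_psi_on_line hS.1 hNI hA hB h hP
    have hF'U : ⁅B, F⁆ ≤ U := (Subgroup.commutator_le_sup _ _).trans (sup_le hBU (hU F hF))
    have hpts : ∀ Q ∈ S, Q ≤ A ⊔ P → Q ≠ F → ∃ u ∈ U, Q = conjBy A u := by
      intro Q hQ hQL hne
      have := (hNI A hA).psi_points hS.1 hA hBF (hk.symm ▸ hF.1.1) hQ (by rwa [hk, hsup])
      rw [hk] at this
      obtain ⟨u, hu, e⟩ := this.resolve_left hne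
      exact ⟨u, hF'U hu, e⟩
    by_cases hPF : P = F
    · have hAm : A ∈ membersIn S (A ⊔ P) := ⟨hA, le_sup_left⟩
      have hPm : P ∈ membersIn S (A ⊔ P) := ⟨hP.1.1, le_sup_right⟩
      obtain ⟨T, hT, hTA, hTP⟩ := line_exists_third hS.1 hNI hA hP hAm hPm hP.1.2.1.symm
      obtain ⟨E, hE, he, -, x, hx, e, -⟩ := line_exists_conj hS.1 hNI hA hP hT hPm hAm hTA hP.1.2.1
      obtain ⟨u, hu, rfl⟩ := hpts T hT.1 hT.2 (hPF ▸ hTP)
      refine ⟨x * u, U.mul_mem (h1 _ (line_mem_of_points hS.1 hNI hA hP hAm hT hTA.symm) E hE he hx) hu, ?_⟩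
      rw [← e, conjBy_conjBy]
    · exact hpts P hP.1.1 le_sup_right hPF
  have h3 : ∀ K, Relation.ReflTransGen (EAdj S S) A K → ∃ u ∈ U, K = conjBy A u := by
    intro K hK
    induction hK with
    | refl => exact ⟨1, U.one_mem, (conjBy_one A).symm⟩
    | tail _ h ih =>
      obtain ⟨u, hu, rfl⟩ := ih
      have := line_conjBy hS.1 h.2.2 u⁻¹
      rw [conjBy_conjBy_inv] at this
      obtain ⟨v, hv, e⟩ := h2 _ this
      exact ⟨u * v, U.mul_mem hu hv, by rw [← conjBy_conjBy, ← e, conjBy_inv_conjBy]⟩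
  rw [eq_top_iff, ← hS.1.generates]
  refine iSup₂_le fun K hK => ?_
  obtain ⟨u, hu, rfl⟩ := h3 K (econn_of_nondeg hS hnd A hA K hK)
  exact conjBy_le_of_mem hAU hu

end CL.Chev.Root
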