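/-
Families of root subgroups given by square zero elements of an algebra: for a faithful representation
`ρ : G →* R` and a set `𝓝` of square zero elements of the `k`-algebra `R`, the groups
`T N = {g | ρ g = 1 + c • N}` form a set of `k`-root subgroups of the group they generate as soon as
`N M N = a N`, `M N M = a M` for any two members, and `N M - M N` is `0` or a member if `a = 0`.
-/
import Cfsg.Agent.Chev.RootClass
import Cfsg.Agent.Chev.RootSL2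

set_option autoImplicit false

namespace CL.Chev.RFam

open Cfsg CL.Chev.Root CL.Chev.SL2
open scoped MatrixGroups commutatorElement

section General

variable {G : Type*} [Group G] {S : Set (Subgroup G)} {A B : Subgroup G}

theorem fconn_of_line (hS : IsRootSubgroupSet S) (hNI : ∀ E ∈ S, NI S E) (hA : A ∈ S)
    (hB : B ∈ linePartners S A) : Relation.ReflTransGen (FAdj S) A B := by
  have hA' : A ∈ membersIn S (A ⊔ B) := ⟨hA, le_sup_left⟩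
  have hB' : B ∈ membersIn S (A ⊔ B) := ⟨hB.1.1, le_sup_right⟩
  obtain ⟨T, hT, h1, h2⟩ := line_exists_third hS hNI hA hB hA' hB' hB.1.2.1.symm
  obtain ⟨E, -, -, -, x, -, hx, -⟩ := line_exists_conj hS hNI hA hB hA' hB' hT h1.symm h2.symm
  rw [← hx]
  exact (hNI A hA).fconn_conjBy hS hA x

/-- Two members which do not commute lie in the same component of the graph of rank one pairs. -/
theorem fconn_of_comm_ne_bot (hS : IsRootSubgroupSet S) (hNI : ∀ E ∈ S, NI S E) (hA : A ∈ S) (hB : B ∈ S)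
    (h : ⁅A, B⁆ ≠ ⊥) : Relation.ReflTransGen (FAdj S) A B := by
  rcases rs_tri hS hA hB with h1 | h1 | h1
  · exact absurd h1 h
  · exact .single ⟨hA, hB, h1⟩
  · have h2 := fconn_of_line hS hNI h1 ((hNI A hA).psi_mem_line hS hA hB h1)
    have h3 := fconn_of_line hS hNI (psi_symm h1) ((hNI B hB).psi_mem_line hS hB hA (psi_symm h1))
    rw [Subgroup.commutator_comm B A] at h3
    exact (fconn_symm h2).trans h3

theorem eq_conjClass (hS : IsRootSubgroupClass S) (hA : A ∈ S) : {B | ∃ g : G, B = conjBy A g} = S := by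
  ext B
  exact ⟨fun ⟨g, hg⟩ => hg ▸ hS.1.conj_mem A hA g, fun hB => hS.2.2 A hA B hB⟩

end General

variable {k R G : Type*} [Field k] [Ring R] [Algebra k R] [Group G]

/-- The group of elements acting as `1 + c • N`. -/
def TG (k : Type*) [Field k] [Algebra k R] (ρ : G →* R) (N : R) : Subgroup G :=
  Subgroup.closure {g | ∃ c : k, ρ g = 1 + c • N}

/-- The root subgroups of a family. -/
def roots (k : Type*) [Field k] [Algebra k R] (ρ : G →* R) (𝓝 : Set R) : Set (Subgroup G) :=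
  {A | ∃ N ∈ 𝓝, A = TG k ρ N}

/-- Opposite square zero elements. -/
def Opp (k : Type*) [Field k] [Algebra k R] (N M : R) : Prop :=
  ∃ a : k, a ≠ 0 ∧ N * M * N = a • N ∧ M * N * M = a • M

theorem Opp.symm {N M : R} (h : Opp k N M) : Opp k M N :=
  let ⟨a, ha, h1, h2⟩ := h; ⟨a, ha, h2, h1⟩

/-- A family of square zero elements defining root subgroups. -/
structure Fam (k : Type*) [Field k] [Algebra k R] (ρ : G →* R) (𝓝 : Set R) : Prop where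
  inj : Function.Injective ρ
  sq : ∀ N ∈ 𝓝, N * N = 0
  ne : ∀ N ∈ 𝓝, N ≠ 0
  ex : ∀ N ∈ 𝓝, ∀ c : k, ∃ g, ρ g = 1 + c • N
  conj : ∀ N ∈ 𝓝, ∀ g, ρ g * N * ρ g⁻¹ ∈ 𝓝
  pair : ∀ N ∈ 𝓝, ∀ M ∈ 𝓝, Opp k N M ∨ N * M = M * N ∨
    (N * M * N = 0 ∧ M * N * M = 0 ∧ N * M - M * N ∈ 𝓝)

variable {ρ : G →* R} {𝓝 : Set R} {N M : R}

theorem one_add_mul (hN : N * N = 0) (c d : k) : (1 + c • N) * (1 + d • N) = 1 + (c + d) • N := by
  simp only [mul_add, add_mul, one_mul, mul_one, smul_mul_assoc, mul_smul_comm, hN, smul_zero]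
  module

theorem map_inv_eq (hN : N * N = 0) {g : G} {c : k} (hg : ρ g = 1 + c • N) : ρ g⁻¹ = 1 + (-c) • N := by
  calc ρ g⁻¹ = ρ g⁻¹ * ((1 + c • N) * (1 + (-c) • N)) := by rw [one_add_mul hN]; simp
    _ = _ := by rw [← hg, ← mul_assoc, ← map_mul, inv_mul_cancel, map_one, one_mul]

theorem mem_TG (hN : N * N = 0) {g : G} : g ∈ TG k ρ N ↔ ∃ c : k, ρ g = 1 + c • N := by
  refine ⟨fun hg => ?_, fun h => Subgroup.subset_closure h⟩
  induction hg using Subgroup.closure_induction with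
  | mem g hg => exact hg
  | one => exact ⟨0, by simp⟩
  | mul g h _ _ hg hh =>
    obtain ⟨c, hc⟩ := hg
    obtain ⟨d, hd⟩ := hh
    exact ⟨c + d, by rw [map_mul, hc, hd, one_add_mul hN]⟩
  | inv g _ hg =>
    obtain ⟨c, hc⟩ := hg
    exact ⟨-c, map_inv_eq hN hc⟩

theorem closure_eq_TG {s : Set G} (h : ∀ g, g ∈ s ↔ ∃ c : k, ρ g = 1 + c • N) :
    Subgroup.closure s = TG k ρ N := by
  unfold TG
  congr 1
  exact Set.ext h

theorem TG_smul (hN : N * N = 0) {a : k} (ha : a ≠ 0) : TG k ρ (a • N) = TG k ρ N := by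
  have h2 : (a • N) * (a • N) = 0 := by rw [smul_mul_assoc, mul_smul_comm, hN, smul_zero, smul_zero]
  ext g
  rw [mem_TG hN, mem_TG h2]
  refine ⟨fun ⟨c, hc⟩ => ⟨c * a, by rw [hc, smul_smul]⟩, fun ⟨c, hc⟩ => ⟨c * a⁻¹, ?_⟩⟩
  rw [hc, smul_smul, mul_assoc, inv_mul_cancel₀ ha, mul_one]

theorem conj_one_add (g : G) (c : k) (N : R) :
    ρ g * (1 + c • N) * ρ g⁻¹ = 1 + c • (ρ g * N * ρ g⁻¹) := by
  rw [mul_add, add_mul, mul_one, ← map_mul, mul_inv_cancel, map_one, mul_smul_comm, smul_mul_assoc]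

theorem conj_sq (hN : N * N = 0) (g : G) : ρ g * N * ρ g⁻¹ * (ρ g * N * ρ g⁻¹) = 0 := by
  calc ρ g * N * ρ g⁻¹ * (ρ g * N * ρ g⁻¹) = ρ g * (N * (ρ g⁻¹ * ρ g) * N) * ρ g⁻¹ := by
        simp only [mul_assoc]
    _ = 0 := by rw [← map_mul, inv_mul_cancel, map_one, mul_one, hN, mul_zero, zero_mul]

theorem conjBy_TG (hN : N * N = 0) (g : G) : conjBy (TG k ρ N) g = TG k ρ (ρ g * N * ρ g⁻¹) := by
  ext x
  rw [mem_conjBy, mem_TG hN, mem_TG (conj_sq hN g)]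
  refine exists_congr fun c => ?_
  rw [← conj_one_add]
  constructor
  · intro h
    rw [← h, ← map_mul, ← map_mul]; congr 1; group
  · intro h
    rw [map_mul, map_mul, h]
    calc ρ g⁻¹ * (ρ g * (1 + c • N) * ρ g⁻¹) * ρ g = (ρ g⁻¹ * ρ g) * (1 + c • N) * (ρ g⁻¹ * ρ g) := by
          simp only [mul_assoc]
      _ = _ := by rw [← map_mul, inv_mul_cancel, map_one, one_mul, mul_one]

theorem TG_subgroupOf (hN : N * N = 0) (H : Subgroup G) :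
    (TG k ρ N).subgroupOf H = TG k (ρ.comp H.subtype) N := by
  ext x
  rw [Subgroup.mem_subgroupOf, mem_TG hN, mem_TG hN]
  rfl

theorem comm_bot_of_commute (hρ : Function.Injective ρ) (hN : N * N = 0) (hM : M * M = 0)
    (h : N * M = M * N) : ⁅TG k ρ N, TG k ρ M⁆ = ⊥ := by
  refine comm_bot_iff.2 fun a ha b hb => hρ ?_
  obtain ⟨c, hc⟩ := (mem_TG hN).1 ha
  obtain ⟨d, hd⟩ := (mem_TG hM).1 hb
  rw [map_mul, map_mul, hc, hd]
  simp only [mul_add, add_mul, one_mul, mul_one, smul_mul_assoc, mul_smul_comm, h]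
  module

theorem eq_one_iff (hρ : Function.Injective ρ) (h0 : N ≠ 0) {g : G} {c : k} (hg : ρ g = 1 + c • N) :
    g = 1 ↔ c = 0 := by
  constructor
  · rintro rfl
    rw [map_one, left_eq_add] at hg
    by_contra hc
    apply h0
    rw [← one_smul k N, ← inv_mul_cancel₀ hc, mul_smul, hg, smul_zero]
  · rintro rfl
    apply hρ
    rw [hg, map_one, zero_smul, add_zero]

/-- The commutator of `1 + c N` and `1 + d M` if `N M N = M N M = 0`. -/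
theorem map_commutator_eq (hN : N * N = 0) (hM : M * M = 0) (h1 : N * M * N = 0) (h2 : M * N * M = 0)
    {a b : G} {c d : k} (ha : ρ a = 1 + c • N) (hb : ρ b = 1 + d • M) :
    ρ (a * b * a⁻¹ * b⁻¹) = 1 + (c * d) • (N * M - M * N) := by
  have e2 : N * (M * N) = 0 := by rw [← mul_assoc, h1]
  have e3 : M * (N * M) = 0 := by rw [← mul_assoc, h2]
  rw [map_mul, map_mul, map_mul, ha, hb, map_inv_eq hN ha, map_inv_eq hM hb]
  simp only [mul_add, add_mul, one_mul, mul_one, smul_mul_assoc, mul_smul_comm, mul_assoc, hN, hM, e2, e3,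
    mul_zero, zero_mul, smul_zero]
  module

/-- The matrix units attached to `e`, `f` with `e f e = e`, `f e f = f`. -/
def unitMap (k : Type*) [Field k] [Algebra k R] {e f : R} (he : e * e = 0) (hf : f * f = 0)
    (h1 : e * f * e = e) (h2 : f * e * f = f) : SL(2, k) →* R where
  toFun g := 1 - e * f - f * e + (g 0 0 • (e * f) + g 0 1 • e + g 1 0 • f + g 1 1 • (f * e))
  map_one' := by simp
  map_mul' g g' := by
    have e1 : e * (f * e) = e := by rw [← mul_assoc, h1]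
    have e2 : f * (e * f) = f := by rw [← mul_assoc, h2]
    have e3 : ∀ x, e * (e * x) = 0 := fun x => by rw [← mul_assoc, he, zero_mul]
    have e4 : ∀ x, f * (f * x) = 0 := fun x => by rw [← mul_assoc, hf, zero_mul]
    simp only [mul_apply2, mul_add, add_mul, mul_sub, sub_mul, one_mul, mul_one, smul_mul_assoc, mul_smul_comm,
      mul_assoc, he, hf, e1, e2, e3, e4, mul_zero, smul_zero]
    module

namespace Fam

variable (F : Fam k ρ 𝓝)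
include F

theorem mem_TG' (hN : N ∈ 𝓝) {g : G} : g ∈ TG k ρ N ↔ ∃ c : k, ρ g = 1 + c • N := mem_TG (F.sq N hN)

theorem exists_hom (hN : N ∈ 𝓝) (hM : M ∈ 𝓝) {a : k} (ha : a ≠ 0) (h1 : N * M * N = a • N)
    (h2 : M * N * M = a • M) : ∃ φ : SL(2, k) →* G, (∀ t, ρ (φ (up t)) = 1 + t • N) ∧
      ∀ t, ρ (φ (lo t)) = 1 + (t * a⁻¹) • M := by
  have hf : (a⁻¹ • M) * (a⁻¹ • M) = 0 := by
    rw [smul_mul_assoc, mul_smul_comm, F.sq M hM, smul_zero, smul_zero]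
  have e1 : N * (a⁻¹ • M) * N = N := by
    rw [mul_smul_comm, smul_mul_assoc, h1, smul_smul, inv_mul_cancel₀ ha, one_smul]
  have e2 : (a⁻¹ • M) * N * (a⁻¹ • M) = a⁻¹ • M := by
    rw [mul_smul_comm, smul_mul_assoc, smul_mul_assoc, h2, smul_smul a⁻¹ a, inv_mul_cancel₀ ha, one_smul]
  let Φ := unitMap k (F.sq N hN) hf e1 e2
  have hu : ∀ t, Φ (up t) = 1 + t • N := fun t => by
    simp only [Φ, unitMap, MonoidHom.coe_mk, OneHom.coe_mk, up_00, up_01, up_10, up_11]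
    module
  have hl : ∀ t, Φ (lo t) = 1 + (t * a⁻¹) • M := fun t => by
    simp only [Φ, unitMap, MonoidHom.coe_mk, OneHom.coe_mk, lo_00, lo_01, lo_10, lo_11]
    module
  have hr : ∀ g, ∃ x, ρ x = Φ g := by
    intro g
    induction g using SL2.induction_on with
    | hu t => rw [hu]; exact F.ex N hN t
    | hl t => rw [hl]; exact F.ex M hM _
    | hm g g' hg hg' =>
      obtain ⟨x, hx⟩ := hg
      obtain ⟨y, hy⟩ := hg'
      exact ⟨x * y, by rw [map_mul, map_mul, hx, hy]⟩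
  choose φ hφ using hr
  exact ⟨MonoidHom.mk' φ fun g g' => F.inj (by rw [map_mul, hφ, hφ, hφ, map_mul]),
    fun t => (hφ _).trans (hu t), fun t => (hφ _).trans (hl t)⟩

theorem not_commute_of_opp (hN : N ∈ 𝓝) (h : Opp k N M) : N * M ≠ M * N := by
  obtain ⟨a, ha, h1, -⟩ := h
  intro hc
  rw [hc, mul_assoc, F.sq N hN, mul_zero] at h1
  apply F.ne N hN
  rw [← one_smul k N, ← inv_mul_cancel₀ ha, mul_smul, ← h1, smul_zero]

theorem commute_of_mul_comm {a b : G} {c d : k} (ha : ρ a = 1 + c • N) (hb : ρ b = 1 + d • M)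
    (hc : c ≠ 0) (hd : d ≠ 0) (h : a * b = b * a) : N * M = M * N := by
  have _ := F
  have h1 := congrArg ρ h
  rw [map_mul, map_mul, ha, hb] at h1
  simp only [mul_add, add_mul, one_mul, mul_one, smul_mul_assoc, mul_smul_comm] at h1
  have h2 : (c * d) • (N * M - M * N) = 0 := by
    linear_combination (norm := module) h1
  rw [← sub_eq_zero, ← one_smul k (N * M - M * N), ← inv_mul_cancel₀ (mul_ne_zero hc hd), mul_smul, h2, smul_zero]

theorem comm_bot_iff' (hN : N ∈ 𝓝) (hM : M ∈ 𝓝) : ⁅TG k ρ N, TG k ρ M⁆ = ⊥ ↔ N * M = M * N := by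
  refine ⟨fun h => ?_, comm_bot_of_commute F.inj (F.sq N hN) (F.sq M hM)⟩
  obtain ⟨a, ha⟩ := F.ex N hN 1
  obtain ⟨b, hb⟩ := F.ex M hM 1
  exact F.commute_of_mul_comm ha hb one_ne_zero one_ne_zero
    (comm_bot_iff.1 h a ((F.mem_TG' hN).2 ⟨1, ha⟩) b ((F.mem_TG' hM).2 ⟨1, hb⟩))

theorem psl2_of_opp (hN : N ∈ 𝓝) (hM : M ∈ 𝓝) (h : Opp k N M) :
    IsPSL2PairOver k (TG k ρ N) (TG k ρ M) ∧ IsRankOnePair (TG k ρ N) (TG k ρ M) := by
  have hnc := F.not_commute_of_opp hN h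
  obtain ⟨a, ha, h1, h2⟩ := h
  obtain ⟨φ, hu, hl⟩ := F.exists_hom hN hM ha h1 h2
  have eU : (upperUnipotentSL2 k).map φ = TG k ρ N := by
    ext x
    rw [F.mem_TG' hN]
    constructor
    · rintro ⟨g, hg, rfl⟩
      obtain ⟨t, rfl⟩ := mem_upperUnip.1 hg
      exact ⟨t, hu t⟩
    · rintro ⟨c, hc⟩
      exact ⟨up c, up_mem c, F.inj (by rw [hu, hc])⟩
  have eL : (lowerUnipotentSL2 k).map φ = TG k ρ M := by
    ext x
    rw [F.mem_TG' hM]
    constructor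
    · rintro ⟨g, hg, rfl⟩
      obtain ⟨t, rfl⟩ := mem_lowerUnip.1 hg
      exact ⟨_, hl t⟩
    · rintro ⟨c, hc⟩
      exact ⟨lo (c * a), lo_mem _, F.inj (by rw [hl, hc, mul_assoc, mul_inv_cancel₀ ha, mul_one])⟩
  have hφ : φ (up 1) * φ (lo a) ≠ φ (lo a) * φ (up 1) := fun he =>
    hnc (F.commute_of_mul_comm (hu 1) (hl a) one_ne_zero (by simp [ha]) he)
  refine ⟨⟨φ, ?_, sl2_ker_le_center φ hφ, eU, eL⟩, ?_⟩
  · rw [← eU, ← eL, ← Subgroup.map_sup, sup_comm, lower_sup_upper, MonoidHom.range_eq_map]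
  · rw [← eU, ← eL]
    refine rk_map (RankOnePair_symm rk_lower_upper) φ ?_ ?_ ?_
    · intro g hg h1
      obtain ⟨t, rfl⟩ := mem_upperUnip.1 hg
      rw [(eq_one_iff F.inj (F.ne N hN) (hu t)).1 h1, up_zero]
    · intro g hg h1
      obtain ⟨t, rfl⟩ := mem_lowerUnip.1 hg
      have := (eq_one_iff F.inj (F.ne M hM) (hl t)).1 h1
      rw [(mul_eq_zero.1 this).resolve_right (inv_ne_zero ha), lo_zero]
    · rw [eU, eL]
      intro he
      apply hnc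
      rw [← F.comm_bot_iff' hN hM, ← he, F.comm_bot_iff' hN hN]

theorem closure_left (hN : N ∈ 𝓝) (hM : M ∈ 𝓝) (h1 : N * M * N = 0) (h2 : M * N * M = 0)
    (hK : N * M - M * N ∈ 𝓝) {a : G} (ha : a ∈ TG k ρ N) (ha1 : a ≠ 1) :
    Subgroup.closure ((fun b : G => a * b * a⁻¹ * b⁻¹) '' (TG k ρ M : Set G)) = TG k ρ (N * M - M * N) := by
  obtain ⟨c, hc⟩ := (F.mem_TG' hN).1 ha
  have hc0 : c ≠ 0 := fun h => ha1 ((eq_one_iff F.inj (F.ne N hN) hc).2 h)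
  refine closure_eq_TG fun g => ⟨?_, ?_⟩
  · rintro ⟨b, hb, rfl⟩
    obtain ⟨d, hd⟩ := (F.mem_TG' hM).1 hb
    exact ⟨_, map_commutator_eq (F.sq N hN) (F.sq M hM) h1 h2 hc hd⟩
  · rintro ⟨s, hs⟩
    have _ := hK
    obtain ⟨b, hb⟩ := F.ex M hM (c⁻¹ * s)
    refine ⟨b, (F.mem_TG' hM).2 ⟨_, hb⟩, F.inj ?_⟩
    rw [hs, map_commutator_eq (F.sq N hN) (F.sq M hM) h1 h2 hc hb, mul_inv_cancel_left₀ hc0]

theorem closure_right (hN : N ∈ 𝓝) (hM : M ∈ 𝓝) (h1 : N * M * N = 0) (h2 : M * N * M = 0)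
    (hK : N * M - M * N ∈ 𝓝) {b : G} (hb : b ∈ TG k ρ M) (hb1 : b ≠ 1) :
    Subgroup.closure ((fun a : G => a * b * a⁻¹ * b⁻¹) '' (TG k ρ N : Set G)) = TG k ρ (N * M - M * N) := by
  obtain ⟨d, hd⟩ := (F.mem_TG' hM).1 hb
  have hd0 : d ≠ 0 := fun h => hb1 ((eq_one_iff F.inj (F.ne M hM) hd).2 h)
  refine closure_eq_TG fun g => ⟨?_, ?_⟩
  · rintro ⟨a, ha, rfl⟩
    obtain ⟨c, hc⟩ := (F.mem_TG' hN).1 ha
    exact ⟨_, map_commutator_eq (F.sq N hN) (F.sq M hM) h1 h2 hc hd⟩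
  · rintro ⟨s, hs⟩
    have _ := hK
    obtain ⟨a, ha⟩ := F.ex N hN (s * d⁻¹)
    refine ⟨a, (F.mem_TG' hN).2 ⟨_, ha⟩, F.inj ?_⟩
    rw [hs, map_commutator_eq (F.sq N hN) (F.sq M hM) h1 h2 ha hd, inv_mul_cancel_right₀ hd0]

theorem commutator_eq (hN : N ∈ 𝓝) (hM : M ∈ 𝓝) (h1 : N * M * N = 0) (h2 : M * N * M = 0)
    (hK : N * M - M * N ∈ 𝓝) : ⁅TG k ρ N, TG k ρ M⁆ = TG k ρ (N * M - M * N) := by
  refine le_antisymm (Subgroup.commutator_le.2 fun a ha b hb => ?_) ?_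
  · obtain ⟨c, hc⟩ := (F.mem_TG' hN).1 ha
    obtain ⟨d, hd⟩ := (F.mem_TG' hM).1 hb
    exact (F.mem_TG' hK).2 ⟨_, map_commutator_eq (F.sq N hN) (F.sq M hM) h1 h2 hc hd⟩
  · obtain ⟨a, ha⟩ := F.ex N hN 1
    have ha' := (F.mem_TG' hN).2 ⟨1, ha⟩
    rw [← F.closure_left hN hM h1 h2 hK ha' fun h => one_ne_zero ((eq_one_iff F.inj (F.ne N hN) ha).1 h),
      Subgroup.closure_le]
    rintro _ ⟨b, hb, rfl⟩
    exact Subgroup.commutator_mem_commutator ha' hb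

theorem commutatorCase (hN : N ∈ 𝓝) (hM : M ∈ 𝓝) (h1 : N * M * N = 0) (h2 : M * N * M = 0)
    (hK : N * M - M * N ∈ 𝓝) : RootCommutatorCase (roots k ρ 𝓝) (TG k ρ N) (TG k ρ M) := by
  unfold RootCommutatorCase
  rw [F.commutator_eq hN hM h1 h2 hK]
  refine ⟨⟨_, hK, rfl⟩, fun c hc => ?_, fun a ha ha1 => F.closure_left hN hM h1 h2 hK ha ha1,
    fun b hb hb1 => F.closure_right hN hM h1 h2 hK hb hb1⟩
  refine commute_sup (comm_bot_iff.1 ((F.comm_bot_iff' hK hN).2 ?_) c hc)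
    (comm_bot_iff.1 ((F.comm_bot_iff' hK hM).2 ?_) c hc)
  · rw [sub_mul, mul_sub, h1, mul_assoc M, F.sq N hN, ← mul_assoc, F.sq N hN, ← mul_assoc, h1]; simp
  · rw [sub_mul, mul_sub, h2, mul_assoc N, F.sq M hM, ← mul_assoc, h2, ← mul_assoc, F.sq M hM]; simp

theorem TG_ne_bot (hN : N ∈ 𝓝) : TG k ρ N ≠ ⊥ := by
  obtain ⟨a, ha⟩ := F.ex N hN 1
  intro h
  have ha' := (F.mem_TG' hN).2 ⟨1, ha⟩
  rw [h, Subgroup.mem_bot] at ha'
  exact one_ne_zero ((eq_one_iff F.inj (F.ne N hN) ha).1 ha')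

theorem isRootSet (hgen : (⨆ A ∈ roots k ρ 𝓝, A) = ⊤) : IsRootSubgroupSet (roots k ρ 𝓝) where
  commutative := by
    rintro _ ⟨N, hN, rfl⟩
    rw [← Subgroup.commutator_self_eq_bot_iff, F.comm_bot_iff' hN hN]
  ne_bot := by
    rintro _ ⟨N, hN, rfl⟩
    exact F.TG_ne_bot hN
  generates := hgen
  conj_mem := by
    rintro _ ⟨N, hN, rfl⟩ g
    exact ⟨_, F.conj N hN g, conjBy_TG (F.sq N hN) g⟩
  pair := by
    rintro _ ⟨N, hN, rfl⟩ _ ⟨M, hM, rfl⟩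
    rcases F.pair N hN M hM with h | h | ⟨h1, h2, hK⟩
    · exact Or.inr (Or.inl (F.psl2_of_opp hN hM h).2)
    · exact Or.inl ((F.comm_bot_iff' hN hM).2 h)
    · exact Or.inr (Or.inr (F.commutatorCase hN hM h1 h2 hK))

theorem isKRootSet (hgen : (⨆ A ∈ roots k ρ 𝓝, A) = ⊤) : IsKRootSubgroupSet k (roots k ρ 𝓝) := by
  refine ⟨F.isRootSet hgen, ?_⟩
  rintro _ ⟨N, hN, rfl⟩ _ ⟨M, hM, rfl⟩ hr
  rcases F.pair N hN M hM with h | h | ⟨h1, h2, hK⟩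
  · exact (F.psl2_of_opp hN hM h).1
  · exact absurd ((F.comm_bot_iff' hN hM).2 h) (rk_comm_ne_bot hr)
  · exact absurd hr (psi_not_rk (F.isRootSet hgen) ⟨N, hN, rfl⟩ ⟨M, hM, rfl⟩
      (F.commutatorCase hN hM h1 h2 hK).1)

theorem isDegenerate (hgen : (⨆ A ∈ roots k ρ 𝓝, A) = ⊤)
    (h : ∀ N ∈ 𝓝, ∀ M ∈ 𝓝, Opp k N M ∨ N * M = M * N) : IsDegenerateRootSet (roots k ρ 𝓝) := by
  rintro _ ⟨N, hN, rfl⟩ _ ⟨M, hM, rfl⟩ hc
  have hS := F.isRootSet hgen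
  rcases h N hN M hM with h | h
  · exact psi_not_rk hS ⟨N, hN, rfl⟩ ⟨M, hM, rfl⟩ hc.1 (F.psl2_of_opp hN hM h).2
  · exact hS.ne_bot _ hc.1 ((F.comm_bot_iff' hN hM).2 h)

theorem fadj_of_opp (hN : N ∈ 𝓝) (hM : M ∈ 𝓝) (h : Opp k N M) :
    FAdj (roots k ρ 𝓝) (TG k ρ N) (TG k ρ M) :=
  ⟨⟨N, hN, rfl⟩, ⟨M, hM, rfl⟩, (F.psl2_of_opp hN hM h).2⟩

/-- Connectedness from chains of opposite members. -/
theorem connected_of_opp
    (h : ∀ N ∈ 𝓝, ∀ M ∈ 𝓝, Relation.ReflTransGen (fun N M => N ∈ 𝓝 ∧ M ∈ 𝓝 ∧ Opp k N M) N M) :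
    IsConnectedFamily (FAdj (roots k ρ 𝓝)) (roots k ρ 𝓝) := by
  rintro _ ⟨N, hN, rfl⟩ _ ⟨M, hM, rfl⟩
  exact (h N hN M hM).lift (TG k ρ) fun N M h => F.fadj_of_opp h.1 h.2.1 h.2.2

/-- Connectedness from chains of non-commuting members. -/
theorem connected_of_not_commute (hgen : (⨆ A ∈ roots k ρ 𝓝, A) = ⊤) (h0 : ∀ N ∈ 𝓝, ∃ M ∈ 𝓝, Opp k N M)
    (h : ∀ N ∈ 𝓝, ∀ M ∈ 𝓝, Relation.ReflTransGen (fun N M => N ∈ 𝓝 ∧ M ∈ 𝓝 ∧ N * M ≠ M * N) N M) :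
    IsConnectedFamily (FAdj (roots k ρ 𝓝)) (roots k ρ 𝓝) := by
  have hNI : ∀ E ∈ roots k ρ 𝓝, NI (roots k ρ 𝓝) E := by
    rintro _ ⟨N, hN, rfl⟩
    obtain ⟨M, hM, h⟩ := h0 N hN
    exact ⟨_, ⟨M, hM, rfl⟩, (F.psl2_of_opp hN hM h).2⟩
  rintro _ ⟨N, hN, rfl⟩ _ ⟨M, hM, rfl⟩
  exact (h N hN M hM).lift' (TG k ρ) fun N M h => fconn_of_comm_ne_bot (F.isRootSet hgen) hNI
    ⟨N, h.1, rfl⟩ ⟨M, h.2.1, rfl⟩ fun hc => h.2.2 ((F.comm_bot_iff' h.1 h.2.1).1 hc)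

/-- Restriction to a subgroup holding the root subgroups. -/
theorem restrict {H : Subgroup G} (hH : ∀ N ∈ 𝓝, TG k ρ N ≤ H) : Fam k (ρ.comp H.subtype) 𝓝 where
  inj := F.inj.comp H.subtype_injective
  sq := F.sq
  ne := F.ne
  ex N hN c := by
    obtain ⟨g, hg⟩ := F.ex N hN c
    exact ⟨⟨g, hH N hN ((F.mem_TG' hN).2 ⟨c, hg⟩)⟩, hg⟩
  conj N hN g := F.conj N hN g
  pair := F.pair

theorem image_subgroupOf (H : Subgroup G) :
    (fun A : Subgroup G => A.subgroupOf H) '' roots k ρ 𝓝 = roots k (ρ.comp H.subtype) 𝓝 := by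
  ext A
  constructor
  · rintro ⟨_, ⟨N, hN, rfl⟩, rfl⟩
    exact ⟨N, hN, TG_subgroupOf (F.sq N hN) H⟩
  · rintro ⟨N, hN, rfl⟩
    exact ⟨_, ⟨N, hN, rfl⟩, TG_subgroupOf (F.sq N hN) H⟩

theorem restrict_sup : Fam k (ρ.comp (⨆ A ∈ roots k ρ 𝓝, A).subtype) 𝓝 :=
  F.restrict fun N hN => le_iSup₂_of_le (f := fun A (_ : A ∈ roots k ρ 𝓝) => A) (TG k ρ N) ⟨N, hN, rfl⟩ le_rfl

theorem restrict_sup_gen : (⨆ A ∈ roots k (ρ.comp (⨆ A ∈ roots k ρ 𝓝, A).subtype) 𝓝, A) = ⊤ := by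
  set H := ⨆ A ∈ roots k ρ 𝓝, A with hH
  apply Subgroup.map_injective H.subtype_injective
  rw [← MonoidHom.range_eq_map, Subgroup.range_subtype]
  refine le_antisymm (Subgroup.map_subtype_le _) ?_
  rw [hH]
  refine iSup₂_le ?_
  rintro _ ⟨N, hN, rfl⟩
  have h1 : TG k ρ N ≤ H := le_iSup₂_of_le (f := fun A (_ : A ∈ roots k ρ 𝓝) => A) (TG k ρ N) ⟨N, hN, rfl⟩ le_rfl
  rw [← Subgroup.map_subgroupOf_eq_of_le h1, TG_subgroupOf (F.sq N hN)]
  exact Subgroup.map_mono (le_iSup₂_of_le (f := fun A (_ : A ∈ roots k (ρ.comp H.subtype) 𝓝) => A) _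
    ⟨N, hN, rfl⟩ le_rfl)

end Fam

end CL.Chev.RFam
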