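/-
Root involutions from a family of square zero elements in characteristic two, and the family of
transvection groups of the special linear group.
-/
import Cfsg.Agent.Chev.RootFam
import Cfsg.Agent.Cls.SLnBasic

set_option autoImplicit false

namespace CL.Chev.RFam

open Cfsg CL.Chev.Root CL.Chev.SL2 Matrix
open scoped MatrixGroups commutatorElement

section Involutions

variable {k R G : Type*} [Field k] [Ring R] [Algebra k R] [Group G] {ρ : G →* R} {𝓝 : Set R} {N M : R}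

theorem odd_orderOf_up_mul_lo [Finite k] [CharP k 2] {a : k} (ha : a ≠ 0) :
    Odd (orderOf (up (1 : k) * lo a)) := by
  have h2 : (2 : k) = 0 := CharTwo.two_eq_zero
  set g : SL(2, k) := up 1 * lo a with hg
  rw [← Nat.not_even_iff_odd]
  rintro ⟨m, hm⟩
  have hpos : 0 < orderOf g := orderOf_pos g
  have hz : g ^ m * g ^ m = 1 := by rw [← pow_add, ← hm, pow_orderOf_eq_one]
  have hc : g ^ m * g = g * g ^ m := by rw [← pow_succ, pow_succ']
  have hne : g ^ m ≠ 1 := pow_ne_one_of_lt_orderOf (by omega) (by omega)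
  set z := g ^ m
  have g00 : g 0 0 = 1 + a := by simp only [hg, mul_apply2, up_00, up_01, lo_00, lo_10]; ring
  have g01 : g 0 1 = 1 := by simp only [hg, mul_apply2, up_00, up_01, lo_01, lo_11]; ring
  have g10 : g 1 0 = a := by simp only [hg, mul_apply2, up_10, up_11, lo_00, lo_10]; ring
  have g11 : g 1 1 = 1 := by simp only [hg, mul_apply2, up_10, up_11, lo_01, lo_11]; ring
  have c00 := congrArg (fun x : SL(2, k) => x 0 0) hc
  have c01 := congrArg (fun x : SL(2, k) => x 0 1) hc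
  have z00 := congrArg (fun x : SL(2, k) => x 0 0) hz
  have z01 := congrArg (fun x : SL(2, k) => x 0 1) hz
  simp only [mul_apply2, g00, g01, g10, g11] at c00 c01 z00 z01
  change _ = (1 : k) at z00
  change _ = (0 : k) at z01
  have hy : z 0 1 = 0 := by
    have : a * (z 0 1 * z 0 1) = 0 := by
      linear_combination z01 - z 0 1 * c01 - z 0 1 * z 1 1 * h2
    exact mul_self_eq_zero.1 ((mul_eq_zero.1 this).resolve_left ha)
  have hx : z 0 0 = 1 := by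
    have : (z 0 0 - 1) * (z 0 0 - 1) = 0 := by
      linear_combination z00 - z 1 0 * hy + (1 - z 0 0) * h2
    exact sub_eq_zero.1 (mul_self_eq_zero.1 this)
  apply hne
  refine ext2 hx hy ?_ ?_
  · change _ = (0 : k)
    linear_combination -c00 + a * hy
  · change _ = (1 : k)
    linear_combination -c01 + hx - a * hy

theorem up_mul_lo_pow_three [CharP k 2] : (up (1 : k) * lo 1) ^ 3 = 1 := by
  have h2 : (2 : k) = 0 := CharTwo.two_eq_zero
  rw [pow_three]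
  apply ext2 <;> simp only [mul_apply2, up_00, up_01, up_10, up_11, lo_00, lo_01, lo_10, lo_11]
  · change _ = (1 : k); linear_combination 6 * h2
  · change _ = (0 : k); linear_combination 4 * h2
  · change _ = (0 : k); linear_combination 4 * h2
  · change _ = (1 : k); linear_combination 2 * h2

/-- The elements acting as `1 + N` for a member `N`. -/
def elts (ρ : G →* R) (𝓝 : Set R) : Set G := {g | ∃ N ∈ 𝓝, ρ g = 1 + N}

namespace Fam

variable (F : Fam k ρ 𝓝)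
include F

theorem orderOf_elts [CharP k 2] {g : G} (hg : g ∈ elts ρ 𝓝) : orderOf g = 2 := by
  obtain ⟨N, hN, hg⟩ := hg
  rw [← one_smul k N] at hg
  refine orderOf_eq_prime (F.inj ?_) fun h => one_ne_zero ((eq_one_iff F.inj (F.ne N hN) hg).1 h)
  rw [pow_two, map_mul, hg, one_add_mul (F.sq N hN), CharTwo.add_self_eq_zero, zero_smul, add_zero, map_one]

theorem exists_mul_eq (hN : N ∈ 𝓝) (hM : M ∈ 𝓝) {a : k} (ha : a ≠ 0) (h1 : N * M * N = a • N)
    (h2 : M * N * M = a • M) {x y : G} (hx : ρ x = 1 + N) (hy : ρ y = 1 + M) :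
    ∃ φ : SL(2, k) →* G, x * y = φ (up 1 * lo a) := by
  obtain ⟨φ, hu, hl⟩ := F.exists_hom hN hM ha h1 h2
  refine ⟨φ, F.inj ?_⟩
  rw [map_mul φ, map_mul, map_mul, hu, hl, hx, hy, mul_inv_cancel₀ ha, one_smul, one_smul]

theorem elts_pair [CharP k 2] {x y : G} (hx : x ∈ elts ρ 𝓝) (hy : y ∈ elts ρ 𝓝) :
    x * y = y * x ∨ (∃ a : k, a ≠ 0 ∧ ∃ φ : SL(2, k) →* G, x * y = φ (up 1 * lo a)) ∨
      (orderOf (x * y) = 4 ∧ (x * y) ^ 2 ∈ elts ρ 𝓝) := by
  have ox := F.orderOf_elts hx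
  have oy := F.orderOf_elts hy
  obtain ⟨N, hN, hx⟩ := hx
  obtain ⟨M, hM, hy⟩ := hy
  rcases F.pair N hN M hM with ⟨a, ha, h1, h2⟩ | h | ⟨h1, h2, hK⟩
  · exact Or.inr (Or.inl ⟨a, ha, F.exists_mul_eq hN hM ha h1 h2 hx hy⟩)
  · left
    apply F.inj
    rw [map_mul, map_mul, hx, hy]
    simp only [mul_add, add_mul, one_mul, mul_one, h]
    abel
  · right; right
    have hx2 : x⁻¹ = x := inv_eq_of_mul_eq_one_right (by rw [← pow_two, ← ox, pow_orderOf_eq_one])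
    have hy2 : y⁻¹ = y := inv_eq_of_mul_eq_one_right (by rw [← pow_two, ← oy, pow_orderOf_eq_one])
    rw [← one_smul k N] at hx
    rw [← one_smul k M] at hy
    have h3 := map_commutator_eq (F.sq N hN) (F.sq M hM) h1 h2 hx hy
    rw [hx2, hy2, one_mul, one_smul, mul_assoc (x * y), ← pow_two] at h3
    have hm : (x * y) ^ 2 ∈ elts ρ 𝓝 := ⟨_, hK, h3⟩
    refine ⟨?_, hm⟩
    have h4 := F.orderOf_elts hm
    refine orderOf_eq_prime_pow (p := 2) (n := 1) ?_ ?_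
    · intro h
      rw [pow_one] at h
      rw [h, orderOf_one] at h4
      exact absurd h4 (by norm_num)
    · have h5 := pow_orderOf_eq_one ((x * y) ^ 2)
      rwa [h4, ← pow_mul] at h5

theorem closure_elts (hsm : ∀ N ∈ 𝓝, ∀ c : k, c ≠ 0 → c • N ∈ 𝓝) (hgen : (⨆ A ∈ roots k ρ 𝓝, A) = ⊤) :
    Subgroup.closure (elts ρ 𝓝) = ⊤ := by
  rw [eq_top_iff, ← hgen]
  refine iSup₂_le ?_
  rintro _ ⟨N, hN, rfl⟩ g hg
  obtain ⟨c, hc⟩ := (F.mem_TG' hN).1 hg
  by_cases hc0 : c = 0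
  · rw [(eq_one_iff F.inj (F.ne N hN) hc).2 hc0]; exact Subgroup.one_mem _
  · exact Subgroup.subset_closure ⟨_, hsm N hN c hc0, hc⟩

theorem isRootInvSet [Finite k] [CharP k 2] (hsm : ∀ N ∈ 𝓝, ∀ c : k, c ≠ 0 → c • N ∈ 𝓝)
    (hgen : (⨆ A ∈ roots k ρ 𝓝, A) = ⊤) : IsRootInvolutionSet (elts ρ 𝓝) where
  orderOf_eq _ hd := F.orderOf_elts hd
  generates := F.closure_elts hsm hgen
  conj_mem := by
    rintro d ⟨N, hN, hd⟩ g
    refine ⟨_, F.conj N hN g, ?_⟩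
    have := conj_one_add (ρ := ρ) g (1 : k) N
    rwa [one_smul, one_smul, ← hd, ← map_mul, ← map_mul] at this
  pair a ha b hb := by
    rcases F.elts_pair ha hb with h | ⟨c, hc, φ, h⟩ | h
    · exact Or.inl h
    · refine Or.inr (Or.inl ?_)
      rw [h]
      exact (odd_orderOf_up_mul_lo hc).of_dvd_nat (orderOf_map_dvd φ _)
    · exact Or.inr (Or.inr h)

theorem threeFour [CharP k 2] (hk : ∀ a : k, a ≠ 0 → a = 1) {x y : G} (hx : x ∈ elts ρ 𝓝) (hy : y ∈ elts ρ 𝓝)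
    (h : Odd (orderOf (x * y))) : orderOf (x * y) = 1 ∨ orderOf (x * y) = 3 := by
  rcases F.elts_pair hx hy with h1 | ⟨c, hc, φ, h1⟩ | h1
  · left
    have h2 : (x * y) ^ 2 = 1 := by
      rw [Commute.mul_pow h1, ← F.orderOf_elts hx, pow_orderOf_eq_one, F.orderOf_elts hx, ← F.orderOf_elts hy,
        pow_orderOf_eq_one, one_mul]
    rcases (Nat.dvd_prime Nat.prime_two).1 (orderOf_dvd_of_pow_eq_one h2) with h3 | h3
    · exact h3
    · rw [h3] at h; exact absurd h (by decide)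
  · refine (Nat.dvd_prime Nat.prime_three).1 (orderOf_dvd_of_pow_eq_one ?_)
    rw [h1, hk c hc, ← map_pow, up_mul_lo_pow_three, map_one]
  · rw [h1.1] at h; exact absurd h (by decide)

/-- All non-identity elements of a root subgroup with an opposite are conjugate if every scalar is a square. -/
theorem exists_conj_smul (hN : N ∈ 𝓝) (hM : M ∈ 𝓝) (h : Opp k N M) {r : k} (hr : r ≠ 0) {x y : G}
    (hx : ρ x = 1 + N) (hy : ρ y = 1 + (r * r) • N) : ∃ g, y = g * x * g⁻¹ := by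
  obtain ⟨a, ha, h1, h2⟩ := h
  obtain ⟨φ, hu, -⟩ := F.exists_hom hN hM ha h1 h2
  let d : SL(2, k) := ⟨!![r, 0; 0, r⁻¹], by simp [Matrix.det_fin_two, hr]⟩
  have hd : up (r * r) * d = d * up 1 := by
    apply ext2 <;> simp only [mul_apply2, up_00, up_01, up_10, up_11] <;> simp [d, hr]
  have e1 : x = φ (up 1) := F.inj (by rw [hu, hx, one_smul])
  have e2 : y = φ (up (r * r)) := F.inj (by rw [hu, hy])
  exact ⟨φ d, by rw [e1, e2, ← map_mul, ← hd, map_mul, mul_inv_cancel_right]⟩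

theorem isRootInvClass [Finite k] [CharP k 2] (hsm : ∀ N ∈ 𝓝, ∀ c : k, c ≠ 0 → c • N ∈ 𝓝)
    (hgen : (⨆ A ∈ roots k ρ 𝓝, A) = ⊤) (h0 : ∀ N ∈ 𝓝, ∃ M ∈ 𝓝, Opp k N M)
    (hc : IsConjClassOfSubgroups (roots k ρ 𝓝)) : IsRootInvolutionClass (elts ρ 𝓝) := by
  refine ⟨F.isRootInvSet hsm hgen, ?_, ?_⟩
  · obtain ⟨_, N, hN, rfl⟩ := hc.1
    obtain ⟨g, hg⟩ := F.ex N hN 1
    exact ⟨g, N, hN, by rw [hg, one_smul]⟩
  · rintro x ⟨N, hN, hx⟩ y ⟨M, hM, hy⟩
    obtain ⟨g, hg⟩ := hc.2 _ ⟨N, hN, rfl⟩ _ ⟨M, hM, rfl⟩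
    have hy' : y ∈ TG k ρ M := (F.mem_TG' hM).2 ⟨1, by rw [hy, one_smul]⟩
    rw [hg, mem_conjBy, F.mem_TG' hN] at hy'
    obtain ⟨c, hc'⟩ := hy'
    have hc0 : c ≠ 0 := by
      intro h
      have h1 := (eq_one_iff F.inj (F.ne N hN) hc').2 h
      have h2 : y = 1 := by
        calc y = g * (g⁻¹ * y * g) * g⁻¹ := by group
          _ = 1 := by rw [h1]; group
      rw [← one_smul k M] at hy
      exact one_ne_zero ((eq_one_iff F.inj (F.ne M hM) hy).1 h2)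
    have := Fintype.ofFinite k
    obtain ⟨r, rfl⟩ := FiniteField.isSquare_of_char_two (ringChar.eq k 2) c
    obtain ⟨N', hN', ho⟩ := h0 N hN
    obtain ⟨g', hg'⟩ := F.exists_conj_smul hN hN' ho (left_ne_zero_of_mul hc0) hx hc'
    exact ⟨g * g', by
      calc y = g * (g⁻¹ * y * g) * g⁻¹ := by group
        _ = _ := by rw [hg']; group⟩

end Fam

end Involutions

section Linear

variable {ι k : Type*} [Fintype ι] [DecidableEq ι] [Field k]

omit [DecidableEq ι] in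
theorem rk1_mul (v φ w ψ : ι → k) : vecMulVec v φ * vecMulVec w ψ = (φ ⬝ᵥ w) • vecMulVec v ψ := by
  rw [vecMulVec_mul_vecMulVec, vecMulVec_smul]

omit [DecidableEq ι] in
theorem rk1_mul_mul (v φ w ψ : ι → k) :
    vecMulVec v φ * vecMulVec w ψ * vecMulVec v φ = ((φ ⬝ᵥ w) * (ψ ⬝ᵥ v)) • vecMulVec v φ := by
  rw [rk1_mul, smul_mul_assoc, rk1_mul, smul_smul]

theorem exists_dot_ne_zero {v : ι → k} (hv : v ≠ 0) : ∃ φ : ι → k, φ ⬝ᵥ v ≠ 0 := by
  obtain ⟨i, hi⟩ := Function.ne_iff.1 hv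
  exact ⟨Pi.single i 1, by simpa using hi⟩

theorem exists_dot_ne_zero₂ {v w : ι → k} (hv : v ≠ 0) (hw : w ≠ 0) :
    ∃ φ : ι → k, φ ⬝ᵥ v ≠ 0 ∧ φ ⬝ᵥ w ≠ 0 := by
  obtain ⟨φ, hφ⟩ := exists_dot_ne_zero hv
  obtain ⟨ψ, hψ⟩ := exists_dot_ne_zero hw
  by_cases h1 : φ ⬝ᵥ w = 0
  · by_cases h2 : ψ ⬝ᵥ v = 0
    · exact ⟨φ + ψ, by simpa [h2] using hφ, by simpa [h1] using hψ⟩
    · exact ⟨ψ, h2, hψ⟩
  · exact ⟨φ, hφ, h1⟩

/-- The rank one matrices of square zero. -/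
def linFam (ι k : Type*) [Fintype ι] [Field k] : Set (Matrix ι ι k) :=
  {N | ∃ v φ : ι → k, v ≠ 0 ∧ φ ≠ 0 ∧ φ ⬝ᵥ v = 0 ∧ N = vecMulVec v φ}

omit [DecidableEq ι] in
theorem smul_mem_linFam {N : Matrix ι ι k} (hN : N ∈ linFam ι k) {c : k} (hc : c ≠ 0) : c • N ∈ linFam ι k := by
  obtain ⟨v, φ, hv, hφ, h0, rfl⟩ := hN
  exact ⟨v, c • φ, hv, smul_ne_zero hc hφ, by simp [h0], (vecMulVec_smul _ _ _).symm⟩

theorem linFam_fam : Fam k (SpecialLinearGroup.coeMonoidHom : SpecialLinearGroup ι k →* Matrix ι ι k)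
    (linFam ι k) where
  inj := SpecialLinearGroup.coeMonoidHom_injective
  sq := by
    rintro _ ⟨v, φ, -, -, h0, rfl⟩
    rw [rk1_mul, h0, zero_smul]
  ne := by
    rintro _ ⟨v, φ, hv, hφ, -, rfl⟩
    exact vecMulVec_ne_zero hv hφ
  ex := by
    rintro _ ⟨v, φ, -, -, h0, rfl⟩ c
    refine ⟨⟨1 + c • vecMulVec v φ, ?_⟩, rfl⟩
    rw [← smul_vecMulVec, vecMulVec_eq Unit, det_one_add_replicateCol_mul_replicateRow]
    simp [h0]
  conj := by
    rintro _ ⟨v, φ, hv, hφ, h0, rfl⟩ g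
    have e1 : ((g⁻¹ : SpecialLinearGroup ι k) : Matrix ι ι k) * (g : Matrix ι ι k) = 1 :=
      congrArg Subtype.val (inv_mul_cancel g)
    refine ⟨(g : Matrix ι ι k) *ᵥ v, φ ᵥ* ((g⁻¹ : SpecialLinearGroup ι k) : Matrix ι ι k), fun h => hv ?_,
      fun h => hφ ?_, ?_, ?_⟩
    · rw [← one_mulVec v, ← e1, ← mulVec_mulVec, h, mulVec_zero]
    · rw [← vecMul_one φ, ← e1, ← vecMul_vecMul, h, zero_vecMul]
    · rw [dotProduct_mulVec, vecMul_vecMul, e1, vecMul_one, h0]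
    · rw [SpecialLinearGroup.coeMonoidHom_apply, SpecialLinearGroup.coeMonoidHom_apply, mul_vecMulVec,
        vecMulVec_mul]
  pair := by
    rintro _ ⟨v, φ, hv, hφ, h0, rfl⟩ _ ⟨w, ψ, hw, hψ, h1, rfl⟩
    by_cases ha : φ ⬝ᵥ w = 0
    · by_cases hb : ψ ⬝ᵥ v = 0
      · exact Or.inr (Or.inl (by rw [rk1_mul, rk1_mul, ha, hb, zero_smul, zero_smul]))
      · refine Or.inr (Or.inr ⟨by rw [rk1_mul_mul, ha, zero_mul, zero_smul],
          by rw [rk1_mul_mul, ha, mul_zero, zero_smul], ?_⟩)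
        rw [rk1_mul, rk1_mul, ha, zero_smul, zero_sub, ← neg_smul]
        exact smul_mem_linFam ⟨w, φ, hw, hφ, ha, rfl⟩ (neg_ne_zero.2 hb)
    · by_cases hb : ψ ⬝ᵥ v = 0
      · refine Or.inr (Or.inr ⟨by rw [rk1_mul_mul, hb, mul_zero, zero_smul],
          by rw [rk1_mul_mul, hb, zero_mul, zero_smul], ?_⟩)
        rw [rk1_mul, rk1_mul, hb, zero_smul, sub_zero]
        exact smul_mem_linFam ⟨v, ψ, hv, hψ, hb, rfl⟩ ha
      · exact Or.inl ⟨_, mul_ne_zero ha hb, rk1_mul_mul _ _ _ _, by rw [rk1_mul_mul, mul_comm]⟩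

omit [Fintype ι] in
theorem single_eq_rk1 (i j : ι) : single i j (1 : k) = vecMulVec (Pi.single i 1) (Pi.single j 1) :=
  single_eq_single_vecMulVec_single i j

theorem single_mem_linFam {i j : ι} (h : i ≠ j) : single i j (1 : k) ∈ linFam ι k :=
  ⟨Pi.single i 1, Pi.single j 1, by simp, by simp, by simp [h.symm], single_eq_rk1 i j⟩

theorem linFam_gen : (⨆ A ∈ roots k (SpecialLinearGroup.coeMonoidHom : SpecialLinearGroup ι k →* Matrix ι ι k)
    (linFam ι k), A) = ⊤ := by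
  refine CL.SLn.eq_top_of_transvection_mem _ fun i j hij c => ?_
  refine le_iSup₂_of_le (f := fun A (_ : A ∈ roots k _ (linFam ι k)) => A) _ ⟨_, single_mem_linFam hij, rfl⟩ le_rfl ?_
  refine (linFam_fam.mem_TG' (single_mem_linFam hij)).2 ⟨c, ?_⟩
  rw [SpecialLinearGroup.coeMonoidHom_apply, SpecialLinearGroup.transvection_coe, smul_single, smul_eq_mul, mul_one]

theorem linFam_exists_opp {N : Matrix ι ι k} (hN : N ∈ linFam ι k) : ∃ M ∈ linFam ι k, Opp k N M := by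
  obtain ⟨v, φ, hv, hφ, h0, rfl⟩ := hN
  obtain ⟨χ, hχ⟩ := exists_dot_ne_zero hv
  obtain ⟨w, hw⟩ := exists_dot_ne_zero hφ
  rw [dotProduct_comm] at hw
  have e1 : (χ - ((χ ⬝ᵥ w) / (φ ⬝ᵥ w)) • φ) ⬝ᵥ v = χ ⬝ᵥ v := by simp [h0]
  refine ⟨_, ⟨w, χ - ((χ ⬝ᵥ w) / (φ ⬝ᵥ w)) • φ, ?_, ?_, ?_, rfl⟩, _, mul_ne_zero hw (e1 ▸ hχ), rk1_mul_mul _ _ _ _,
    by rw [rk1_mul_mul, mul_comm]⟩
  · rintro rfl; simp at hw
  · intro h; rw [h] at e1; simp [hχ.symm] at e1
  · simp [hw]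

omit [DecidableEq ι] in
theorem rk1_not_commute {v φ w ψ : ι → k} (hv : v ≠ 0) (hψ : ψ ≠ 0) (h0 : φ ⬝ᵥ v = 0) (h : φ ⬝ᵥ w ≠ 0) :
    vecMulVec v φ * vecMulVec w ψ ≠ vecMulVec w ψ * vecMulVec v φ := by
  intro he
  have h1 := congrArg (fun X => vecMulVec v φ * X) he
  simp only [← mul_assoc] at h1
  rw [rk1_mul v φ v, h0, zero_smul, zero_mul, rk1_mul_mul] at h1
  have hφ : φ ≠ 0 := by rintro rfl; simp at h
  have hb : ψ ⬝ᵥ v = 0 := by
    by_contra hb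
    exact vecMulVec_ne_zero hv hφ ((smul_eq_zero.1 h1.symm).resolve_left (mul_ne_zero h hb))
  rw [rk1_mul, rk1_mul, hb, zero_smul] at he
  exact vecMulVec_ne_zero hv hψ ((smul_eq_zero.1 he).resolve_left h)

theorem linFam_connected [Nontrivial ι] : IsConnectedFamily
    (FAdj (roots k (SpecialLinearGroup.coeMonoidHom : SpecialLinearGroup ι k →* Matrix ι ι k) (linFam ι k)))
    (roots k (SpecialLinearGroup.coeMonoidHom : SpecialLinearGroup ι k →* Matrix ι ι k) (linFam ι k)) := by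
  refine linFam_fam.connected_of_not_commute linFam_gen (fun _ => linFam_exists_opp) ?_
  rintro _ ⟨v, φ, hv, hφ, h0, rfl⟩ _ ⟨w, ψ, hw, hψ, h1, rfl⟩
  obtain ⟨χ, h2, h3⟩ := exists_dot_ne_zero₂ hv hw
  have hχ : χ ≠ 0 := by rintro rfl; simp at h2
  obtain ⟨i, hi⟩ := Function.ne_iff.1 hχ
  obtain ⟨j, hj⟩ := exists_ne i
  have hu : (Pi.single j (χ i) - Pi.single i (χ j) : ι → k) ≠ 0 := by
    intro h
    have := congrFun h j
    simp [hj] at this
    exact hi this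
  have hu0 : χ ⬝ᵥ (Pi.single j (χ i) - Pi.single i (χ j) : ι → k) = 0 := by simp [mul_comm]
  have hm : vecMulVec _ χ ∈ linFam ι k := ⟨_, χ, hu, hχ, hu0, rfl⟩
  exact .head ⟨⟨v, φ, hv, hφ, h0, rfl⟩, hm, (rk1_not_commute hu hφ hu0 h2).symm⟩
    (.single ⟨hm, ⟨w, ψ, hw, hψ, h1, rfl⟩, rk1_not_commute hu hψ hu0 h3⟩)

theorem linFam_class [Nontrivial ι] : IsRootSubgroupClass
    (roots k (SpecialLinearGroup.coeMonoidHom : SpecialLinearGroup ι k →* Matrix ι ι k) (linFam ι k)) := by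
  obtain ⟨i, j, hij⟩ := exists_pair_ne ι
  exact class_of_connected (linFam_fam.isRootSet linFam_gen) ⟨_, single_mem_linFam hij, rfl⟩ linFam_connected

theorem closure_transvection_eq {i j : ι} : Subgroup.closure {t : SpecialLinearGroup ι k |
      ∃ c : k, (t : Matrix ι ι k) = transvection i j c} =
    TG k (SpecialLinearGroup.coeMonoidHom : SpecialLinearGroup ι k →* Matrix ι ι k) (single i j 1) :=
  closure_eq_TG fun g => exists_congr fun c => by
    rw [SpecialLinearGroup.coeMonoidHom_apply, smul_single, smul_eq_mul, mul_one]; rfl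

end Linear

end CL.Chev.RFam
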