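/-
The Siegel transvection groups of a non-degenerate quadratic space as a family of root subgroups.
-/
import Cfsg.Agent.Chev.RootFam
import Cfsg.Agent.Cls.OrthGen

set_option autoImplicit false

namespace CL.Chev.RFam

open CL.Cls QuadraticMap Module

variable {F V : Type*} [Field F] [AddCommGroup V] [Module F V] {Q : QuadraticForm F V}

/-- The square zero map of the Siegel transvections of the line spanned by `p` and `r`. -/
def wedge (Q : QuadraticForm F V) (p r : V) : Module.End F V :=
  (polarBilin Q r).smulRight p - (polarBilin Q p).smulRight r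

theorem wedge_apply (p r x : V) : wedge Q p r x = polar Q r x • p - polar Q p x • r := by
  simp [wedge]

/-- `p`, `r` is a basis of a singular line. -/
structure SingLine (Q : QuadraticForm F V) (p r : V) : Prop where
  indep : LinearIndependent F ![p, r]
  left : Q p = 0
  right : Q r = 0
  perp : polar Q p r = 0

variable {p r p' r' : V}

theorem wedge_comb (p r : V) (a b c d : F) :
    wedge Q (a • p + b • r) (c • p + d • r) = (a * d - b * c) • wedge Q p r := by
  ext x
  simp only [wedge_apply, LinearMap.smul_apply, polar_add_left, polar_smul_left, smul_eq_mul]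
  module

theorem wedge_eq_zero (h : ¬ LinearIndependent F ![p, r]) : wedge Q p r = 0 := by
  rw [LinearIndependent.pair_iff] at h
  push Not at h
  obtain ⟨s, t, h0, h1⟩ := h
  by_cases hs : s = 0
  · have h2 := wedge_comb (Q := Q) p r 1 0 s t
    rw [h0, hs, mul_zero, sub_zero, one_mul] at h2
    refine (smul_eq_zero.1 (h2.symm.trans ?_)).resolve_left (h1 hs)
    ext x; simp [wedge_apply]
  · have h2 := wedge_comb (Q := Q) p r s t 0 1
    rw [h0, mul_zero, sub_zero, mul_one] at h2
    refine (smul_eq_zero.1 (h2.symm.trans ?_)).resolve_left hs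
    ext x; simp [wedge_apply]

namespace SingLine

theorem pp (h : SingLine Q p r) : polar Q p p = 0 := by rw [polar_self', h.left, mul_zero]

theorem rr (h : SingLine Q p r) : polar Q r r = 0 := by rw [polar_self', h.right, mul_zero]

theorem rp (h : SingLine Q p r) : polar Q r p = 0 := by rw [polar_comm, h.perp]

theorem eq_zero (h : SingLine Q p r) {s t : F} (h0 : s • p + t • r = 0) : s = 0 ∧ t = 0 :=
  LinearIndependent.pair_iff.1 h.indep s t h0

theorem map_comb (h : SingLine Q p r) (a b : F) : Q (a • p + b • r) = 0 := by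
  rw [map_add', map_smul', map_smul', polar_smul_left, polar_smul_right, h.left, h.right, h.perp]; simp

theorem comb (h : SingLine Q p r) {a b c d : F} (hd : a * d - b * c ≠ 0) :
    SingLine Q (a • p + b • r) (c • p + d • r) := by
  refine ⟨LinearIndependent.pair_iff.2 fun s t h0 => ?_, h.map_comb a b, h.map_comb c d, ?_⟩
  · obtain ⟨h1, h2⟩ := h.eq_zero (s := s * a + t * c) (t := s * b + t * d) (by rw [← h0]; module)
    constructor
    · exact (mul_eq_zero.1 (show s * (a * d - b * c) = 0 by linear_combination d * h1 - c * h2)).resolve_right hd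
    · exact (mul_eq_zero.1 (show t * (a * d - b * c) = 0 by linear_combination a * h2 - b * h1)).resolve_right hd
  · simp only [polar_add_left, polar_add_right, polar_smul_left, polar_smul_right, h.pp, h.rr, h.rp, h.perp,
      smul_zero, add_zero]

theorem left_ne_zero (h : SingLine Q p r) : p ≠ 0 := fun h0 =>
  one_ne_zero (h.eq_zero (s := 1) (t := 0) (by simp [h0])).1

/-- Every non-zero vector of the line is the first vector of a basis with the same wedge. -/
theorem rebase (h : SingLine Q p r) {a b : F} (hab : a • p + b • r ≠ 0) :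
    ∃ x, SingLine Q (a • p + b • r) x ∧ wedge Q (a • p + b • r) x = wedge Q p r := by
  by_cases ha : a = 0
  · have hb : b ≠ 0 := by rintro rfl; simp [ha] at hab
    have e : a * 0 - b * -b⁻¹ = 1 := by field_simp; ring
    exact ⟨_, h.comb (c := -b⁻¹) (d := 0) (by rw [e]; exact one_ne_zero), by rw [wedge_comb, e, one_smul]⟩
  · have e : a * a⁻¹ - b * 0 = 1 := by field_simp; ring
    exact ⟨_, h.comb (c := 0) (d := a⁻¹) (by rw [e]; exact one_ne_zero), by rw [wedge_comb, e, one_smul]⟩

theorem sq (h : SingLine Q p r) : wedge Q p r * wedge Q p r = 0 := by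
  ext x
  simp only [Module.End.mul_apply, wedge_apply, polar_sub_right, polar_smul_right, h.pp, h.rr, h.rp, h.perp,
    smul_zero, sub_zero, zero_smul, LinearMap.zero_apply]

theorem exists_dual (hQ : (polarBilin Q).Nondegenerate) (h : SingLine Q p r) :
    ∃ u w, polar Q p u = 1 ∧ polar Q r u = 0 ∧ polar Q p w = 0 ∧ polar Q r w = 1 := by
  obtain ⟨u, hu⟩ := exists_polar_eq_one hQ h.left_ne_zero
  have h1 : (-polar Q r u) • p + (1 : F) • r ≠ 0 := fun h0 => one_ne_zero (h.eq_zero h0).2
  obtain ⟨w, hw⟩ := exists_polar_eq_one hQ h1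
  simp only [polar_add_left, polar_smul_left, smul_eq_mul] at hw
  refine ⟨u - polar Q r u • (w - polar Q p w • u), w - polar Q p w • u, ?_, ?_, ?_, ?_⟩ <;>
    simp only [polar_sub_right, polar_smul_right, smul_eq_mul, hu]
  · ring
  · linear_combination (-polar Q r u) * hw
  · ring
  · linear_combination hw

theorem ne_zero (hQ : (polarBilin Q).Nondegenerate) (h : SingLine Q p r) : wedge Q p r ≠ 0 := by
  obtain ⟨u, w, -, -, h1, h2⟩ := h.exists_dual hQ
  intro h0
  have := wedge_apply (Q := Q) p r w
  rw [h0, h1, h2, one_smul, zero_smul, sub_zero] at this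
  exact h.left_ne_zero this.symm

/-- An isometry fixing the perpendicular space of a singular line is a Siegel transvection. -/
theorem exists_eq (hQ : (polarBilin Q).Nondegenerate) (h : SingLine Q p r) (g : OG Q)
    (hg : ∀ v, polar Q p v = 0 → polar Q r v = 0 → g.1 v = v) :
    ∃ c : F, ∀ v, g.1 v = v + c • wedge Q p r v := by
  obtain ⟨u, w, h1, h2, h3, h4⟩ := h.exists_dual hQ
  have dec : ∀ v, g.1 (v - polar Q p v • u - polar Q r v • w) = v - polar Q p v • u - polar Q r v • w := fun v =>
    hg _ (by simp only [polar_sub_right, polar_smul_right, h1, h3, smul_eq_mul]; ring)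
      (by simp only [polar_sub_right, polar_smul_right, h2, h4, smul_eq_mul]; ring)
  have key : ∀ y, g.1 y - y = polar Q u (g.1 y - y) • p + polar Q w (g.1 y - y) • r := by
    intro y
    rw [← sub_eq_zero]
    refine nondeg_iff.1 hQ _ fun v => ?_
    have h5 := polar_app_sub_of_fixed g (dec v) y
    set x := g.1 y - y
    simp only [polar_sub_left, polar_smul_left, polar_add_left, smul_eq_mul] at h5 ⊢
    rw [polar_comm Q x v]
    linear_combination h5
  have hu := key u
  have hw := key w
  have q1 := map_app_sub g u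
  have q2 := map_app_sub g w
  rw [hu, h.map_comb, ← hu, eq_comm, neg_eq_zero] at q1
  rw [hw, h.map_comb, ← hw, eq_comm, neg_eq_zero] at q2
  rw [q1, zero_smul, zero_add, sub_eq_iff_eq_add] at hu
  rw [q2, zero_smul, add_zero, sub_eq_iff_eq_add] at hw
  set b := polar Q w (g.1 u - u)
  set c := polar Q u (g.1 w - w)
  have q3 := OG.polar_app g u w
  rw [hu, hw] at q3
  simp only [polar_add_left, polar_add_right, polar_smul_left, polar_smul_right, h.rp, h4, polar_comm Q u p, h1,
    smul_eq_mul] at q3
  refine ⟨c, fun v => ?_⟩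
  have h6 := dec v
  rw [map_sub, map_sub, map_smul, map_smul, hu, hw, sub_eq_iff_eq_add, sub_eq_iff_eq_add] at h6
  rw [h6, wedge_apply, show b = -c by linear_combination q3]
  module

end SingLine

theorem wedge_mul_mul (p r p' r' : V) : wedge Q p r * wedge Q p' r' * wedge Q p r =
    (polar Q p r' * polar Q r p' - polar Q p p' * polar Q r r') • wedge Q p r := by
  ext x
  simp only [Module.End.mul_apply, wedge_apply, polar_sub_right, polar_smul_right, LinearMap.smul_apply,
    smul_eq_mul, polar_comm Q r' p, polar_comm Q r' r, polar_comm Q p' p, polar_comm Q p' r]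
  module

theorem wedge_mul_mul' (p r p' r' : V) : wedge Q p' r' * wedge Q p r * wedge Q p' r' =
    (polar Q p r' * polar Q r p' - polar Q p p' * polar Q r r') • wedge Q p' r' := by
  rw [wedge_mul_mul, polar_comm Q p' r, polar_comm Q r' p, polar_comm Q p' p, polar_comm Q r' r, mul_comm]

/-- The square zero maps of the singular lines. -/
def siegelFam (Q : QuadraticForm F V) : Set (Module.End F V) := {N | ∃ p r, SingLine Q p r ∧ N = wedge Q p r}

theorem commutator_wedge (h : SingLine Q p r) (h' : SingLine Q p' r') (h0 : polar Q p p' ≠ 0)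
    (hd : polar Q p r' * polar Q r p' - polar Q p p' * polar Q r r' = 0) :
    wedge Q p r * wedge Q p' r' = wedge Q p' r' * wedge Q p r ∨
      wedge Q p r * wedge Q p' r' - wedge Q p' r' * wedge Q p r ∈ siegelFam Q := by
  set x := (-polar Q r p') • p + polar Q p p' • r with hx
  set y := (polar Q p r' / polar Q p p') • p' + (-1 : F) • r' with hy
  have e : wedge Q p r * wedge Q p' r' - wedge Q p' r' * wedge Q p r = wedge Q x y := by
    have hr : polar Q r r' = polar Q p r' * polar Q r p' / polar Q p p' := by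
      field_simp; linear_combination -hd
    ext v
    simp only [LinearMap.sub_apply, Module.End.mul_apply, wedge_apply, polar_sub_right, polar_smul_right, hx, hy,
      polar_add_left, polar_smul_left, smul_eq_mul, polar_comm Q r' p, polar_comm Q r' r, polar_comm Q p' p,
      polar_comm Q p' r, hr]
    match_scalars <;> field_simp <;> ring
  by_cases hi : LinearIndependent F ![x, y]
  · refine Or.inr ⟨x, y, ⟨hi, h.map_comb _ _, h'.map_comb _ _, ?_⟩, e⟩
    simp only [hx, hy, polar_add_left, polar_add_right, polar_smul_left, polar_smul_right, smul_eq_mul]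
    field_simp
    linear_combination hd
  · left
    rw [← sub_eq_zero, e, wedge_eq_zero hi]

theorem SingLine.swap (h : SingLine Q p r) : ∃ x, SingLine Q r x ∧ wedge Q r x = wedge Q p r := by
  have := h.rebase (a := 0) (b := 1) fun h0 => one_ne_zero (h.eq_zero h0).2
  rwa [zero_smul, one_smul, zero_add] at this

theorem siegel_pair : ∀ N ∈ siegelFam Q, ∀ M ∈ siegelFam Q, Opp F N M ∨ N * M = M * N ∨
    (N * M * N = 0 ∧ M * N * M = 0 ∧ N * M - M * N ∈ siegelFam Q) := by
  have key : ∀ {p r p' r' : V}, SingLine Q p r → SingLine Q p' r' → polar Q p p' ≠ 0 →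
      Opp F (wedge Q p r) (wedge Q p' r') ∨ wedge Q p r * wedge Q p' r' = wedge Q p' r' * wedge Q p r ∨
      (wedge Q p r * wedge Q p' r' * wedge Q p r = 0 ∧ wedge Q p' r' * wedge Q p r * wedge Q p' r' = 0 ∧
        wedge Q p r * wedge Q p' r' - wedge Q p' r' * wedge Q p r ∈ siegelFam Q) := by
    intro p r p' r' h h' h0
    by_cases hd : polar Q p r' * polar Q r p' - polar Q p p' * polar Q r r' = 0
    · rcases commutator_wedge h h' h0 hd with h1 | h1
      · exact Or.inr (Or.inl h1)
      · exact Or.inr (Or.inr ⟨by rw [wedge_mul_mul, hd, zero_smul], by rw [wedge_mul_mul', hd, zero_smul], h1⟩)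
    · exact Or.inl ⟨_, hd, wedge_mul_mul _ _ _ _, wedge_mul_mul' _ _ _ _⟩
  rintro _ ⟨p, r, h, rfl⟩ _ ⟨p', r', h', rfl⟩
  obtain ⟨x, hx, ex⟩ := h.swap
  obtain ⟨x', hx', ex'⟩ := h'.swap
  by_cases h1 : polar Q p p' = 0
  swap
  · exact key h h' h1
  by_cases h2 : polar Q p r' = 0
  swap
  · rw [← ex']; exact key h hx' h2
  by_cases h3 : polar Q r p' = 0
  swap
  · rw [← ex]; exact key hx h' h3
  by_cases h4 : polar Q r r' = 0
  swap
  · rw [← ex, ← ex']; exact key hx hx' h4
  refine Or.inr (Or.inl ?_)
  ext v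
  simp only [Module.End.mul_apply, wedge_apply, polar_sub_right, polar_smul_right, polar_comm Q r' p,
    polar_comm Q r' r, polar_comm Q p' p, polar_comm Q p' r, h1, h2, h3, h4, smul_zero, sub_zero, zero_smul]

/-- The representation of the isometry group by endomorphisms. -/
def ogRep (Q : QuadraticForm F V) : OG Q →* Module.End F V where
  toFun g := g.1
  map_one' := rfl
  map_mul' _ _ := rfl

theorem SingLine.map (h : SingLine Q p r) (g : OG Q) : SingLine Q (g.1 p) (g.1 r) := by
  refine ⟨LinearIndependent.pair_iff.2 fun s t h0 => h.eq_zero (g.1.injective ?_), by rw [OG.map_app, h.left],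
    by rw [OG.map_app, h.right], by rw [OG.polar_app, h.perp]⟩
  rw [map_add, map_smul, map_smul, h0, map_zero]

theorem siegel_fam (hQ : (polarBilin Q).Nondegenerate) {G : Type*} [Group G] (e : G ≃* OG Q) :
    Fam F ((ogRep Q).comp e.toMonoidHom) (siegelFam Q) where
  inj g h he := e.injective (OG.ext' fun v => LinearMap.congr_fun he v)
  sq := by
    rintro _ ⟨p, r, h, rfl⟩
    exact h.sq
  ne := by
    rintro _ ⟨p, r, h, rfl⟩
    exact h.ne_zero hQ
  ex := by
    rintro _ ⟨p, r, h, rfl⟩ c
    refine ⟨e.symm (eich Q p (c • r)), LinearMap.ext fun v => ?_⟩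
    change (e (e.symm _)).1 v = v + c • wedge Q p r v
    rw [MulEquiv.apply_symm_apply, eich_app h.left (by rw [polar_smul_right, h.perp, smul_zero]), map_smul',
      h.right, wedge_apply, polar_smul_left, smul_eq_mul]
    module
  conj := by
    rintro _ ⟨p, r, h, rfl⟩ g
    refine ⟨_, _, h.map (e g), LinearMap.ext fun v => ?_⟩
    change (e g).1 (wedge Q p r ((e g⁻¹).1 v)) = _
    rw [wedge_apply, wedge_apply, map_sub, map_smul, map_smul, OG.polar_app_left, OG.polar_app_left, map_inv]
  pair := siegel_pair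

section Connected

variable [FiniteDimensional F V]

theorem exists_singular_both {W : Submodule F V} (hW : NDon Q W) (h3 : 3 ≤ finrank F W) {x y : V} (hx : x ∈ W)
    (hy : y ∈ W) (hx0 : x ≠ 0) (hy0 : y ≠ 0) (hqx : Q x = 0) (hqy : Q y = 0) :
    ∃ z ∈ W, Q z = 0 ∧ polar Q x z ≠ 0 ∧ polar Q y z ≠ 0 := by
  by_cases hxy : polar Q x y = 0
  · exact hW.exists_singular_polar_ne_zero₂ hx hy hx0 hy0 hqx hxy
  set f := (polar Q x y)⁻¹ • y with hf
  have hyp : IsHyp Q x f := ⟨hqx, by rw [hf, map_smul', hqy, mul_zero], by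
    rw [hf, polar_smul_right, smul_eq_mul, inv_mul_cancel₀ hxy]⟩
  have hfW : f ∈ W := W.smul_mem _ hy
  have h1 := finrank_hypC hyp hx hfW
  obtain ⟨w, hw, hqw⟩ := (hW.hypC hyp hx hfW).exists_nonsingular fun h0 => by
    rw [h0, finrank_bot] at h1; omega
  obtain ⟨hwW, h2, h4⟩ := mem_hypC.1 hw
  have h5 : polar Q f ((1 : F) • x + (-Q w) • f + w) = 1 := by
    simp only [polar_add_right, polar_smul_right, hyp.polar_eq', hyp.polar_right, h4, smul_eq_mul]; ring
  refine ⟨(1 : F) • x + (-Q w) • f + w, W.add_mem (W.add_mem (W.smul_mem _ hx) (W.smul_mem _ hfW)) hwW, ?_, ?_, ?_⟩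
  · rw [hyp.map_comb_add _ _ h2 h4]; ring
  · simp only [polar_add_right, polar_smul_right, hyp.polar_eq, hyp.polar_left, h2, smul_eq_mul]
    simpa using hqw
  · intro h0
    rw [hf, polar_smul_left, h0, smul_zero] at h5
    exact zero_ne_one h5

theorem chain_of_common (hQ : (polarBilin Q).Nondegenerate) (h5 : 5 ≤ finrank F V) (h : SingLine Q p r)
    (h' : SingLine Q p r') : Relation.ReflTransGen (fun N M => N ∈ siegelFam Q ∧ M ∈ siegelFam Q ∧ Opp F N M)
      (wedge Q p r) (wedge Q p r') := by
  obtain ⟨f, hf⟩ := exists_hyp hQ h.left_ne_zero h.left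
  have hW := (ndon_top hQ).hypC hf trivial trivial
  have h1 := finrank_hypC (W := ⊤) hf trivial trivial
  rw [finrank_top] at h1
  have proj : ∀ {r : V}, SingLine Q p r → (-polar Q f r) • p + (1 : F) • r ∈ hypC Q ⊤ p f := fun {r} h => by
    refine mem_hypC.2 ⟨trivial, ?_, ?_⟩ <;>
      simp only [polar_add_right, polar_smul_right, h.pp, h.perp, hf.polar_eq', smul_eq_mul] <;> ring
  obtain ⟨z, hz, hqz, h2, h3⟩ := exists_singular_both hW (by omega) (proj h) (proj h')
    (fun h0 => one_ne_zero (h.eq_zero h0).2) (fun h0 => one_ne_zero (h'.eq_zero h0).2) (h.map_comb _ _)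
    (h'.map_comb _ _)
  obtain ⟨-, h6, h7⟩ := mem_hypC.1 hz
  simp only [polar_add_left, polar_smul_left, h6, smul_eq_mul, mul_zero, zero_add, one_mul] at h2 h3
  have hl : SingLine Q f z := by
    refine ⟨LinearIndependent.pair_iff.2 fun s t h0 => ?_, hf.right, hqz, h7⟩
    have e1 := congrArg (polar Q p) h0
    simp only [polar_add_right, polar_smul_right, hf.polar_eq, h6, polar_zero_right, smul_eq_mul, mul_one,
      mul_zero, add_zero] at e1
    have e2 := congrArg (polar Q r) h0
    simp only [e1, zero_smul, zero_add, polar_smul_right, polar_zero_right, smul_eq_mul] at e2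
    exact ⟨e1, (mul_eq_zero.1 e2).resolve_right h2⟩
  have opp : ∀ {r : V}, polar Q r z ≠ 0 → Opp F (wedge Q p r) (wedge Q f z) := fun {r} h0 =>
    ⟨_, by rw [h6, hf.polar_eq]; simpa using h0, wedge_mul_mul _ _ _ _, wedge_mul_mul' _ _ _ _⟩
  exact .head ⟨⟨p, r, h, rfl⟩, ⟨f, z, hl, rfl⟩, opp h2⟩ (.single ⟨⟨f, z, hl, rfl⟩, ⟨p, r', h', rfl⟩, (opp h3).symm⟩)

theorem siegel_chain (hQ : (polarBilin Q).Nondegenerate) (h5 : 5 ≤ finrank F V) :
    ∀ N ∈ siegelFam Q, ∀ M ∈ siegelFam Q,
      Relation.ReflTransGen (fun N M => N ∈ siegelFam Q ∧ M ∈ siegelFam Q ∧ Opp F N M) N M := by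
  rintro _ ⟨p, r, h, rfl⟩ _ ⟨p', r', h', rfl⟩
  obtain ⟨a, b, hab, h0⟩ : ∃ a b : F, a • p' + b • r' ≠ 0 ∧ polar Q p (a • p' + b • r') = 0 := by
    by_cases h1 : polar Q p p' = 0
    · exact ⟨1, 0, fun h0 => one_ne_zero (h'.eq_zero h0).1, by simpa using h1⟩
    · refine ⟨-polar Q p r', polar Q p p', fun h0 => h1 (h'.eq_zero h0).2, ?_⟩
      simp only [polar_add_right, polar_smul_right, smul_eq_mul]; ring
  obtain ⟨x, hx, ex⟩ := h'.rebase hab
  rw [← ex]
  set s := a • p' + b • r'
  by_cases hi : LinearIndependent F ![p, s]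
  · have hl : SingLine Q p s := ⟨hi, h.left, hx.left, h0⟩
    obtain ⟨y, hy, ey⟩ := hl.swap
    refine (chain_of_common hQ h5 h hl).trans ?_
    rw [← ey]
    exact chain_of_common hQ h5 hy hx
  · rw [LinearIndependent.pair_iff' h.left_ne_zero] at hi
    push Not at hi
    obtain ⟨c, hc⟩ := hi
    have hc' : c • p + (0 : F) • r = s := by rw [zero_smul, add_zero, hc]
    obtain ⟨y, hy, ey⟩ := h.rebase (a := c) (b := 0) (hc' ▸ hab)
    rw [hc'] at hy ey
    rw [← ey]
    exact chain_of_common hQ h5 hy hx

end Connected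

theorem siegel_closure (hQ : (polarBilin Q).Nondegenerate) {G : Type*} [Group G] (e : G ≃* OG Q)
    (h : SingLine Q p r) :
    Subgroup.closure {g : G | ∀ v, polar Q v p = 0 → polar Q v r = 0 → (e g).1 v = v} =
      TG F ((ogRep Q).comp e.toMonoidHom) (wedge Q p r) := by
  refine closure_eq_TG fun g => ⟨fun hg => ?_, fun ⟨c, hc⟩ v h1 h2 => ?_⟩
  · obtain ⟨c, hc⟩ := h.exists_eq hQ (e g) fun v h1 h2 => hg v (by rwa [polar_comm]) (by rwa [polar_comm])
    exact ⟨c, LinearMap.ext hc⟩
  · have := LinearMap.congr_fun hc v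
    change (e g).1 v = v + c • wedge Q p r v at this
    rw [this, wedge_apply, polar_comm, h2, polar_comm, h1]
    simp

end CL.Chev.RFam
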