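/-
Triangles of abstract root subgroups: rank one pairs in a class with two commuting members are special.
-/
import Cfsg.Agent.Chev.RootSpecial
import Cfsg.Agent.Chev.RootClass

set_option autoImplicit false

namespace CL.Chev.Root

open Cfsg CL.Chev.SL2
open scoped MatrixGroups commutatorElement

variable {G : Type*} [Group G] {A B C D : Subgroup G} {S : Set (Subgroup G)}

/-- A rank one pair is special as soon as partners have inverse partners. -/
theorem special_of_par_inv (h : IsRankOnePair A B)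
    (hinv : ∀ a ∈ A, ∀ b ∈ B, conjBy A b = conjBy B a → conjBy A b⁻¹ = conjBy B a⁻¹) :
    IsSpecialRankOnePair A B := by
  refine ⟨h, fun a ha _ b hb _ he => ?_⟩
  have hp := hinv _ (A.inv_mem ha) _ (B.inv_mem hb) he
  rw [inv_inv, inv_inv] at hp
  have hnA := par_n_left ha hp
  have hnB : conjBy B (a⁻¹ * b * a⁻¹) = A := by
    rw [← conjBy_conjBy, ← he, conjBy_conjBy, mul_inv_cancel_right, conjBy_of_mem (A.inv_mem ha)]
  have h1 : a⁻¹ * b * a⁻¹ * b * (a⁻¹ * b * a⁻¹)⁻¹ ∈ A := hnB ▸ conj_mem_conjBy hb _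
  have h2 : conjBy B (a⁻¹ * b * a⁻¹ * b * (a⁻¹ * b * a⁻¹)⁻¹) = conjBy B a⁻¹ := by
    nth_rewrite 1 [← hnA]
    rw [conjBy_conjBy, inv_mul_cancel_right, ← conjBy_conjBy, hp, conjBy_conjBy, inv_mul_cancel_right,
      conjBy_mul_of_mem _ hb]
  have h3 := rk_conjBy_injective h h1 (A.inv_mem ha) h2
  have h4 : b * a⁻¹ * b = a⁻¹ * b * a⁻¹ := by
    calc b * a⁻¹ * b = a * (a⁻¹ * b * a⁻¹ * b * (a⁻¹ * b * a⁻¹)⁻¹) * (a⁻¹ * b * a⁻¹) := by group
      _ = _ := by rw [h3]; group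
  calc b⁻¹ * a * b = a⁻¹ * (a⁻¹ * b * a⁻¹)⁻¹ * b := by group
    _ = _ := by rw [← h4]; group

/-- The two lines of a triangle meet only in the apex. -/
theorem tri_eq_one (hA : IsRankOnePair A D) (hC : IsRankOnePair C D) (hAC : ⁅A, C⁆ = ⊥) (hne : A ≠ C) {a c : G}
    (ha : a ∈ A) (hc : c ∈ C) (he : conjBy D a = conjBy D c) : a = 1 := by
  by_contra ha1
  exact hne (rk_eq_of_mem_unip_of_comm hC (mem_unip_of_conjBy_eq hC hA hc ha ha1 he.symm) left_mem_unip hAC)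

/-- A rank one pair lying in a triangle is special. -/
theorem special_of_triangle (hA : IsRankOnePair A D) (hC : IsRankOnePair C D) (hAC : ⁅A, C⁆ = ⊥) (hne : A ≠ C) :
    IsSpecialRankOnePair A D := by
  refine special_of_par_inv hA fun a ha d hd hp => ?_
  have hd1 := par_ne_one_right hA ha hp
  have hcomm := comm_bot_iff.1 hAC
  obtain ⟨c, hc, -, hpc⟩ := rk_exists_left hC hd hd1
  obtain ⟨a', ha', -, hpa'⟩ := rk_exists_left hA (D.inv_mem hd) (inv_ne_one.2 hd1)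
  obtain ⟨c', hc', -, hpc'⟩ := rk_exists_left hC (D.inv_mem hd) (inv_ne_one.2 hd1)
  have h1 := comm_bot_conjBy hAC d
  rw [hp, hpc] at h1
  have h2 : a * d * a⁻¹ * (c * d * c⁻¹) = c * d * c⁻¹ * (a * d * a⁻¹) :=
    comm_bot_iff.1 h1 _ (conj_mem_conjBy hd a) _ (conj_mem_conjBy hd c)
  have hwA : conjBy A (c⁻¹ * a) = A := by
    rw [conjBy_mul_of_mem _ ha]
    exact conjBy_of_commute fun x hx => (hcomm x hx _ (C.inv_mem hc)).symm
  have hwC : conjBy C (c⁻¹ * a) = C := by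
    rw [← conjBy_conjBy, conjBy_of_commute (hcomm a ha), conjBy_of_mem (C.inv_mem hc)]
  have hac := hcomm a ha c hc
  have h3 : conjBy A (a⁻¹ * c * d * (c⁻¹ * a)) = conjBy C d := by
    rw [← conjBy_conjBy, hwA, ← conjBy_conjBy, hp, conjBy_conjBy, hpc, mul_assoc, ← hac, inv_mul_cancel_left]
  have h4 : conjBy A d⁻¹ = conjBy D (a⁻¹ * c * c') := by
    have h5 : d * (a⁻¹ * c * d * (c⁻¹ * a)) = a⁻¹ * c * d * (c⁻¹ * a) * d := by
      calc d * (a⁻¹ * c * d * (c⁻¹ * a)) = a⁻¹ * (a * d * a⁻¹ * (c * d * c⁻¹)) * a := by group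
        _ = a⁻¹ * (c * d * c⁻¹ * (a * d * a⁻¹)) * a := by rw [h2]
        _ = _ := by group
    have h8 : C = conjBy A (d⁻¹ * (a⁻¹ * c * d * (c⁻¹ * a))) := by rw [← conjBy_conjBy, h3, conjBy_conjBy_inv]
    calc conjBy A d⁻¹ = conjBy A ((a⁻¹ * c * d * (c⁻¹ * a))⁻¹ * (d⁻¹ * (a⁻¹ * c * d * (c⁻¹ * a)))) := by
          congr 1
          calc d⁻¹ = (a⁻¹ * c * d * (c⁻¹ * a))⁻¹ * d⁻¹ * (d * (a⁻¹ * c * d * (c⁻¹ * a))) * d⁻¹ := by group
            _ = _ := by rw [h5]; group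
      _ = conjBy C (a⁻¹ * c * d⁻¹ * (c⁻¹ * a)) := by
          rw [← conjBy_conjBy, ← h8]; congr 1; group
      _ = _ := by rw [← conjBy_conjBy, hwC, ← conjBy_conjBy, hpc', conjBy_conjBy]
  have h6 : conjBy D (a * a') = conjBy D (c * c') := by
    rw [← conjBy_conjBy, ← hpa', h4, conjBy_conjBy]
    congr 1; group
  have h7 := tri_eq_one hA hC hAC hne (A.mul_mem ha ha') (C.mul_mem hc hc') h6
  rw [hpa', eq_inv_of_mul_eq_one_right h7]

/-- In a degenerate class with two different commuting members every member is the apex of a triangle. -/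
theorem exists_triangle (hS : IsRootSubgroupClass S) (hdeg : IsDegenerateRootSet S)
    (hcomm : ∃ A ∈ S, ∃ C ∈ S, A ≠ C ∧ ⁅A, C⁆ = ⊥) (hD : D ∈ S) :
    ∃ A ∈ S, ∃ C ∈ S, A ≠ C ∧ ⁅A, C⁆ = ⊥ ∧ IsRankOnePair A D ∧ IsRankOnePair C D := by
  obtain ⟨A, hA, E, hE, hne, hAE⟩ := hcomm
  have hNI := ni_of_degenerate hS hdeg hA hE hne
  by_contra hno
  have key : ∀ B, Relation.ReflTransGen (FAdj S) A B → B ≠ E ∧ ⁅B, E⁆ = ⊥ := by
    intro B hB
    induction hB with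
    | refl => exact ⟨hne, hAE⟩
    | @tail B B' _ h ih =>
      rcases hS.1.pair E hE B' h.2.1 with h1 | h1 | h1
      · refine ⟨?_, comm_bot_symm h1⟩
        rintro rfl
        exact rk_comm_ne_bot h.2.2 ih.2
      · obtain ⟨g, rfl⟩ := hS.2.2 B' h.2.1 D hD
        exact absurd ⟨_, hS.1.conj_mem B h.1 g, _, hS.1.conj_mem E hE g, fun he => ih.1 (conjBy_inj.1 he),
          comm_bot_conjBy ih.2 g, rk_conjBy h.2.2 g, rk_conjBy h1 g⟩ hno
      · exact absurd h1 (hdeg E hE B' h.2.1)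
  obtain ⟨g, rfl⟩ := hS.2.2 A hA E hE
  exact (key _ ((hNI A hA).fconn_conjBy hS.1 hA g)).1 rfl

/-- If `B` is the apex of a triangle and has more than three elements, then no rank one partner `B'` of `B` commutes
with all members other than `B` commuting with `B`. -/
theorem not_twin_of_triangle (hS : IsRootSubgroupSet S) (hB : B ∈ S) (hA : IsRankOnePair A B)
    (hC : IsRankOnePair C B) (hAC : ⁅A, C⁆ = ⊥) (hne : A ≠ C) (h3 : 3 < ENat.card B) (h3A : 3 < ENat.card A)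
    {B' : Subgroup G} (hB' : IsRankOnePair B B') (htw : ∀ E ∈ S, E ≠ B → ⁅B, E⁆ = ⊥ → ⁅E, B'⁆ = ⊥) : False := by
  have hs := special_symm (special_of_triangle hA hC hAC hne)
  have hBc := rs_comm hS hB
  have hcomm := comm_bot_iff.1 hAC
  obtain ⟨b, hb, h, hh, hbh⟩ : ∃ b ∈ B, ∃ h ∈ rankOneDiagonal B A, b * h ≠ h * b := by
    by_contra hno
    push Not at hno
    have := sp_comm_diag_eq hs (hS.commutative B hB) h3
    rw [comm_bot_iff.2 hno] at this
    exact hS.ne_bot B hB this.symm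
  have hb1 : b ≠ 1 := by rintro rfl; simp at hbh
  have hhB : conjBy B h = B := mem_normalizer_iff_conjBy.1 hh.1.2
  obtain ⟨x, hx, hx1, hpx⟩ := rk_exists_left hA (B.inv_mem hb) (inv_ne_one.2 hb1)
  obtain ⟨c, hc, -, hpc⟩ := rk_exists_left hC (B.inv_mem hb) (inv_ne_one.2 hb1)
  have hw : ⁅B, conjBy B (x⁻¹ * c)⁆ = ⊥ := by
    have h1 := comm_bot_conjBy (comm_bot_conjBy hAC b⁻¹) x⁻¹
    rwa [hpx, hpc, conjBy_conjBy_inv, conjBy_conjBy] at h1
  obtain ⟨t, ht⟩ : ∃ t, t = b * (x⁻¹ * c) * b⁻¹ * (x⁻¹ * c)⁻¹ := ⟨_, rfl⟩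
  have htB : ∀ b' ∈ B, t * b' = b' * t := by
    intro b' hb'
    have h1 : Commute b b' := hBc b hb b' hb'
    have h2 : Commute b' ((x⁻¹ * c) * b⁻¹ * (x⁻¹ * c)⁻¹) :=
      comm_bot_iff.1 hw b' hb' _ (conj_mem_conjBy (B.inv_mem hb) _)
    have := (h1.mul_left h2.symm).eq
    rw [ht]
    simpa only [mul_assoc] using this
  have hxA : conjBy A (x⁻¹ * c)⁻¹ = A := by
    rw [mul_inv_rev, inv_inv, conjBy_mul_of_mem _ hx]
    exact conjBy_of_commute fun y hy => (hcomm y hy _ (C.inv_mem hc)).symm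
  have htA : conjBy A t = C := by
    rw [ht, ← conjBy_conjBy, hxA, ← conjBy_conjBy, hpx, conjBy_conjBy, mul_assoc b, mul_assoc x⁻¹,
      ← hcomm x hx c hc, inv_mul_cancel_left, ← conjBy_conjBy, ← hpc, conjBy_inv_conjBy]
  have hσ : ∀ y ∈ A, t * y * t⁻¹ ∈ C := fun y hy => htA ▸ conj_mem_conjBy hy t
  have htB' : conjBy B t = B := conjBy_of_commute htB
  have hcx : c = t * x * t⁻¹ := by
    refine rk_conjBy_injective hC hc (hσ x hx) ?_
    rw [← hpc, ← htA, conjBy_conjBy, ← htB _ (B.inv_mem hb), ← conjBy_conjBy, hpx, conjBy_conjBy,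
      ← conjBy_conjBy B t⁻¹, conjBy_inv_eq_self htB']
  have hAc := isMulCommutative_iff'.1 (show IsMulCommutative A by
    obtain ⟨g, -, hg⟩ := rk_exists_conjBy_eq (RankOnePair_symm hA)
    exact hg ▸ isMulCommutative_conjBy (hS.commutative B hB) g)
  have hmem : ∀ y ∈ A, y ≠ 1 → conjBy B (y⁻¹ * (t * y * t⁻¹)) ∈ S ∧ conjBy B (y⁻¹ * (t * y * t⁻¹)) ≠ B ∧
      ⁅B, conjBy B (y⁻¹ * (t * y * t⁻¹))⁆ = ⊥ := by
    intro y hy hy1
    refine ⟨hS.conj_mem B hB _, fun he => hy1 ?_, ?_⟩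
    · exact tri_eq_one hA hC hAC hne hy (hσ y hy) (conjBy_eq_conjBy_iff.2 he).symm
    · obtain ⟨b', hb', -, hp'⟩ := rk_exists_right hA hy hy1
      have h1 := comm_bot_conjBy (comm_bot_conjBy hAC b') y⁻¹
      rw [hp', conjBy_conjBy_inv, ← htA, conjBy_conjBy A, ← htB b' hb', ← conjBy_conjBy A, hp', conjBy_conjBy,
        conjBy_conjBy] at h1
      rwa [← mul_assoc, ← conjBy_conjBy B t⁻¹, conjBy_inv_eq_self htB', ← mul_assoc]
  obtain ⟨⟨y, hy⟩, hy1, hyx, -⟩ := exists_ne_of_three_lt_card h3A 1 ⟨x⁻¹, A.inv_mem hx⟩ 1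
  have hy1' : y ≠ 1 := fun h => hy1 (Subtype.ext h)
  have hyx' : y * x ≠ 1 := fun h => hyx (Subtype.ext (eq_inv_of_mul_eq_one_left h))
  have hmul : (y * x)⁻¹ * (t * (y * x) * t⁻¹) = y⁻¹ * (t * y * t⁻¹) * (x⁻¹ * (t * x * t⁻¹)) := by
    have h1 : Commute x⁻¹ (t * y * t⁻¹) := hcomm _ (A.inv_mem hx) _ (hσ y hy)
    have h2 : Commute x⁻¹ y⁻¹ := hAc _ (A.inv_mem hx) _ (A.inv_mem hy)
    calc (y * x)⁻¹ * (t * (y * x) * t⁻¹) = x⁻¹ * (y⁻¹ * (t * y * t⁻¹)) * (t * x * t⁻¹) := by group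
      _ = _ := by rw [(h2.mul_right h1).eq]; group
  have E1 := hmem x hx hx1
  have E2 := hmem y hy hy1'
  have E3 := hmem _ (A.mul_mem hy hx) hyx'
  rw [hmul] at E3
  rw [← hcx] at E1 E3
  set w := x⁻¹ * c with hwdef
  set w' := y⁻¹ * (t * y * t⁻¹) with hw'def
  have hcent : ∀ E ∈ S, E ≠ B → ⁅B, E⁆ = ⊥ → ∀ e ∈ E, ∀ b' ∈ B', Commute e b' ∧ Commute (h * e * h⁻¹) b' := by
    intro E hE hEB hBE e he b' hb'
    refine ⟨comm_bot_iff.1 (htw E hE hEB hBE) e he b' hb', comm_bot_iff.1 (htw _ (hS.conj_mem E hE h) ?_ ?_) _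
      (conj_mem_conjBy he h) b' hb'⟩
    · intro he'
      exact hEB (conjBy_inj.1 (he'.trans hhB.symm))
    · have := comm_bot_conjBy hBE h
      rwa [hhB] at this
  have m1 := conj_mem_conjBy hb w
  have m2 := conj_mem_conjBy hb w'
  have m3 := conj_mem_conjBy (B.inv_mem hb) (w' * w)
  set e1 := w * b * w⁻¹ with he1
  set e2 := w' * b * w'⁻¹ with he2
  set e3 := w' * w * b⁻¹ * (w' * w)⁻¹ with he3
  have hz : t⁻¹ * (w' * t * w'⁻¹) = b⁻¹ * (e1 * e2 * e3) := by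
    have h1 : Commute b⁻¹ e1 := comm_bot_iff.1 E1.2.2 _ (B.inv_mem hb) _ m1
    rw [← mul_assoc b⁻¹, ← mul_assoc b⁻¹, h1.eq, he1, he2, he3]
    clear_value w w'
    rw [ht]
    group
  have hzB : ∀ b' ∈ B, b⁻¹ * (e1 * e2 * e3) * b' = b' * (b⁻¹ * (e1 * e2 * e3)) := by
    intro b' hb'
    have h0 : Commute b' b⁻¹ := hBc _ hb' _ (B.inv_mem hb)
    have h1 : Commute b' e1 := comm_bot_iff.1 E1.2.2 _ hb' _ m1
    have h2 : Commute b' e2 := comm_bot_iff.1 E2.2.2 _ hb' _ m2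
    have h3 : Commute b' e3 := comm_bot_iff.1 E3.2.2 _ hb' _ m3
    exact (h0.mul_right ((h1.mul_right h2).mul_right h3)).symm.eq
  have hzA : ∀ a ∈ A, b⁻¹ * (e1 * e2 * e3) * a = a * (b⁻¹ * (e1 * e2 * e3)) := by
    intro a ha
    rw [← hz]
    have hCc := isMulCommutative_iff'.1 (htA ▸ isMulCommutative_conjBy (isMulCommutative_iff'.2 hAc) t)
    have h1 : Commute a w' := Commute.mul_right (hAc _ ha _ (A.inv_mem hy)) (hcomm _ ha _ (hσ y hy))
    have h2 : Commute (t * a * t⁻¹) w' :=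
      Commute.mul_right (hcomm _ (A.inv_mem hy) _ (hσ a ha)).symm (hCc _ (hσ a ha) _ (hσ y hy))
    calc t⁻¹ * (w' * t * w'⁻¹) * a = t⁻¹ * w' * t * (w'⁻¹ * a) := by group
      _ = t⁻¹ * (w' * (t * a * t⁻¹)) * t * w'⁻¹ := by rw [← h1.inv_right.eq]; group
      _ = _ := by rw [← h2.eq]; group
  have hzh := commute_sup hzB hzA h hh.1.1
  have hfin : h * b * h⁻¹ * b⁻¹ = 1 := by
    refine rk_eq_one_of_commute hB' (B.mul_mem (hhB ▸ conj_mem_conjBy hb h) (B.inv_mem hb)) fun b' hb' => ?_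
    have c1 := hcent _ E1.1 E1.2.1 E1.2.2 _ m1 b' hb'
    have c2 := hcent _ E2.1 E2.2.1 E2.2.2 _ m2 b' hb'
    have c3 := hcent _ E3.1 E3.2.1 E3.2.2 _ m3 b' hb'
    have : h * b * h⁻¹ * b⁻¹ = (h * e1 * h⁻¹) * (h * e2 * h⁻¹) * (h * e3 * h⁻¹) * (e1 * e2 * e3)⁻¹ := by
      calc h * b * h⁻¹ * b⁻¹ = h * b * h⁻¹ * (b⁻¹ * (e1 * e2 * e3) * h) * h⁻¹ * (e1 * e2 * e3)⁻¹ := by group
        _ = _ := by rw [hzh]; group
    rw [this]
    exact (((c1.2.mul_left c2.2).mul_left c3.2).mul_left ((c1.1.mul_left c2.1).mul_left c3.1).inv_left).eq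
  apply hbh
  calc b * h = (h * b * h⁻¹ * b⁻¹) * b * h := by rw [hfin, one_mul]
    _ = _ := by group

/-- In a degenerate class with two different commuting members, each with more than three elements, all rank one
pairs are special. -/
theorem special_of_degenerate (hS : IsRootSubgroupClass S) (hdeg : IsDegenerateRootSet S)
    (hcomm : ∃ A ∈ S, ∃ C ∈ S, A ≠ C ∧ ⁅A, C⁆ = ⊥) (h3 : ∀ E ∈ S, 3 < ENat.card E) (hA : A ∈ S) (hB : B ∈ S)
    (h : IsRankOnePair A B) : IsSpecialRankOnePair A B := by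
  by_cases htw : ∀ E ∈ S, E ≠ A → ⁅A, E⁆ = ⊥ → ⁅E, B⁆ = ⊥
  · obtain ⟨A', hA', C', -, hne, hc, h1, h2⟩ := exists_triangle hS hdeg hcomm hA
    exact (not_twin_of_triangle hS.1 hA h1 h2 hc hne (h3 A hA) (h3 A' hA') h htw).elim
  · push Not at htw
    obtain ⟨E, hE, hne, hc, hEB⟩ := htw
    rcases hS.1.pair E hE B hB with h1 | h1 | h1
    · exact absurd h1 hEB
    · exact special_of_triangle h h1 hc hne.symm
    · exact absurd h1 (hdeg E hE B hB)

/-- The image of the unitriangular group under a homomorphism with central kernel has as many elements as the field. -/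
theorem IsPSL2PairOver.card_le {k : Type*} [Field k] (h : IsPSL2PairOver k A B) : ENat.card k ≤ ENat.card A := by
  obtain ⟨φ, -, hk, hA, -⟩ := h
  refine ENat.card_le_card_of_injective (f := fun t => (⟨φ (up t), hA ▸ Subgroup.mem_map_of_mem φ (up_mem t)⟩ : A))
    fun s t hst => ?_
  have h1 : φ (up s) = φ (up t) := congrArg Subtype.val hst
  have h2 : up (s - t) ∈ φ.ker := by
    rw [MonoidHom.mem_ker, sub_eq_add_neg, up_add, up_neg, map_mul, map_inv, h1, mul_inv_cancel]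
  rcases sl2_center_eq (hk h2) with h3 | h3 <;>
  · have := congrArg (fun g : SL(2, k) => g 0 1) h3
    simp only [up_01] at this
    exact sub_eq_zero.1 (by simpa using this)

end CL.Chev.Root
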