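import Cfsg.Agent.Chev.TabLead

/-!
# Subgroups containing `N` and some root subgroups
-/

set_option autoImplicit false

namespace CL.Chev.Tab

open Cfsg Cfsg.Lie Cert

variable {D : ChevalleyDatum} {A : Aux} (T : Tab D A) (E : Real D) {F : Type*} [Field F] {Y : Subgroup (GL D.Idx F)}
  (hN : (E.S F).N ≤ Y)
include T hN

theorem xN_mem_of_len {r s : ℕ} (hr : r < A.n) (hs : s < A.n) (h : A.len r = A.len s) (e : ∀ t, E.xN r t ∈ Y) (t : F) :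
    E.xN s t ∈ Y := by
  obtain ⟨w, hw, h1⟩ := T.exists_W E (r := ⟨s, T.lt_nroots hs⟩) (s := ⟨r, T.lt_nroots hr⟩) h.symm
  obtain ⟨n, hn, h2⟩ := (E.S F).exists_induces_of_mem_W hw
  obtain ⟨c, -, h3⟩ := h2.exists_conj ⟨s, T.lt_nroots hs⟩
  have := e (c * t)
  rw [E.xN_of_lt (T.lt_nroots hr), ← h1, ← h3, mul_mem_cancel_right (inv_mem (hN hn)), mul_mem_cancel_left (hN hn)] at this
  rwa [E.xN_of_lt (T.lt_nroots hs)]

theorem grp_le_two {a b : ℕ} (h : (Nat.blt a A.n && Nat.blt b A.n &&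
    allLt A.n fun r => beqZ (A.len a) (A.len r) || beqZ (A.len b) (A.len r)) = true) (ha : ∀ t, E.xN a t ∈ Y)
    (hb : ∀ t, E.xN b t ∈ Y) : (E.S F).grp ≤ Y := by
  simp only [Bool.and_eq_true, Nat.blt_eq, allLt_iff, Bool.or_eq_true, beqZ_iff] at h
  exact (E.S F).XS_le_iff.2 fun r _ t => E.xN_coe r t ▸ (h.2 r (T.lt_n r)).elim
    (fun e => T.xN_mem_of_len E hN h.1.1 (T.lt_n r) e ha t) fun e => T.xN_mem_of_len E hN h.1.2 (T.lt_n r) e hb t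

theorem grp_le_short {a : ℕ} (r s k : ℕ) (c : ℤ) (hc : (c : F) ≠ 0) (h : (Nat.blt r A.n && Nat.blt s A.n && !Nat.beq s r &&
    !Nat.beq s (A.ng r) && beqZ (A.len a) (A.len r) && beqZ (A.len a) (A.len s) && decide (A.aTerms r s = [(k, c, 1, 1)]) &&
    (Nat.blt a A.n && Nat.blt k A.n && allLt A.n fun r => beqZ (A.len a) (A.len r) || beqZ (A.len k) (A.len r))) = true)
    (ha : ∀ t, E.xN a t ∈ Y) : (E.S F).grp ≤ Y := by
  rw [Bool.and_eq_true] at h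
  refine T.grp_le_two E hN h.2 ha fun t => ?_
  simp only [Bool.and_eq_true, Nat.blt_eq, beqZ_iff, decide_eq_true_eq, Bool.not_eq_true', ← Bool.not_eq_true, beq_iff'] at h
  obtain ⟨⟨⟨⟨⟨⟨⟨h1, h2⟩, h3⟩, h4⟩, h5⟩, h6⟩, h7⟩, ⟨h8, -⟩, -⟩ := h
  have a1 := T.xN_mem_of_len E hN h8 h1 h5 ha ((c : F)⁻¹ * t)
  have a2 := T.xN_mem_of_len E hN h8 h2 h6 ha 1
  have := mul_mem (mul_mem a1 a2) (inv_mem a1)
  rw [T.conj_xN E h1 h2 h3 h4, h7, mul_mem_cancel_left a2] at this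
  simpa [hc] using this

end CL.Chev.Tab
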